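import Mathlib
import Cfsg.Agent.H5.ExcSmall
import Cfsg.Agent.H5.Pfaff
import Cfsg.Agent.H5.SpSimple
import Cfsg.Agent.H5.SpOrder

set_option autoImplicit false

/-! `PΩ₅(q) ≅ PSp₄(q)`, `q` odd. -/

namespace Cfsg.Agent.H5

open Matrix Cfsg

section five

variable {F : Type*} [Field F]

local notation "Sp₄" => Matrix.symplecticGroup (Fin 2) F

/-- symplectic matrices as `4 × 4` matrices -/
def spA (F : Type*) [Field F] : Matrix.symplecticGroup (Fin 2) F →* Matrix (Fin 4) (Fin 4) F where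
  toFun g := (Matrix.reindexAlgEquiv F F (finSumFinEquiv (m := 2) (n := 2))) (g : Matrix (Fin 2 ⊕ Fin 2) (Fin 2 ⊕ Fin 2) F)
  map_one' := map_one (Matrix.reindexAlgEquiv F F (finSumFinEquiv (m := 2) (n := 2)))
  map_mul' g h := map_mul (Matrix.reindexAlgEquiv F F (finSumFinEquiv (m := 2) (n := 2))) _ _

theorem spA_apply (g : Sp₄) (i j : Fin 4) : spA F g i j =
    (g : Matrix (Fin 2 ⊕ Fin 2) (Fin 2 ⊕ Fin 2) F) (finSumFinEquiv.symm i) (finSumFinEquiv.symm j) := rfl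

theorem spA_det (g : Sp₄) : (spA F g).det = 1 := by
  show ((Matrix.reindexAlgEquiv F F (finSumFinEquiv (m := 2) (n := 2))) (g : Matrix (Fin 2 ⊕ Fin 2) (Fin 2 ⊕ Fin 2) F)).det = 1
  rw [Matrix.det_reindexAlgEquiv, SymplecticGroup.det_eq_one g.2]

theorem J_reindex : (Matrix.reindexAlgEquiv F F (finSumFinEquiv (m := 2) (n := 2))) (Matrix.J (Fin 2) F) = alt4 0 (-1) 0 0 (-1) 0 := by
  have h0 : (finSumFinEquiv (m := 2) (n := 2)).symm 0 = Sum.inl 0 := rfl
  have h1 : (finSumFinEquiv (m := 2) (n := 2)).symm 1 = Sum.inl 1 := rfl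
  have h2 : (finSumFinEquiv (m := 2) (n := 2)).symm 2 = Sum.inr 0 := rfl
  have h3 : (finSumFinEquiv (m := 2) (n := 2)).symm 3 = Sum.inr 1 := rfl
  ext i j
  rw [Matrix.reindexAlgEquiv_apply, Matrix.reindex_apply, Matrix.submatrix_apply]
  fin_cases i <;> fin_cases j <;>
    simp only [Fin.zero_eta, Fin.mk_one, Fin.reduceFinMk, h0, h1, h2, h3, Matrix.J, Matrix.fromBlocks_apply₁₁,
      Matrix.fromBlocks_apply₁₂, Matrix.fromBlocks_apply₂₁, Matrix.fromBlocks_apply₂₂, Matrix.zero_apply,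
      Matrix.neg_apply, Matrix.one_apply] <;> simp [alt4]

theorem spA_J (g : Sp₄) : spA F g * alt4 0 (-1) 0 0 (-1) 0 * (spA F g)ᵀ = alt4 0 (-1) 0 0 (-1) 0 := by
  have h := (SymplecticGroup.mem_iff).1 g.2
  have h1 : (spA F g)ᵀ = (Matrix.reindexAlgEquiv F F (finSumFinEquiv (m := 2) (n := 2))) (g : Matrix (Fin 2 ⊕ Fin 2) (Fin 2 ⊕ Fin 2) F)ᵀ := rfl
  rw [← J_reindex, h1]
  show (Matrix.reindexAlgEquiv F F (finSumFinEquiv (m := 2) (n := 2))) (g : Matrix (Fin 2 ⊕ Fin 2) (Fin 2 ⊕ Fin 2) F) * _ * _ = _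
  rw [← map_mul, ← map_mul, h]

/-- alternating matrices orthogonal to the form -/
def m5 (F : Type*) [Field F] : (Unit ⊕ (Fin 2 ⊕ Fin 2) → F) →ₗ[F] Matrix (Fin 4) (Fin 4) F where
  toFun v := alt4 (v (.inr (.inl 0))) (v (.inl ())) (v (.inr (.inl 1))) (v (.inr (.inr 1))) (- v (.inl ())) (v (.inr (.inr 0)))
  map_add' x y := by
    ext i j
    fin_cases i <;> fin_cases j <;> simp [alt4] <;> ring
  map_smul' c x := by
    ext i j
    fin_cases i <;> fin_cases j <;> simp [alt4]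

theorem m5_apply (v : Unit ⊕ (Fin 2 ⊕ Fin 2) → F) :
    m5 F v = alt4 (v (.inr (.inl 0))) (v (.inl ())) (v (.inr (.inl 1))) (v (.inr (.inr 1))) (- v (.inl ())) (v (.inr (.inr 0))) := rfl

theorem m5_inj : Function.Injective (m5 F) := by
  intro x y h
  rw [m5_apply, m5_apply] at h
  funext k
  rcases k with ⟨⟩ | k | k
  · exact congrFun (congrFun h 0) 2
  · fin_cases k
    · exact congrFun (congrFun h 0) 1
    · exact congrFun (congrFun h 0) 3
  · fin_cases k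
    · exact congrFun (congrFun h 2) 3
    · exact congrFun (congrFun h 1) 2

theorem m5_pf (v : Unit ⊕ (Fin 2 ⊕ Fin 2) → F) : pf4 (m5 F v) = qOdd 2 F v := by
  rw [m5_apply, pf4_alt4, qOdd_coe]
  simp [quadFormOdd, Fin.sum_univ_two]
  ring

theorem alt4_add (a b c d e f a' b' c' d' e' f' : F) : alt4 a b c d e f + alt4 a' b' c' d' e' f' =
    alt4 (a + a') (b + b') (c + c') (d + d') (e + e') (f + f') := by
  ext i j
  fin_cases i <;> fin_cases j <;> simp [alt4] <;> ring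

theorem m5_st (g : Sp₄) (v : Unit ⊕ (Fin 2 ⊕ Fin 2) → F) :
    ∃ w, m5 F w = spA F g * m5 F v * (spA F g)ᵀ ∧ qOdd 2 F w = qOdd 2 F v := by
  have h1 := alt4_conj (spA F g) (v (.inr (.inl 0))) (v (.inl ())) (v (.inr (.inl 1))) (v (.inr (.inr 1))) (- v (.inl ())) (v (.inr (.inr 0)))
  have h2 := pf4_conj (spA F g) (v (.inr (.inl 0))) (v (.inl ())) (v (.inr (.inl 1))) (v (.inr (.inr 1))) (- v (.inl ())) (v (.inr (.inr 0)))
  rw [← m5_apply] at h1 h2
  obtain ⟨X, hX⟩ : ∃ X, X = spA F g * m5 F v * (spA F g)ᵀ := ⟨_, rfl⟩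
  rw [← hX] at h1 h2 ⊢
  rw [spA_det, one_mul] at h2
  -- the trace condition
  have h3 : X + alt4 0 (-1) 0 0 (-1) 0 = spA F g * (m5 F v + alt4 0 (-1) 0 0 (-1) 0) * (spA F g)ᵀ := by
    rw [Matrix.mul_add, Matrix.add_mul, spA_J, ← hX]
  have h4 : m5 F v + alt4 0 (-1) 0 0 (-1) 0 = alt4 (v (.inr (.inl 0)) + 0) (v (.inl ()) + -1) (v (.inr (.inl 1)) + 0)
      (v (.inr (.inr 1)) + 0) (- v (.inl ()) + -1) (v (.inr (.inr 0)) + 0) := by
    rw [m5_apply, alt4_add]
  have h5 : pf4 (X + alt4 0 (-1) 0 0 (-1) 0) = _ := (congrArg pf4 (h3.trans (by rw [h4]))).trans (pf4_conj (spA F g) _ _ _ _ _ _)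
  rw [spA_det, one_mul, h1, alt4_add, pf4_alt4] at h5
  rw [h1, pf4_alt4] at h2
  have h6 : X 1 3 = - X 0 2 := by linear_combination h5 - h2
  have h7 : m5 F (Sum.elim (fun _ => X 0 2) (Sum.elim ![X 0 1, X 0 3] ![X 2 3, X 1 2])) = X := by
    rw [m5_apply]
    conv_rhs => rw [h1, h6]
    simp
  refine ⟨_, h7, ?_⟩
  rw [← m5_pf, ← m5_pf, h7, h1, pf4_alt4, m5_apply, pf4_alt4]
  exact h2

theorem alt4_smul (t a b c d e f : F) : t • alt4 a b c d e f = alt4 (t * a) (t * b) (t * c) (t * d) (t * e) (t * f) := by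
  ext i j
  fin_cases i <;> fin_cases j <;> simp [alt4]

theorem pom5 [Fintype F] (hodd : Odd (Fintype.card F)) :
    Nonempty (POmega F (quadFormOdd 2 F) ≃* PSp 2 F) := by
  have h2 := odd_iff_two_ne hodd
  have hq3 : 3 ≤ Fintype.card F := by
    have h1 : 1 < Fintype.card F := Fintype.one_lt_card
    rw [Nat.odd_iff] at hodd
    omega
  let φ : Sp₄ →* OG (qOdd 2 F) := matAct (qOdd 2 F) (spA F) (fun g => (spA F g)ᵀ)
    (by rw [map_one, Matrix.transpose_one]) (fun g h => by rw [map_mul, Matrix.transpose_mul]) (m5 F) m5_inj m5_st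
  let z : Sp₄ := spScalar (-1) (by ring)
  have hz : z ∈ Subgroup.center Sp₄ := sp_mem_center_of_scalar (c := -1) rfl
  have hzz : z * z = 1 := by
    apply Subtype.ext
    show ((-1 : F) • (1 : Matrix (Fin 2 ⊕ Fin 2) (Fin 2 ⊕ Fin 2) F)) * ((-1 : F) • 1) = 1
    rw [Matrix.smul_mul, Matrix.mul_smul, smul_smul, Matrix.mul_one]
    norm_num
  have hker : ∀ g, φ g = 1 → g = 1 ∨ g = z := by
    intro g hg
    have h1 := matAct_ker _ _ _ _ _ _ _ _ g hg
    obtain ⟨r, hr, hgr⟩ := scalar_of_fix_alt (spA F g) (by rw [spA_det]; exact isUnit_one) (by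
      intro a b c d e f
      have h3 : alt4 a b c d e f = m5 F (Sum.elim (fun _ => (b - e) / 2) (Sum.elim ![a, c] ![f, d])) +
          ((-(b + e) / 2)) • alt4 0 (-1) 0 0 (-1) 0 := by
        rw [m5_apply, alt4_smul, alt4_add]
        congr 1
        · simp
        · simp
          field_simp
          ring
        · simp
        · simp
        · simp
          field_simp
          ring
        · simp
      rw [h3, Matrix.mul_add, Matrix.add_mul, h1, Matrix.mul_smul, Matrix.smul_mul, spA_J])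
    have hg' : (g : Matrix (Fin 2 ⊕ Fin 2) (Fin 2 ⊕ Fin 2) F) = r • (1 : Matrix (Fin 2 ⊕ Fin 2) (Fin 2 ⊕ Fin 2) F) := by
      apply (Matrix.reindexAlgEquiv F F (finSumFinEquiv (m := 2) (n := 2))).injective
      rw [map_smul, map_one]
      exact hgr
    rcases mul_self_eq_one_iff.1 hr with rfl | rfl
    · left
      apply Subtype.ext
      rw [hg', one_smul]; rfl
    · right
      apply Subtype.ext
      exact hg'
  have hfr : Module.finrank F (Unit ⊕ (Fin 2 ⊕ Fin 2) → F) = 5 := by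
    rw [Module.finrank_fintype_fun_eq_card]; rfl
  have hcard : Nat.card (OG (qOdd 2 F)) = 2 * Nat.card Sp₄ := by
    have h8 := Cfsg.Agent.S0286.result (F := F) rfl hodd 2
    rw [← Nat.card_congr (ogEquiv (qOdd 2 F)).toEquiv, qOdd_coe]
    have h9 : Nat.card Sp₄ = _ := card_Sp rfl 2
    rw [h9]
    refine h8.trans ?_
    ring
  have hperf : commutator Sp₄ = ⊤ := sp_perfect (Or.inr (Or.inl ⟨rfl, hq3⟩))
  obtain ⟨e⟩ := pom_iso φ z hzz hz (fun h => absurd h h2) hker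
    (sqTop_of_perfect hperf) (sq_mem_comm_odd h2 (nd_odd h2) (by omega)) (fun h => absurd h h2)
    (fun h => comm_index_odd h (nd_odd h2) (by omega)) hcard
  have e2 := (pomCongr (Q := qOdd 2 F) (Q' := qOdd 2 F) (LinearEquiv.refl F _) (fun x => rfl)).trans e
  rw [qOdd_coe] at e2
  exact ⟨e2⟩

end five

end Cfsg.Agent.H5
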