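import Mathlib
import Cfsg.Agent.H5.OrthForms
import Cfsg.Agent.H5.SpOrder
set_option autoImplicit false

/-! Odd dimensional orthogonal groups in characteristic two. -/

namespace Cfsg.Agent.H5

open Matrix Cfsg

section sp

variable {F : Type*} [Field F] [Finite F] {m : ℕ}

theorem symp_eq_plus (h2 : (2 : F) = 0) (u v : Fin m ⊕ Fin m → F) : sympForm m F u v = pB (qPlus m F) u v := by
  rw [sympForm_eq, pB_plus]
  apply Finset.sum_congr rfl
  intro i _
  linear_combination -(u (Sum.inl i) * v (Sum.inr i)) * h2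

/-- extend by zero -/
def ext0 (u : Fin m ⊕ Fin m → F) : Unit ⊕ (Fin m ⊕ Fin m) → F := Sum.elim (fun _ => 0) u

theorem pB_odd2 (h2 : (2 : F) = 0) (x y : Unit ⊕ (Fin m ⊕ Fin m) → F) :
    pB (qOdd m F) x y = pB (qPlus m F) (fun k => x (Sum.inr k)) (fun k => y (Sum.inr k)) := by
  rw [pB_odd, pB_plus, h2, zero_mul, zero_add]

theorem qOdd_eq (x : Unit ⊕ (Fin m ⊕ Fin m) → F) :
    qOdd m F x = x (Sum.inl ()) ^ 2 + qPlus m F (fun k => x (Sum.inr k)) := by
  rw [qOdd_coe, qPlus_coe]; rfl

theorem sq_inj (h2 : (2 : F) = 0) {a b : F} (h : a ^ 2 = b ^ 2) : a = b := by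
  have h3 : (a - b) * (a - b) = 0 := by linear_combination h - (a * b - b ^ 2) * h2
  exact sub_eq_zero.mp (mul_self_eq_zero.mp h3)

theorem odd_fix_e0 (h2 : (2 : F) = 0) (g : OG (qOdd m F)) :
    g (Pi.single (Sum.inl ()) 1) = Pi.single (Sum.inl ()) 1 := by
  classical
  have h1 : ∀ k, g (Pi.single (Sum.inl ()) 1) (Sum.inr k) = 0 := by
    have h3 : (fun k => g (Pi.single (Sum.inl ()) 1) (Sum.inr k)) = (0 : Fin m ⊕ Fin m → F) := by
      apply nd_plus
      intro y
      have h4 : y = fun k => (g ((g⁻¹ : OG (qOdd m F)) (ext0 y))) (Sum.inr k) := by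
        funext k
        rw [og_inv']; rfl
      rw [h4, ← pB_odd2 h2, og_p, pB_odd2 h2]
      have : (fun k => (Pi.single (Sum.inl ()) 1 : Unit ⊕ (Fin m ⊕ Fin m) → F) (Sum.inr k)) = 0 := by
        funext k
        simp
      rw [this, map_zero, LinearMap.zero_apply]
    intro k
    exact congrFun h3 k
  have h3 := og_q g (Pi.single (Sum.inl ()) 1)
  rw [qOdd_eq, qOdd_eq] at h3
  have e1 : (fun k => g (Pi.single (Sum.inl ()) 1) (Sum.inr k)) = (0 : Fin m ⊕ Fin m → F) := funext h1
  have e2 : (fun k => (Pi.single (Sum.inl ()) 1 : Unit ⊕ (Fin m ⊕ Fin m) → F) (Sum.inr k)) = 0 := by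
    funext k
    simp
  rw [e1, e2] at h3
  have h4 := sq_inj h2 (add_right_cancel h3)
  funext k
  rcases k with ⟨⟩ | k
  · exact h4
  · rw [h1 k]; simp

/-- the induced map on the quotient by the radical -/
noncomputable def redMap (g : OG (qOdd m F)) : (Fin m ⊕ Fin m → F) →ₗ[F] (Fin m ⊕ Fin m → F) where
  toFun u := fun k => g (ext0 u) (Sum.inr k)
  map_add' u v := by
    have : ext0 (u + v) = ext0 u + ext0 v := by
      funext k
      rcases k with k | k
      · exact (add_zero _).symm
      · rfl
    funext k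
    rw [this, og_add]; rfl
  map_smul' a u := by
    have : ext0 (a • u) = a • ext0 u := by
      funext k
      rcases k with k | k
      · exact (mul_zero _).symm
      · rfl
    funext k
    rw [this, og_smul]; rfl

theorem redMap_apply (g : OG (qOdd m F)) (u : Fin m ⊕ Fin m → F) (k : Fin m ⊕ Fin m) :
    redMap g u k = g (ext0 u) (Sum.inr k) := rfl

theorem red_eq (h2 : (2 : F) = 0) (g : OG (qOdd m F)) (x : Unit ⊕ (Fin m ⊕ Fin m) → F) (k : Fin m ⊕ Fin m) :
    g x (Sum.inr k) = redMap g (fun j => x (Sum.inr j)) k := by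
  classical
  have : x = ext0 (fun j => x (Sum.inr j)) + x (Sum.inl ()) • Pi.single (Sum.inl ()) 1 := by
    funext k
    rcases k with ⟨⟩ | k
    · simp [ext0]
    · simp [ext0]
  rw [redMap_apply]
  conv_lhs => rw [this, og_add, og_smul, odd_fix_e0 h2]
  simp

theorem redMap_mul (h2 : (2 : F) = 0) (g h : OG (qOdd m F)) (u : Fin m ⊕ Fin m → F) :
    redMap (g * h) u = redMap g (redMap h u) := by
  funext k
  rw [redMap_apply, og_mul, red_eq h2]
  rfl

theorem redMap_p (h2 : (2 : F) = 0) (g : OG (qOdd m F)) (u v : Fin m ⊕ Fin m → F) :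
    pB (qPlus m F) (redMap g u) (redMap g v) = pB (qPlus m F) u v := by
  have h1 := og_p g (ext0 u) (ext0 v)
  rw [pB_odd2 h2, pB_odd2 h2] at h1
  exact h1

/-- the homomorphism to the symplectic group -/
noncomputable def toSp (h2 : (2 : F) = 0) : OG (qOdd m F) →* Matrix.symplecticGroup (Fin m) F where
  toFun g := ⟨LinearMap.toMatrix' (redMap g), by
    rw [mem_Sp_iff]
    intro u v
    rw [sympB_apply, sympB_apply, LinearMap.toMatrix'_mulVec, LinearMap.toMatrix'_mulVec, symp_eq_plus h2, symp_eq_plus h2]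
    exact redMap_p h2 g u v⟩
  map_one' := by
    apply Subtype.ext
    have : redMap (1 : OG (qOdd m F)) = LinearMap.id := by
      apply LinearMap.ext
      intro u
      funext k
      rfl
    show LinearMap.toMatrix' (redMap (1 : OG (qOdd m F))) = 1
    rw [this, LinearMap.toMatrix'_id]
  map_mul' g h := by
    apply Subtype.ext
    show LinearMap.toMatrix' (redMap (g * h)) = LinearMap.toMatrix' (redMap g) * LinearMap.toMatrix' (redMap h)
    rw [← LinearMap.toMatrix'_comp]
    congr 1
    apply LinearMap.ext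
    intro u
    exact redMap_mul h2 g h u

theorem toSp_injective (h2 : (2 : F) = 0) : Function.Injective (toSp (m := m) h2) := by
  rw [injective_iff_map_eq_one]
  intro g hg
  have h1 : redMap g = LinearMap.id := by
    have h3 : LinearMap.toMatrix' (redMap g) = 1 := congrArg Subtype.val hg
    rw [← LinearMap.toMatrix'_id] at h3
    exact LinearMap.toMatrix'.injective h3
  apply og_ext
  intro x
  rw [og_one]
  have h3 : ∀ k, g x (Sum.inr k) = x (Sum.inr k) := by
    intro k
    rw [red_eq h2, h1]; rfl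
  have h4 := og_q g x
  rw [qOdd_eq, qOdd_eq] at h4
  have e1 : (fun k => g x (Sum.inr k)) = (fun k => x (Sum.inr k)) := funext h3
  rw [e1] at h4
  have h5 := sq_inj h2 (add_right_cancel h4)
  funext k
  rcases k with ⟨⟩ | k
  · exact h5
  · exact h3 k

theorem toSp_surjective (h2 : (2 : F) = 0) : Function.Surjective (toSp (m := m) h2) := by
  rintro ⟨A, hA⟩
  have hA' := mem_Sp_iff.mp hA
  have hsq : ∀ c : F, ∃ s : F, s ^ 2 = c := fun c => by
    obtain ⟨s, hs⟩ := sq_char_two h2 c
    exact ⟨s, by rw [pow_two, hs]⟩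
  choose r hr using hsq
  have hAq : ∀ u v, pB (qPlus m F) (A.mulVec u) (A.mulVec v) = pB (qPlus m F) u v := by
    intro u v
    have := hA' u v
    rwa [sympB_apply, sympB_apply, symp_eq_plus h2, symp_eq_plus h2] at this
  let s : (Fin m ⊕ Fin m → F) →ₗ[F] F :=
    { toFun := fun u => r (qPlus m F u + qPlus m F (A.mulVec u))
      map_add' := by
        intro u v
        apply sq_inj h2
        have e : ∀ a b : F, (a + b) ^ 2 = a ^ 2 + b ^ 2 := fun a b => by linear_combination (a * b) * h2
        rw [e, hr, hr, hr, Matrix.mulVec_add, q_add, q_add, hAq]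
        linear_combination pB (qPlus m F) u v * h2
      map_smul' := by
        intro a u
        apply sq_inj h2
        rw [RingHom.id_apply, smul_eq_mul, mul_pow, hr, hr, Matrix.mulVec_smul, q_smul, q_smul]
        ring }
  have hs : ∀ u, (s u) ^ 2 = qPlus m F u + qPlus m F (A.mulVec u) := fun u => hr _
  let f : (Unit ⊕ (Fin m ⊕ Fin m) → F) →ₗ[F] (Unit ⊕ (Fin m ⊕ Fin m) → F) :=
    { toFun := fun x => Sum.elim (fun _ => x (Sum.inl ()) + s (fun k => x (Sum.inr k))) (A.mulVec (fun k => x (Sum.inr k)))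
      map_add' := by
        intro x y
        funext k
        have e1 : (fun k : Fin m ⊕ Fin m => (x + y) (Sum.inr k)) = (fun k => x (Sum.inr k)) + (fun k => y (Sum.inr k)) := rfl
        rcases k with k | k
        · show (x + y) (Sum.inl ()) + s (fun k => (x + y) (Sum.inr k)) = _
          rw [e1, map_add]
          show x (Sum.inl ()) + y (Sum.inl ()) + _ = (x (Sum.inl ()) + s _) + (y (Sum.inl ()) + s _)
          ring
        · show A.mulVec (fun k => (x + y) (Sum.inr k)) k = _
          rw [e1, Matrix.mulVec_add]; rfl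
      map_smul' := by
        intro a x
        funext k
        have e1 : (fun k : Fin m ⊕ Fin m => (a • x) (Sum.inr k)) = a • (fun k => x (Sum.inr k)) := rfl
        rcases k with k | k
        · show (a • x) (Sum.inl ()) + s (fun k => (a • x) (Sum.inr k)) = _
          rw [e1, map_smul]
          show a * x (Sum.inl ()) + a * _ = a * (x (Sum.inl ()) + s _)
          ring
        · show A.mulVec (fun k => (a • x) (Sum.inr k)) k = _
          rw [e1, Matrix.mulVec_smul]; rfl }
  have hfinj : Function.Injective f := by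
    rw [injective_iff_map_eq_zero]
    intro x hx
    have h1 : A.mulVec (fun k => x (Sum.inr k)) = 0 := by
      funext k
      exact congrFun hx (Sum.inr k)
    have h3 : (fun k => x (Sum.inr k)) = (0 : Fin m ⊕ Fin m → F) := by
      apply nd_plus
      intro y
      rw [← hAq, h1, map_zero, LinearMap.zero_apply]
    have h4 : x (Sum.inl ()) + s (fun k => x (Sum.inr k)) = 0 := congrFun hx (Sum.inl ())
    rw [h3, map_zero, add_zero] at h4
    funext k
    rcases k with ⟨⟩ | k
    · exact h4
    · exact congrFun h3 k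
  let g : OG (qOdd m F) := ⟨LinearEquiv.ofInjectiveEndo f hfinj, fun x => by
    show qOdd m F (f x) = qOdd m F x
    rw [qOdd_eq, qOdd_eq]
    show (x (Sum.inl ()) + s (fun k => x (Sum.inr k))) ^ 2 + qPlus m F (A.mulVec (fun k => x (Sum.inr k))) = _
    have := hs (fun k => x (Sum.inr k))
    linear_combination this + (x (Sum.inl ()) * s (fun k => x (Sum.inr k)) + qPlus m F (A.mulVec (fun k => x (Sum.inr k)))) * h2⟩
  refine ⟨g, ?_⟩
  apply Subtype.ext
  show LinearMap.toMatrix' (redMap g) = A
  have : redMap g = A.mulVecLin := by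
    apply LinearMap.ext
    intro u
    funext k
    rfl
  rw [this]
  exact LinearMap.toMatrix'_toLin' A

end sp

end Cfsg.Agent.H5
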