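import Mathlib
import Cfsg.Prelude.Def_ChevB2
import Cfsg.Prelude.Def_SteinbergCover
set_option autoImplicit false
set_option maxHeartbeats 1000000

/-! The natural representation of type B2: coordinate formulas and Steinberg's relations. -/

namespace Cfsg.Agent.H5
open Cfsg.Lie

section
variable {F : Type*} [Field F]

/-- coordinates -/
structure T5 (F : Type*) where
  z : F
  x1 : F
  x2 : F
  y1 : F
  y2 : F

theorem T5.ext' {a b : T5 F} (h0 : a.z = b.z) (h1 : a.x1 = b.x1) (h2 : a.x2 = b.x2) (h3 : a.y1 = b.y1) (h4 : a.y2 = b.y2) : a = b := by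
  cases a; cases b; simp_all

def bf0 (t : F) (v : T5 F) : T5 F :=
  ⟨v.z, v.x1, v.x2, v.y1 - t * v.x2, v.y2 + t * v.x1⟩

def bf1 (t : F) (v : T5 F) : T5 F :=
  ⟨v.z - t * v.x1, v.x1, v.x2, v.y1 + 2 * t * v.z - t ^ 2 * v.x1, v.y2⟩

def bf2 (t : F) (v : T5 F) : T5 F :=
  ⟨v.z - t * v.x2, v.x1, v.x2, v.y1, v.y2 + 2 * t * v.z - t ^ 2 * v.x2⟩

def bf3 (t : F) (v : T5 F) : T5 F :=
  ⟨v.z, v.x1, v.x2 + t * v.x1, v.y1 - t * v.y2, v.y2⟩

def bf4 (t : F) (v : T5 F) : T5 F :=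
  ⟨v.z, v.x1 + t * v.x2, v.x2, v.y1, v.y2 - t * v.y1⟩

def bf5 (t : F) (v : T5 F) : T5 F :=
  ⟨v.z + t * v.y2, v.x1, v.x2 - 2 * t * v.z - t ^ 2 * v.y2, v.y1, v.y2⟩

def bf6 (t : F) (v : T5 F) : T5 F :=
  ⟨v.z + t * v.y1, v.x1 - 2 * t * v.z - t ^ 2 * v.y1, v.x2, v.y1, v.y2⟩

def bf7 (t : F) (v : T5 F) : T5 F :=
  ⟨v.z, v.x1 + t * v.y2, v.x2 - t * v.y1, v.y1, v.y2⟩

/-- the root elements in coordinates -/
def bf (r : ℕ) (t : F) (v : T5 F) : T5 F :=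
  match r with
  | 0 => bf0 t v
  | 1 => bf1 t v
  | 2 => bf2 t v
  | 3 => bf3 t v
  | 4 => bf4 t v
  | 5 => bf5 t v
  | 6 => bf6 t v
  | 7 => bf7 t v
  | _ => v

theorem b2_neg : ∀ r < 8, chevB2.neg r = 7 - r := by decide +kernel

theorem ct_0_1 : chevB2.commTerms 0 1 = [] := by decide +kernel

theorem br_0_1 (t u : F) (v : T5 F) : bf1 u (bf0 t v) = bf0 t (bf1 u (v)) := by
  apply T5.ext' <;> simp only [bf0, bf1] <;> (try push_cast) <;> ring

theorem ct_0_2 : chevB2.commTerms 0 2 = [] := by decide +kernel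

theorem br_0_2 (t u : F) (v : T5 F) : bf2 u (bf0 t v) = bf0 t (bf2 u (v)) := by
  apply T5.ext' <;> simp only [bf0, bf2] <;> (try push_cast) <;> ring

theorem ct_0_3 : chevB2.commTerms 0 3 = [] := by decide +kernel

theorem br_0_3 (t u : F) (v : T5 F) : bf3 u (bf0 t v) = bf0 t (bf3 u (v)) := by
  apply T5.ext' <;> simp only [bf0, bf3] <;> (try push_cast) <;> ring

theorem ct_0_4 : chevB2.commTerms 0 4 = [] := by decide +kernel

theorem br_0_4 (t u : F) (v : T5 F) : bf4 u (bf0 t v) = bf0 t (bf4 u (v)) := by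
  apply T5.ext' <;> simp only [bf0, bf4] <;> (try push_cast) <;> ring

theorem ct_0_5 : chevB2.commTerms 0 5 = [(1, 1, 1, 1), (3, -1, 1, 2)] := by decide +kernel

theorem br_0_5 (t u : F) (v : T5 F) : bf5 u (bf0 t v) = bf0 t (bf5 u (bf1 (((1 : ℤ) : F) * (-t) ^ 1 * u ^ 1) (bf3 (((-1 : ℤ) : F) * (-t) ^ 1 * u ^ 2) (v)))) := by
  apply T5.ext' <;> simp only [bf0, bf1, bf3, bf5] <;> (try push_cast) <;> ring

theorem ct_0_6 : chevB2.commTerms 0 6 = [(2, -1, 1, 1), (4, 1, 1, 2)] := by decide +kernel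

theorem br_0_6 (t u : F) (v : T5 F) : bf6 u (bf0 t v) = bf0 t (bf6 u (bf2 (((-1 : ℤ) : F) * (-t) ^ 1 * u ^ 1) (bf4 (((1 : ℤ) : F) * (-t) ^ 1 * u ^ 2) (v)))) := by
  apply T5.ext' <;> simp only [bf0, bf2, bf4, bf6] <;> (try push_cast) <;> ring

theorem ct_1_0 : chevB2.commTerms 1 0 = [] := by decide +kernel

theorem br_1_0 (t u : F) (v : T5 F) : bf0 u (bf1 t v) = bf1 t (bf0 u (v)) := by
  apply T5.ext' <;> simp only [bf0, bf1] <;> (try push_cast) <;> ring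

theorem ct_1_2 : chevB2.commTerms 1 2 = [(0, 2, 1, 1)] := by decide +kernel

theorem br_1_2 (t u : F) (v : T5 F) : bf2 u (bf1 t v) = bf1 t (bf2 u (bf0 (((2 : ℤ) : F) * (-t) ^ 1 * u ^ 1) (v))) := by
  apply T5.ext' <;> simp only [bf0, bf1, bf2] <;> (try push_cast) <;> ring

theorem ct_1_3 : chevB2.commTerms 1 3 = [] := by decide +kernel

theorem br_1_3 (t u : F) (v : T5 F) : bf3 u (bf1 t v) = bf1 t (bf3 u (v)) := by
  apply T5.ext' <;> simp only [bf1, bf3] <;> (try push_cast) <;> ring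

theorem ct_1_4 : chevB2.commTerms 1 4 = [(2, 1, 1, 1), (0, 1, 2, 1)] := by decide +kernel

theorem br_1_4 (t u : F) (v : T5 F) : bf4 u (bf1 t v) = bf1 t (bf4 u (bf2 (((1 : ℤ) : F) * (-t) ^ 1 * u ^ 1) (bf0 (((1 : ℤ) : F) * (-t) ^ 2 * u ^ 1) (v)))) := by
  apply T5.ext' <;> simp only [bf0, bf1, bf2, bf4] <;> (try push_cast) <;> ring

theorem ct_1_5 : chevB2.commTerms 1 5 = [(3, -2, 1, 1)] := by decide +kernel

theorem br_1_5 (t u : F) (v : T5 F) : bf5 u (bf1 t v) = bf1 t (bf5 u (bf3 (((-2 : ℤ) : F) * (-t) ^ 1 * u ^ 1) (v))) := by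
  apply T5.ext' <;> simp only [bf1, bf3, bf5] <;> (try push_cast) <;> ring

theorem ct_1_7 : chevB2.commTerms 1 7 = [(5, -1, 1, 1), (3, 1, 2, 1)] := by decide +kernel

theorem br_1_7 (t u : F) (v : T5 F) : bf7 u (bf1 t v) = bf1 t (bf7 u (bf5 (((-1 : ℤ) : F) * (-t) ^ 1 * u ^ 1) (bf3 (((1 : ℤ) : F) * (-t) ^ 2 * u ^ 1) (v)))) := by
  apply T5.ext' <;> simp only [bf1, bf3, bf5, bf7] <;> (try push_cast) <;> ring

theorem ct_2_0 : chevB2.commTerms 2 0 = [] := by decide +kernel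

theorem br_2_0 (t u : F) (v : T5 F) : bf0 u (bf2 t v) = bf2 t (bf0 u (v)) := by
  apply T5.ext' <;> simp only [bf0, bf2] <;> (try push_cast) <;> ring

theorem ct_2_1 : chevB2.commTerms 2 1 = [(0, -2, 1, 1)] := by decide +kernel

theorem br_2_1 (t u : F) (v : T5 F) : bf1 u (bf2 t v) = bf2 t (bf1 u (bf0 (((-2 : ℤ) : F) * (-t) ^ 1 * u ^ 1) (v))) := by
  apply T5.ext' <;> simp only [bf0, bf1, bf2] <;> (try push_cast) <;> ring

theorem ct_2_3 : chevB2.commTerms 2 3 = [(1, 1, 1, 1), (0, -1, 2, 1)] := by decide +kernel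

theorem br_2_3 (t u : F) (v : T5 F) : bf3 u (bf2 t v) = bf2 t (bf3 u (bf1 (((1 : ℤ) : F) * (-t) ^ 1 * u ^ 1) (bf0 (((-1 : ℤ) : F) * (-t) ^ 2 * u ^ 1) (v)))) := by
  apply T5.ext' <;> simp only [bf0, bf1, bf2, bf3] <;> (try push_cast) <;> ring

theorem ct_2_4 : chevB2.commTerms 2 4 = [] := by decide +kernel

theorem br_2_4 (t u : F) (v : T5 F) : bf4 u (bf2 t v) = bf2 t (bf4 u (v)) := by
  apply T5.ext' <;> simp only [bf2, bf4] <;> (try push_cast) <;> ring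

theorem ct_2_6 : chevB2.commTerms 2 6 = [(4, -2, 1, 1)] := by decide +kernel

theorem br_2_6 (t u : F) (v : T5 F) : bf6 u (bf2 t v) = bf2 t (bf6 u (bf4 (((-2 : ℤ) : F) * (-t) ^ 1 * u ^ 1) (v))) := by
  apply T5.ext' <;> simp only [bf2, bf4, bf6] <;> (try push_cast) <;> ring

theorem ct_2_7 : chevB2.commTerms 2 7 = [(6, 1, 1, 1), (4, -1, 2, 1)] := by decide +kernel

theorem br_2_7 (t u : F) (v : T5 F) : bf7 u (bf2 t v) = bf2 t (bf7 u (bf6 (((1 : ℤ) : F) * (-t) ^ 1 * u ^ 1) (bf4 (((-1 : ℤ) : F) * (-t) ^ 2 * u ^ 1) (v)))) := by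
  apply T5.ext' <;> simp only [bf2, bf4, bf6, bf7] <;> (try push_cast) <;> ring

theorem ct_3_0 : chevB2.commTerms 3 0 = [] := by decide +kernel

theorem br_3_0 (t u : F) (v : T5 F) : bf0 u (bf3 t v) = bf3 t (bf0 u (v)) := by
  apply T5.ext' <;> simp only [bf0, bf3] <;> (try push_cast) <;> ring

theorem ct_3_1 : chevB2.commTerms 3 1 = [] := by decide +kernel

theorem br_3_1 (t u : F) (v : T5 F) : bf1 u (bf3 t v) = bf3 t (bf1 u (v)) := by
  apply T5.ext' <;> simp only [bf1, bf3] <;> (try push_cast) <;> ring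

theorem ct_3_2 : chevB2.commTerms 3 2 = [(1, -1, 1, 1), (0, -1, 1, 2)] := by decide +kernel

theorem br_3_2 (t u : F) (v : T5 F) : bf2 u (bf3 t v) = bf3 t (bf2 u (bf1 (((-1 : ℤ) : F) * (-t) ^ 1 * u ^ 1) (bf0 (((-1 : ℤ) : F) * (-t) ^ 1 * u ^ 2) (v)))) := by
  apply T5.ext' <;> simp only [bf0, bf1, bf2, bf3] <;> (try push_cast) <;> ring

theorem ct_3_5 : chevB2.commTerms 3 5 = [] := by decide +kernel

theorem br_3_5 (t u : F) (v : T5 F) : bf5 u (bf3 t v) = bf3 t (bf5 u (v)) := by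
  apply T5.ext' <;> simp only [bf3, bf5] <;> (try push_cast) <;> ring

theorem ct_3_6 : chevB2.commTerms 3 6 = [(5, 1, 1, 1), (7, 1, 1, 2)] := by decide +kernel

theorem br_3_6 (t u : F) (v : T5 F) : bf6 u (bf3 t v) = bf3 t (bf6 u (bf5 (((1 : ℤ) : F) * (-t) ^ 1 * u ^ 1) (bf7 (((1 : ℤ) : F) * (-t) ^ 1 * u ^ 2) (v)))) := by
  apply T5.ext' <;> simp only [bf3, bf5, bf6, bf7] <;> (try push_cast) <;> ring

theorem ct_3_7 : chevB2.commTerms 3 7 = [] := by decide +kernel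

theorem br_3_7 (t u : F) (v : T5 F) : bf7 u (bf3 t v) = bf3 t (bf7 u (v)) := by
  apply T5.ext' <;> simp only [bf3, bf7] <;> (try push_cast) <;> ring

theorem ct_4_0 : chevB2.commTerms 4 0 = [] := by decide +kernel

theorem br_4_0 (t u : F) (v : T5 F) : bf0 u (bf4 t v) = bf4 t (bf0 u (v)) := by
  apply T5.ext' <;> simp only [bf0, bf4] <;> (try push_cast) <;> ring

theorem ct_4_1 : chevB2.commTerms 4 1 = [(2, -1, 1, 1), (0, 1, 1, 2)] := by decide +kernel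

theorem br_4_1 (t u : F) (v : T5 F) : bf1 u (bf4 t v) = bf4 t (bf1 u (bf2 (((-1 : ℤ) : F) * (-t) ^ 1 * u ^ 1) (bf0 (((1 : ℤ) : F) * (-t) ^ 1 * u ^ 2) (v)))) := by
  apply T5.ext' <;> simp only [bf0, bf1, bf2, bf4] <;> (try push_cast) <;> ring

theorem ct_4_2 : chevB2.commTerms 4 2 = [] := by decide +kernel

theorem br_4_2 (t u : F) (v : T5 F) : bf2 u (bf4 t v) = bf4 t (bf2 u (v)) := by
  apply T5.ext' <;> simp only [bf2, bf4] <;> (try push_cast) <;> ring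

theorem ct_4_5 : chevB2.commTerms 4 5 = [(6, 1, 1, 1), (7, -1, 1, 2)] := by decide +kernel

theorem br_4_5 (t u : F) (v : T5 F) : bf5 u (bf4 t v) = bf4 t (bf5 u (bf6 (((1 : ℤ) : F) * (-t) ^ 1 * u ^ 1) (bf7 (((-1 : ℤ) : F) * (-t) ^ 1 * u ^ 2) (v)))) := by
  apply T5.ext' <;> simp only [bf4, bf5, bf6, bf7] <;> (try push_cast) <;> ring

theorem ct_4_6 : chevB2.commTerms 4 6 = [] := by decide +kernel

theorem br_4_6 (t u : F) (v : T5 F) : bf6 u (bf4 t v) = bf4 t (bf6 u (v)) := by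
  apply T5.ext' <;> simp only [bf4, bf6] <;> (try push_cast) <;> ring

theorem ct_4_7 : chevB2.commTerms 4 7 = [] := by decide +kernel

theorem br_4_7 (t u : F) (v : T5 F) : bf7 u (bf4 t v) = bf4 t (bf7 u (v)) := by
  apply T5.ext' <;> simp only [bf4, bf7] <;> (try push_cast) <;> ring

theorem ct_5_0 : chevB2.commTerms 5 0 = [(1, -1, 1, 1), (3, -1, 2, 1)] := by decide +kernel

theorem br_5_0 (t u : F) (v : T5 F) : bf0 u (bf5 t v) = bf5 t (bf0 u (bf1 (((-1 : ℤ) : F) * (-t) ^ 1 * u ^ 1) (bf3 (((-1 : ℤ) : F) * (-t) ^ 2 * u ^ 1) (v)))) := by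
  apply T5.ext' <;> simp only [bf0, bf1, bf3, bf5] <;> (try push_cast) <;> ring

theorem ct_5_1 : chevB2.commTerms 5 1 = [(3, 2, 1, 1)] := by decide +kernel

theorem br_5_1 (t u : F) (v : T5 F) : bf1 u (bf5 t v) = bf5 t (bf1 u (bf3 (((2 : ℤ) : F) * (-t) ^ 1 * u ^ 1) (v))) := by
  apply T5.ext' <;> simp only [bf1, bf3, bf5] <;> (try push_cast) <;> ring

theorem ct_5_3 : chevB2.commTerms 5 3 = [] := by decide +kernel

theorem br_5_3 (t u : F) (v : T5 F) : bf3 u (bf5 t v) = bf5 t (bf3 u (v)) := by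
  apply T5.ext' <;> simp only [bf3, bf5] <;> (try push_cast) <;> ring

theorem ct_5_4 : chevB2.commTerms 5 4 = [(6, -1, 1, 1), (7, -1, 2, 1)] := by decide +kernel

theorem br_5_4 (t u : F) (v : T5 F) : bf4 u (bf5 t v) = bf5 t (bf4 u (bf6 (((-1 : ℤ) : F) * (-t) ^ 1 * u ^ 1) (bf7 (((-1 : ℤ) : F) * (-t) ^ 2 * u ^ 1) (v)))) := by
  apply T5.ext' <;> simp only [bf4, bf5, bf6, bf7] <;> (try push_cast) <;> ring

theorem ct_5_6 : chevB2.commTerms 5 6 = [(7, 2, 1, 1)] := by decide +kernel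

theorem br_5_6 (t u : F) (v : T5 F) : bf6 u (bf5 t v) = bf5 t (bf6 u (bf7 (((2 : ℤ) : F) * (-t) ^ 1 * u ^ 1) (v))) := by
  apply T5.ext' <;> simp only [bf5, bf6, bf7] <;> (try push_cast) <;> ring

theorem ct_5_7 : chevB2.commTerms 5 7 = [] := by decide +kernel

theorem br_5_7 (t u : F) (v : T5 F) : bf7 u (bf5 t v) = bf5 t (bf7 u (v)) := by
  apply T5.ext' <;> simp only [bf5, bf7] <;> (try push_cast) <;> ring

theorem ct_6_0 : chevB2.commTerms 6 0 = [(2, 1, 1, 1), (4, 1, 2, 1)] := by decide +kernel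

theorem br_6_0 (t u : F) (v : T5 F) : bf0 u (bf6 t v) = bf6 t (bf0 u (bf2 (((1 : ℤ) : F) * (-t) ^ 1 * u ^ 1) (bf4 (((1 : ℤ) : F) * (-t) ^ 2 * u ^ 1) (v)))) := by
  apply T5.ext' <;> simp only [bf0, bf2, bf4, bf6] <;> (try push_cast) <;> ring

theorem ct_6_2 : chevB2.commTerms 6 2 = [(4, 2, 1, 1)] := by decide +kernel

theorem br_6_2 (t u : F) (v : T5 F) : bf2 u (bf6 t v) = bf6 t (bf2 u (bf4 (((2 : ℤ) : F) * (-t) ^ 1 * u ^ 1) (v))) := by
  apply T5.ext' <;> simp only [bf2, bf4, bf6] <;> (try push_cast) <;> ring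

theorem ct_6_3 : chevB2.commTerms 6 3 = [(5, -1, 1, 1), (7, 1, 2, 1)] := by decide +kernel

theorem br_6_3 (t u : F) (v : T5 F) : bf3 u (bf6 t v) = bf6 t (bf3 u (bf5 (((-1 : ℤ) : F) * (-t) ^ 1 * u ^ 1) (bf7 (((1 : ℤ) : F) * (-t) ^ 2 * u ^ 1) (v)))) := by
  apply T5.ext' <;> simp only [bf3, bf5, bf6, bf7] <;> (try push_cast) <;> ring

theorem ct_6_4 : chevB2.commTerms 6 4 = [] := by decide +kernel

theorem br_6_4 (t u : F) (v : T5 F) : bf4 u (bf6 t v) = bf6 t (bf4 u (v)) := by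
  apply T5.ext' <;> simp only [bf4, bf6] <;> (try push_cast) <;> ring

theorem ct_6_5 : chevB2.commTerms 6 5 = [(7, -2, 1, 1)] := by decide +kernel

theorem br_6_5 (t u : F) (v : T5 F) : bf5 u (bf6 t v) = bf6 t (bf5 u (bf7 (((-2 : ℤ) : F) * (-t) ^ 1 * u ^ 1) (v))) := by
  apply T5.ext' <;> simp only [bf5, bf6, bf7] <;> (try push_cast) <;> ring

theorem ct_6_7 : chevB2.commTerms 6 7 = [] := by decide +kernel

theorem br_6_7 (t u : F) (v : T5 F) : bf7 u (bf6 t v) = bf6 t (bf7 u (v)) := by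
  apply T5.ext' <;> simp only [bf6, bf7] <;> (try push_cast) <;> ring

theorem ct_7_1 : chevB2.commTerms 7 1 = [(5, 1, 1, 1), (3, 1, 1, 2)] := by decide +kernel

theorem br_7_1 (t u : F) (v : T5 F) : bf1 u (bf7 t v) = bf7 t (bf1 u (bf5 (((1 : ℤ) : F) * (-t) ^ 1 * u ^ 1) (bf3 (((1 : ℤ) : F) * (-t) ^ 1 * u ^ 2) (v)))) := by
  apply T5.ext' <;> simp only [bf1, bf3, bf5, bf7] <;> (try push_cast) <;> ring

theorem ct_7_2 : chevB2.commTerms 7 2 = [(6, -1, 1, 1), (4, -1, 1, 2)] := by decide +kernel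

theorem br_7_2 (t u : F) (v : T5 F) : bf2 u (bf7 t v) = bf7 t (bf2 u (bf6 (((-1 : ℤ) : F) * (-t) ^ 1 * u ^ 1) (bf4 (((-1 : ℤ) : F) * (-t) ^ 1 * u ^ 2) (v)))) := by
  apply T5.ext' <;> simp only [bf2, bf4, bf6, bf7] <;> (try push_cast) <;> ring

theorem ct_7_3 : chevB2.commTerms 7 3 = [] := by decide +kernel

theorem br_7_3 (t u : F) (v : T5 F) : bf3 u (bf7 t v) = bf7 t (bf3 u (v)) := by
  apply T5.ext' <;> simp only [bf3, bf7] <;> (try push_cast) <;> ring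

theorem ct_7_4 : chevB2.commTerms 7 4 = [] := by decide +kernel

theorem br_7_4 (t u : F) (v : T5 F) : bf4 u (bf7 t v) = bf7 t (bf4 u (v)) := by
  apply T5.ext' <;> simp only [bf4, bf7] <;> (try push_cast) <;> ring

theorem ct_7_5 : chevB2.commTerms 7 5 = [] := by decide +kernel

theorem br_7_5 (t u : F) (v : T5 F) : bf5 u (bf7 t v) = bf7 t (bf5 u (v)) := by
  apply T5.ext' <;> simp only [bf5, bf7] <;> (try push_cast) <;> ring

theorem ct_7_6 : chevB2.commTerms 7 6 = [] := by decide +kernel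

theorem br_7_6 (t u : F) (v : T5 F) : bf6 u (bf7 t v) = bf7 t (bf6 u (v)) := by
  apply T5.ext' <;> simp only [bf6, bf7] <;> (try push_cast) <;> ring

theorem ba_0 (t u : F) (v : T5 F) : bf0 t (bf0 u v) = bf0 (t + u) v := by
  apply T5.ext' <;> simp only [bf0] <;> ring

theorem ba_1 (t u : F) (v : T5 F) : bf1 t (bf1 u v) = bf1 (t + u) v := by
  apply T5.ext' <;> simp only [bf1] <;> ring

theorem ba_2 (t u : F) (v : T5 F) : bf2 t (bf2 u v) = bf2 (t + u) v := by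
  apply T5.ext' <;> simp only [bf2] <;> ring

theorem ba_3 (t u : F) (v : T5 F) : bf3 t (bf3 u v) = bf3 (t + u) v := by
  apply T5.ext' <;> simp only [bf3] <;> ring

theorem ba_4 (t u : F) (v : T5 F) : bf4 t (bf4 u v) = bf4 (t + u) v := by
  apply T5.ext' <;> simp only [bf4] <;> ring

theorem ba_5 (t u : F) (v : T5 F) : bf5 t (bf5 u v) = bf5 (t + u) v := by
  apply T5.ext' <;> simp only [bf5] <;> ring

theorem ba_6 (t u : F) (v : T5 F) : bf6 t (bf6 u v) = bf6 (t + u) v := by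
  apply T5.ext' <;> simp only [bf6] <;> ring

theorem ba_7 (t u : F) (v : T5 F) : bf7 t (bf7 u v) = bf7 (t + u) v := by
  apply T5.ext' <;> simp only [bf7] <;> ring

end

end Cfsg.Agent.H5
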