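import Mathlib
import Cfsg.Agent.H5.ChB2a
import Cfsg.Agent.H5.OmegaGen
import Cfsg.Agent.H5.OrthForms
set_option autoImplicit false

/-! Natural root elements of type B2. -/

namespace Cfsg.Agent.H5
open Cfsg.Lie Matrix Cfsg

abbrev J4 := Fin 2 ⊕ Fin 2
abbrev I5 := Unit ⊕ J4

section
variable {F : Type*} [Field F]

def tup (v : I5 → F) : T5 F := ⟨v (.inl ()), v (.inr (.inl 0)), v (.inr (.inl 1)), v (.inr (.inr 0)), v (.inr (.inr 1))⟩

theorem tup_injective : Function.Injective (tup (F := F)) := by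
  intro v w h
  have h0 := congrArg T5.z h
  have h1 := congrArg T5.x1 h
  have h2 := congrArg T5.x2 h
  have h3 := congrArg T5.y1 h
  have h4 := congrArg T5.y2 h
  funext k
  rcases k with ⟨⟩ | k | k
  · exact h0
  · fin_cases k
    · exact h1
    · exact h2
  · fin_cases k
    · exact h3
    · exact h4

/-- basis vector -/
def bv5 (F : Type*) [Field F] (a : I5) : I5 → F := Pi.single a 1

theorem q_bv5 (a : J4) : qOdd 2 F (bv5 F (.inr a)) = 0 := by
  rw [qOdd_coe]
  unfold quadFormOdd bv5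
  rcases a with a | a <;> fin_cases a <;> simp [Pi.single_apply, Fin.sum_univ_two]

theorem q_bv5_x : qOdd 2 F (bv5 F (.inl ())) = 1 := by
  rw [qOdd_coe]
  unfold quadFormOdd bv5
  simp [Pi.single_apply]

theorem pB_bv5 (a : J4) (v : I5 → F) : pB (qOdd 2 F) (bv5 F (.inr a)) v = v (.inr a.swap) := by
  rw [pB_odd]
  unfold bv5
  rcases a with a | a <;> fin_cases a <;> simp [Pi.single_apply, Fin.sum_univ_two]

theorem pB_bv5_x (v : I5 → F) : pB (qOdd 2 F) (bv5 F (.inl ())) v = 2 * v (.inl ()) := by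
  rw [pB_odd]
  unfold bv5
  simp [Pi.single_apply]

def uB (r : ℕ) : J4 := [.inr 0, .inr 0, .inr 1, .inr 0, .inr 1, .inl 1, .inl 0, .inl 1].getD r (.inl 0)
def dB (r : ℕ) : I5 := [.inr (.inr 1), .inl (), .inl (), .inr (.inl 1), .inr (.inl 0), .inl (), .inl (), .inr (.inl 0)].getD r (.inl ())
def sB (r : ℕ) : ℤ := [1, -1, -1, 1, 1, 1, 1, 1].getD r 1

theorem dB_ne : ∀ r < 8, dB r ≠ .inr (uB r).swap := by decide +kernel

theorem xb_perp (r : ℕ) (h : r < 8) (t : F) : pB (qOdd 2 F) (bv5 F (.inr (uB r))) (t • bv5 F (dB r)) = 0 := by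
  rw [pr_smul, pB_bv5]
  unfold bv5
  rw [Pi.single_apply, if_neg (Ne.symm (dB_ne r h)), mul_zero]

/-- the root elements in the natural representation -/
noncomputable def xb (F : Type*) [Field F] (r : ℕ) (t : F) : OG (qOdd 2 F) :=
  if h : r < 8 then eich (q_bv5 (F := F) (uB r)) (xb_perp r h ((sB r : F) * t)) else 1

theorem tup_xb (r : ℕ) (h : r < 8) (t : F) (v : I5 → F) : tup (xb F r t v) = bf r t (tup v) := by
  unfold xb
  rw [dif_pos h, eich_apply, pB_bv5, q_smul, pl_smul]
  interval_cases r <;> unfold bf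
  all_goals
    simp only [uB, dB, sB, List.getD_cons_zero, List.getD_cons_succ]
    simp only [pB_bv5, pB_bv5_x, q_bv5, q_bv5_x]
    apply T5.ext' <;>
    simp [tup, bv5, Pi.single_apply, bf0, bf1, bf2, bf3, bf4, bf5, bf6, bf7] <;> (try ring)

/-- the relations in coordinates -/
theorem b2_rel (r s : ℕ) (hr : r < 8) (hs : s < 8) (h1 : s ≠ r) (h2 : s ≠ 7 - r) (t u : F) (a : T5 F) :
    bf s u (bf r t a) = bf r t (bf s u ((chevB2.commWord F r s t u).foldr (fun p a => bf p.1 p.2 a) a)) := by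
  unfold ChevalleyDatum.commWord
  interval_cases r
  · interval_cases s
    · exact absurd rfl h1
    · rw [ct_0_1]; exact br_0_1 t u a
    · rw [ct_0_2]; exact br_0_2 t u a
    · rw [ct_0_3]; exact br_0_3 t u a
    · rw [ct_0_4]; exact br_0_4 t u a
    · rw [ct_0_5]; exact br_0_5 t u a
    · rw [ct_0_6]; exact br_0_6 t u a
    · exact absurd rfl h2
  · interval_cases s
    · rw [ct_1_0]; exact br_1_0 t u a
    · exact absurd rfl h1
    · rw [ct_1_2]; exact br_1_2 t u a
    · rw [ct_1_3]; exact br_1_3 t u a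
    · rw [ct_1_4]; exact br_1_4 t u a
    · rw [ct_1_5]; exact br_1_5 t u a
    · exact absurd rfl h2
    · rw [ct_1_7]; exact br_1_7 t u a
  · interval_cases s
    · rw [ct_2_0]; exact br_2_0 t u a
    · rw [ct_2_1]; exact br_2_1 t u a
    · exact absurd rfl h1
    · rw [ct_2_3]; exact br_2_3 t u a
    · rw [ct_2_4]; exact br_2_4 t u a
    · exact absurd rfl h2
    · rw [ct_2_6]; exact br_2_6 t u a
    · rw [ct_2_7]; exact br_2_7 t u a
  · interval_cases s
    · rw [ct_3_0]; exact br_3_0 t u a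
    · rw [ct_3_1]; exact br_3_1 t u a
    · rw [ct_3_2]; exact br_3_2 t u a
    · exact absurd rfl h1
    · exact absurd rfl h2
    · rw [ct_3_5]; exact br_3_5 t u a
    · rw [ct_3_6]; exact br_3_6 t u a
    · rw [ct_3_7]; exact br_3_7 t u a
  · interval_cases s
    · rw [ct_4_0]; exact br_4_0 t u a
    · rw [ct_4_1]; exact br_4_1 t u a
    · rw [ct_4_2]; exact br_4_2 t u a
    · exact absurd rfl h2
    · exact absurd rfl h1
    · rw [ct_4_5]; exact br_4_5 t u a
    · rw [ct_4_6]; exact br_4_6 t u a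
    · rw [ct_4_7]; exact br_4_7 t u a
  · interval_cases s
    · rw [ct_5_0]; exact br_5_0 t u a
    · rw [ct_5_1]; exact br_5_1 t u a
    · exact absurd rfl h2
    · rw [ct_5_3]; exact br_5_3 t u a
    · rw [ct_5_4]; exact br_5_4 t u a
    · exact absurd rfl h1
    · rw [ct_5_6]; exact br_5_6 t u a
    · rw [ct_5_7]; exact br_5_7 t u a
  · interval_cases s
    · rw [ct_6_0]; exact br_6_0 t u a
    · exact absurd rfl h2
    · rw [ct_6_2]; exact br_6_2 t u a
    · rw [ct_6_3]; exact br_6_3 t u a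
    · rw [ct_6_4]; exact br_6_4 t u a
    · rw [ct_6_5]; exact br_6_5 t u a
    · exact absurd rfl h1
    · rw [ct_6_7]; exact br_6_7 t u a
  · interval_cases s
    · exact absurd rfl h2
    · rw [ct_7_1]; exact br_7_1 t u a
    · rw [ct_7_2]; exact br_7_2 t u a
    · rw [ct_7_3]; exact br_7_3 t u a
    · rw [ct_7_4]; exact br_7_4 t u a
    · rw [ct_7_5]; exact br_7_5 t u a
    · rw [ct_7_6]; exact br_7_6 t u a
    · exact absurd rfl h1

theorem b2_add (r : ℕ) (hr : r < 8) (t u : F) (a : T5 F) : bf r t (bf r u a) = bf r (t + u) a := by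
  interval_cases r
  · exact ba_0 t u a
  · exact ba_1 t u a
  · exact ba_2 t u a
  · exact ba_3 t u a
  · exact ba_4 t u a
  · exact ba_5 t u a
  · exact ba_6 t u a
  · exact ba_7 t u a

theorem b2_lt' : ∀ r < 8, ∀ s < 8, s = r ∨ s = 7 - r ∨ ∀ p ∈ chevB2.commTerms r s, p.1 < 8 := by
  decide +kernel

theorem b2_lt (r s : ℕ) (hr : r < 8) (hs : s < 8) (h1 : s ≠ r) (h2 : s ≠ 7 - r) : ∀ p ∈ chevB2.commTerms r s, p.1 < 8 :=
  ((b2_lt' r hr s hs).resolve_left h1).resolve_left h2

theorem xb_add {r : ℕ} (h : r < 8) (t u : F) : xb F r t * xb F r u = xb F r (t + u) := by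
  apply og_ext
  intro x
  apply tup_injective
  rw [og_mul, tup_xb r h, tup_xb r h, tup_xb r h, b2_add r h]

theorem tup_prod (w : List (ℕ × F)) (hw : ∀ p ∈ w, p.1 < 8) (v : I5 → F) :
    tup ((w.map fun p => xb F p.1 p.2).prod v) = w.foldr (fun p a => bf p.1 p.2 a) (tup v) := by
  induction w with
  | nil => rfl
  | cons p w ih =>
    rw [List.map_cons, List.prod_cons, og_mul, tup_xb p.1 (hw p (List.mem_cons_self ..)), List.foldr_cons,
      ih (fun q hq => hw q (List.mem_cons_of_mem _ hq))]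

theorem cw_lt {r s : ℕ} (hr : r < 8) (hs : s < 8) (h1 : s ≠ r) (h2 : s ≠ chevB2.neg r) (t u : F) :
    ∀ p ∈ chevB2.commWord F r s t u, p.1 < 8 := by
  rw [b2_neg r hr] at h2
  intro p hp
  unfold ChevalleyDatum.commWord at hp
  rw [List.mem_map] at hp
  obtain ⟨c, hc, rfl⟩ := hp
  exact b2_lt r s hr hs h1 h2 c hc

theorem xb_comm {r s : ℕ} (hr : r < 8) (hs : s < 8) (h1 : s ≠ r) (h2 : s ≠ chevB2.neg r) (t u : F) :
    (xb F s u)⁻¹ * (xb F r t)⁻¹ * xb F s u * xb F r t = ((chevB2.commWord F r s t u).map fun p => xb F p.1 p.2).prod := by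
  have hlt := cw_lt hr hs h1 h2 t u
  rw [b2_neg r hr] at h2
  suffices h : xb F s u * xb F r t = xb F r t * xb F s u * ((chevB2.commWord F r s t u).map fun p => xb F p.1 p.2).prod by
    rw [mul_assoc, h]; group
  apply og_ext
  intro x
  apply tup_injective
  rw [og_mul, og_mul, og_mul, tup_xb s hs, tup_xb r hr, tup_xb r hr, tup_xb s hs, tup_prod _ hlt]
  exact b2_rel r s hr hs h1 h2 t u (tup x)

/-- the homomorphism from the Steinberg cover -/
noncomputable def psiB2 (F : Type*) [Field F] : chevB2.SteinbergCover F →* OG (qOdd 2 F) :=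
  PresentedGroup.toGroup (f := fun p : Fin chevB2.nroots × F => xb F p.1 p.2) (by
    have key : ∀ (r : ℕ) (t : F), r < chevB2.nroots → FreeGroup.lift (fun p : Fin chevB2.nroots × F => xb F p.1 p.2) (chevB2.stX r t) = xb F r t := by
      intro r t hr
      unfold ChevalleyDatum.stX
      rw [dif_pos hr, FreeGroup.lift_apply_of]
    have key' : ∀ w : List (ℕ × F), (∀ p ∈ w, p.1 < chevB2.nroots) →
        FreeGroup.lift (fun p : Fin chevB2.nroots × F => xb F p.1 p.2) (chevB2.stWord w) = (w.map fun p => xb F p.1 p.2).prod := by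
      intro w hw
      unfold ChevalleyDatum.stWord
      rw [map_list_prod, List.map_map]
      congr 1
      apply List.map_congr_left
      intro p hp
      exact key p.1 p.2 (hw p hp)
    rintro g (⟨r, t₁, t₂, hr, rfl⟩ | ⟨r, s, t, u, hr, hs, h1, h2, rfl⟩)
    · rw [map_mul, map_mul, map_inv, key r _ hr, key r _ hr, key r _ hr, xb_add hr, mul_inv_cancel]
    · rw [map_mul, map_mul, map_mul, map_mul, map_inv, map_inv, map_inv, key r _ hr, key s _ hs, key' _ (cw_lt hr hs h1 h2 t u),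
        xb_comm hr hs h1 h2, mul_inv_cancel])

theorem psiB2_gen (r : ℕ) (t : F) (hr : r < 8) : psiB2 F (chevB2.scGen F r t) = xb F r t := by
  unfold ChevalleyDatum.scGen ChevalleyDatum.stX
  rw [dif_pos (show r < chevB2.nroots from hr)]
  exact PresentedGroup.toGroup.of _

end

end Cfsg.Agent.H5
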