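import Mathlib
import Cfsg.Prelude.Def_ChevD4
import Cfsg.Prelude.Def_SteinbergCover
set_option autoImplicit false

/-! Table check: the natural representation of type D4. -/

namespace Cfsg.Agent.H5
open Cfsg.Lie

abbrev I4 := Fin 4 ⊕ Fin 4

def tD4 : List (I4 × I4) := [(.inr 1, .inl 0), (.inr 2, .inl 0), (.inl 3, .inl 0), (.inr 3, .inl 0), (.inr 0, .inr 2), (.inl 1, .inl 0), (.inr 1, .inl 2), (.inr 1, .inr 3), (.inr 1, .inl 3), (.inl 2, .inl 1), (.inl 3, .inl 2), (.inr 3, .inl 2), (.inl 2, .inr 3), (.inl 2, .inl 3), (.inl 1, .inl 2), (.inl 3, .inr 1), (.inr 3, .inr 1), (.inl 2, .inr 1), (.inl 0, .inl 1), (.inr 2, .inr 0), (.inl 0, .inr 3), (.inl 0, .inl 3), (.inl 0, .inr 2), (.inl 0, .inr 1)]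

def rD4 (r : ℕ) : I4 × I4 := tD4.getD r (.inl 0, .inl 0)

/-- action of the root vector on the basis -/
def act4 (r : ℕ) (c : I4) : I4 × ℤ :=
  if c = (rD4 r).2 then ((rD4 r).1, 1) else if c = (rD4 r).1.swap then ((rD4 r).2.swap, -1) else (c, 0)

def nz4 (r : ℕ) (i j : I4) : ℤ := if i = (act4 r j).1 then (act4 r j).2 else 0

def pr4 (r s : ℕ) (i j : I4) : ℤ := nz4 r i (act4 s j).1 * (act4 s j).2

def chk4 (r s : ℕ) : Prop :=
  match chevD4.commTerms r s with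
  | [] => ∀ i j, pr4 s r i j = pr4 r s i j
  | [(k, c, 1, 1)] => k < 24 ∧ (∀ i j, pr4 s r i j = pr4 r s i j - c * nz4 k i j) ∧ (∀ i j, pr4 r k i j = 0) ∧ (∀ i j, pr4 s k i j = 0)
  | _ => False

instance (r s : ℕ) : Decidable (chk4 r s) := by
  unfold chk4
  split <;> infer_instance

theorem chk4_all : ∀ r < 24, ∀ s < 24, s = r ∨ s = 23 - r ∨ chk4 r s := by decide +kernel

theorem d4_neg : ∀ r < 24, chevD4.neg r = 23 - r := by decide +kernel

end Cfsg.Agent.H5
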