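import Mathlib
import Cfsg.Agent.H5.ChD4a
import Cfsg.Agent.H5.OmegaGen
import Cfsg.Agent.H5.OrthForms
set_option autoImplicit false

/-! Natural root elements of type D4 satisfy Steinberg's relations. -/

namespace Cfsg.Agent.H5
open Cfsg.Lie Matrix Cfsg

section
variable {F : Type*} [Field F]

/-- basis vector -/
def bv4 (F : Type*) [Field F] (a : I4) : I4 → F := Pi.single a 1

theorem q_bv4 (a : I4) : qPlus 4 F (bv4 F a) = 0 := by
  rw [qPlus_coe]
  unfold quadFormPlus bv4
  apply Finset.sum_eq_zero
  intro i _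
  rcases a with a | a <;> simp [Pi.single_apply]

theorem pB_bv4 (a b : I4) : pB (qPlus 4 F) (bv4 F a) (bv4 F b) = if b = a.swap then 1 else 0 := by
  rw [pB_plus]
  unfold bv4
  rcases a with a | a <;> rcases b with b | b <;> simp [Pi.single_apply, eq_comm]

theorem rD4_ne : ∀ r < 24, (rD4 r).1 ≠ (rD4 r).2 ∧ (rD4 r).1 ≠ (rD4 r).2.swap := by decide +kernel

theorem xr_perp {r : ℕ} (h : r < 24) (t : F) : pB (qPlus 4 F) (bv4 F (rD4 r).2.swap) (t • bv4 F (rD4 r).1) = 0 := by
  rw [pr_smul, pB_bv4, Sum.swap_swap, if_neg (rD4_ne r h).1, mul_zero]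

/-- the root elements in the natural representation -/
noncomputable def xr (F : Type*) [Field F] (r : ℕ) (t : F) : OG (qPlus 4 F) :=
  if h : r < 24 then eich (q_bv4 (F := F) (rD4 r).2.swap) (xr_perp h t) else 1

theorem xr_bv {r : ℕ} (h : r < 24) (t : F) (c : I4) : xr F r t (bv4 F c) =
    bv4 F c + (((act4 r c).2 : ℤ) * t) • bv4 F (act4 r c).1 := by
  unfold xr
  rw [dif_pos h, eich_apply, q_smul, q_bv4, mul_zero, zero_mul, zero_smul, sub_zero, pl_smul, pB_bv4, pB_bv4, Sum.swap_swap]
  obtain ⟨h1, h2⟩ := rD4_ne r h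
  unfold act4
  by_cases hc : c = (rD4 r).2
  · have hc' : c ≠ (rD4 r).1.swap := by
      rintro rfl
      exact h2 (by rw [← hc, Sum.swap_swap])
    rw [if_pos hc, if_neg hc', if_pos hc]
    simp
  · by_cases hc2 : c = (rD4 r).1.swap
    · rw [if_neg hc, if_pos hc2, if_neg hc, if_pos hc2]
      simp
      module
    · rw [if_neg hc, if_neg hc2, if_neg hc, if_neg hc2]
      simp

/-- matrix of an isometry -/
noncomputable def ogMat : OG (qPlus 4 F) →* Matrix I4 I4 F where
  toFun g := LinearMap.toMatrix' (g.1 : (I4 → F) →ₗ[F] (I4 → F))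
  map_one' := by
    show LinearMap.toMatrix' (LinearMap.id : (I4 → F) →ₗ[F] (I4 → F)) = 1
    exact LinearMap.toMatrix'_id
  map_mul' g h := by
    show LinearMap.toMatrix' ((g.1 : (I4 → F) →ₗ[F] (I4 → F)) ∘ₗ (h.1 : (I4 → F) →ₗ[F] (I4 → F))) = _
    exact LinearMap.toMatrix'_comp _ _

theorem ogMat_injective : Function.Injective (ogMat (F := F)) := by
  intro g h hgh
  apply og_ext
  intro x
  have h1 : (g.1 : (I4 → F) →ₗ[F] (I4 → F)) = (h.1 : (I4 → F) →ₗ[F] (I4 → F)) := LinearMap.toMatrix'.injective hgh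
  exact LinearMap.congr_fun h1 x

/-- root vector matrices -/
def NF (F : Type*) [Field F] (r : ℕ) : Matrix I4 I4 F := Matrix.of fun i j => ((nz4 r i j : ℤ) : F)

theorem NF_apply (r : ℕ) (i j : I4) : NF F r i j = ((nz4 r i j : ℤ) : F) := rfl

theorem NF_mul (r s : ℕ) (i j : I4) : (NF F r * NF F s) i j = ((pr4 r s i j : ℤ) : F) := by
  rw [Matrix.mul_apply]
  simp only [NF_apply]
  unfold pr4
  have : ∀ k, ((nz4 r i k : ℤ) : F) * ((nz4 s k j : ℤ) : F) = if k = (act4 s j).1 then ((nz4 r i k : ℤ) : F) * (((act4 s j).2 : ℤ) : F) else 0 := by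
    intro k
    conv_lhs => rw [show nz4 s k j = if k = (act4 s j).1 then (act4 s j).2 else 0 from rfl]
    by_cases h : k = (act4 s j).1
    · rw [if_pos h, if_pos h]
    · rw [if_neg h, if_neg h, Int.cast_zero, mul_zero]
  simp only [this]
  rw [Finset.sum_ite_eq' Finset.univ (act4 s j).1, if_pos (Finset.mem_univ _)]
  push_cast
  rfl

theorem ogMat_xr {r : ℕ} (h : r < 24) (t : F) : ogMat (xr F r t) = 1 + t • NF F r := by
  ext i j
  have h1 : ogMat (xr F r t) i j = xr F r t (bv4 F j) i := by
    show LinearMap.toMatrix' ((xr F r t).1 : (I4 → F) →ₗ[F] (I4 → F)) i j = _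
    rw [LinearMap.toMatrix'_apply]; rfl
  rw [h1, xr_bv h, Pi.add_apply, Pi.smul_apply, Matrix.add_apply, Matrix.smul_apply, NF_apply]
  unfold bv4 nz4
  rw [Matrix.one_apply, Pi.single_apply, Pi.single_apply]
  by_cases h2 : i = (act4 r j).1
  · rw [if_pos h2, if_pos h2, smul_eq_mul, smul_eq_mul, mul_one, mul_comm t]
  · rw [if_neg h2, if_neg h2]; simp

theorem xr_add {r : ℕ} (h : r < 24) (t u : F) : xr F r t * xr F r u = xr F r (t + u) := by
  unfold xr
  rw [dif_pos h, dif_pos h, dif_pos h, eich_mul _ _ _ (by rw [← add_smul]; exact xr_perp h (t + u))]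
  apply og_ext
  intro x
  rw [eich_apply, eich_apply, add_smul]

theorem xr_comm {r s : ℕ} (hr : r < 24) (hs : s < 24) (h1 : s ≠ r) (h2 : s ≠ chevD4.neg r) (t u : F) :
    (xr F s u)⁻¹ * (xr F r t)⁻¹ * xr F s u * xr F r t = ((chevD4.commWord F r s t u).map fun p => xr F p.1 p.2).prod := by
  rw [d4_neg r hr] at h2
  have hc := ((chk4_all r hr s hs).resolve_left h1).resolve_left h2
  suffices h : xr F s u * xr F r t = xr F r t * xr F s u * ((chevD4.commWord F r s t u).map fun p => xr F p.1 p.2).prod by
    rw [mul_assoc, h]; group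
  unfold chk4 at hc
  split at hc
  · rename_i heq
    unfold ChevalleyDatum.commWord
    rw [heq, List.map_nil, List.map_nil, List.prod_nil, mul_one]
    apply ogMat_injective
    rw [map_mul, map_mul, ogMat_xr hr, ogMat_xr hs]
    have hN : NF F s * NF F r = NF F r * NF F s := by
      ext i j
      rw [NF_mul, NF_mul, hc i j]
    simp only [mul_add, add_mul, mul_one, one_mul, smul_mul_assoc, mul_smul_comm, hN, smul_smul, mul_comm u t]
    module
  · rename_i k c heq
    obtain ⟨hk, hA, hB, hC⟩ := hc
    unfold ChevalleyDatum.commWord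
    rw [heq]
    simp only [List.map_cons, List.map_nil, List.prod_cons, List.prod_nil, mul_one, pow_one]
    apply ogMat_injective
    rw [map_mul, map_mul, map_mul, ogMat_xr hr, ogMat_xr hs, ogMat_xr hk]
    have hN : NF F s * NF F r = NF F r * NF F s - (c : F) • NF F k := by
      ext i j
      rw [Matrix.sub_apply, Matrix.smul_apply, NF_mul, NF_mul, hA i j, NF_apply, smul_eq_mul]
      push_cast
      ring
    have hB' : NF F r * NF F k = 0 := by
      ext i j
      rw [NF_mul, hB i j]; simp
    have hC' : NF F s * NF F k = 0 := by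
      ext i j
      rw [NF_mul, hC i j]; simp
    have e1 : (1 + t • NF F r) * (1 + u • NF F s) * (1 + ((c : F) * -t * u) • NF F k) =
        (1 + t • NF F r) * (1 + u • NF F s) + ((c : F) * -t * u) • NF F k := by
      simp only [mul_add, add_mul, mul_one, one_mul, smul_mul_assoc, mul_smul_comm, hB', hC', smul_zero, mul_zero, add_zero, mul_assoc]
    rw [e1]
    simp only [mul_add, add_mul, mul_one, one_mul, smul_mul_assoc, mul_smul_comm, hN, smul_sub, smul_smul]
    module
  · exact hc.elim

/-- the homomorphism from the Steinberg cover -/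
noncomputable def psiD4 (F : Type*) [Field F] : chevD4.SteinbergCover F →* OG (qPlus 4 F) :=
  PresentedGroup.toGroup (f := fun p : Fin chevD4.nroots × F => xr F p.1 p.2) (by
    have key : ∀ (r : ℕ) (t : F), r < chevD4.nroots → FreeGroup.lift (fun p : Fin chevD4.nroots × F => xr F p.1 p.2) (chevD4.stX r t) = xr F r t := by
      intro r t hr
      unfold ChevalleyDatum.stX
      rw [dif_pos hr, FreeGroup.lift_apply_of]
    have key' : ∀ w : List (ℕ × F), (∀ p ∈ w, p.1 < chevD4.nroots) →
        FreeGroup.lift (fun p : Fin chevD4.nroots × F => xr F p.1 p.2) (chevD4.stWord w) = (w.map fun p => xr F p.1 p.2).prod := by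
      intro w hw
      unfold ChevalleyDatum.stWord
      rw [map_list_prod, List.map_map]
      congr 1
      apply List.map_congr_left
      intro p hp
      exact key p.1 p.2 (hw p hp)
    rintro g (⟨r, t₁, t₂, hr, rfl⟩ | ⟨r, s, t, u, hr, hs, h1, h2, rfl⟩)
    · rw [map_mul, map_mul, map_inv, key r _ hr, key r _ hr, key r _ hr, xr_add hr, mul_inv_cancel]
    · have hw : ∀ p ∈ chevD4.commWord F r s t u, p.1 < chevD4.nroots := by
        intro p hp
        have h2' := h2
        rw [d4_neg r hr] at h2'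
        have hc := ((chk4_all r hr s hs).resolve_left h1).resolve_left h2'
        unfold chk4 at hc
        unfold ChevalleyDatum.commWord at hp
        split at hc
        · rename_i heq
          rw [heq] at hp
          simp at hp
        · rename_i k c heq
          rw [heq] at hp
          simp only [List.map_cons, List.map_nil, List.mem_singleton] at hp
          rw [hp]; exact hc.1
        · exact hc.elim
      rw [map_mul, map_mul, map_mul, map_mul, map_inv, map_inv, map_inv, key r _ hr, key s _ hs, key' _ hw, xr_comm hr hs h1 h2,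
        mul_inv_cancel])

theorem psiD4_gen (r : ℕ) (t : F) (hr : r < 24) : psiD4 F (chevD4.scGen F r t) = xr F r t := by
  unfold ChevalleyDatum.scGen ChevalleyDatum.stX
  rw [dif_pos (show r < chevD4.nroots from hr)]
  exact PresentedGroup.toGroup.of _

end

end Cfsg.Agent.H5
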