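import Mathlib
import Cfsg.Agent.H5.ChD4b
import Cfsg.Agent.H5.OrthIndex2
set_option autoImplicit false

/-! The natural root elements generate the commutator subgroup; central quotients. -/

namespace Cfsg.Agent.H5
open Cfsg.Lie Matrix Cfsg

/-- two covers of the same group modulo centres -/
theorem two_covers {S G H : Type*} [Group S] [Group G] [Group H] (θ : S →* G) (hθ : Function.Surjective θ)
    (hker : θ.ker ≤ Subgroup.center S) (hs : IsSimpleGroup G) (hn : ¬ IsMulCommutative G)
    (ψ : S →* H) (hψ : Function.Surjective ψ) (hH : ∃ x y : H, x * y ≠ y * x) :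
    ∃ f : G ≃* H ⧸ Subgroup.center H, ∀ s, f (θ s) = QuotientGroup.mk (ψ s) := by
  have hZG : Subgroup.center G = ⊥ := by
    rcases hs.eq_bot_or_eq_top_of_normal (Subgroup.center G) inferInstance with h | h
    · exact h
    · exfalso
      apply hn
      refine ⟨⟨fun a b => ?_⟩⟩
      have : a ∈ Subgroup.center G := by rw [h]; trivial
      exact (Subgroup.mem_center_iff.1 this b).symm
  have hZS : Subgroup.center S ≤ θ.ker := by
    intro z hz
    rw [MonoidHom.mem_ker, ← Subgroup.mem_bot, ← hZG, Subgroup.mem_center_iff]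
    intro g
    obtain ⟨s, rfl⟩ := hθ g
    rw [← map_mul, ← map_mul, Subgroup.mem_center_iff.1 hz s]
  let π : S →* H ⧸ Subgroup.center H := (QuotientGroup.mk' _).comp ψ
  have hπ : Function.Surjective π := (QuotientGroup.mk'_surjective _).comp hψ
  have hle : θ.ker ≤ π.ker := by
    intro z hz
    have hz' := hker hz
    rw [MonoidHom.mem_ker]
    show (QuotientGroup.mk' (Subgroup.center H)) (ψ z) = 1
    rw [QuotientGroup.mk'_apply, QuotientGroup.eq_one_iff, Subgroup.mem_center_iff]
    intro h
    obtain ⟨s, rfl⟩ := hψ h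
    rw [← map_mul, ← map_mul, Subgroup.mem_center_iff.1 hz' s]
  let e0 : S ⧸ θ.ker ≃* G := QuotientGroup.quotientKerEquivOfSurjective θ hθ
  let f0 : G →* H ⧸ Subgroup.center H := (QuotientGroup.lift θ.ker π hle).comp e0.symm.toMonoidHom
  have he0 : ∀ s, e0.symm (θ s) = QuotientGroup.mk s := by
    intro s
    rw [MulEquiv.symm_apply_eq]; rfl
  have hf0 : ∀ s, f0 (θ s) = QuotientGroup.mk (ψ s) := by
    intro s
    show (QuotientGroup.lift θ.ker π hle) (e0.symm (θ s)) = _
    rw [he0]; rfl
  have hsurj : Function.Surjective f0 := by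
    intro y
    obtain ⟨s, rfl⟩ := hπ y
    exact ⟨θ s, hf0 s⟩
  have hinj : Function.Injective f0 := by
    rw [← MonoidHom.ker_eq_bot_iff]
    rcases hs.eq_bot_or_eq_top_of_normal f0.ker inferInstance with h | h
    · exact h
    · exfalso
      obtain ⟨x, y, hxy⟩ := hH
      have hall : ∀ z : H, z ∈ Subgroup.center H := by
        intro z
        obtain ⟨g, hg⟩ := hsurj (QuotientGroup.mk z)
        have : g ∈ f0.ker := by rw [h]; trivial
        rw [MonoidHom.mem_ker.1 this] at hg
        exact (QuotientGroup.eq_one_iff z).1 hg.symm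
      exact hxy (Subgroup.mem_center_iff.1 (hall y) x)
  exact ⟨MulEquiv.ofBijective f0 ⟨hinj, hsurj⟩, hf0⟩

section
variable {F : Type*} [Field F]

theorem tD4_cover : ∀ a b : I4, a ≠ b → a ≠ b.swap → ∃ r < 24, rD4 r = (a, b) ∨ rD4 r = (b.swap, a.swap) := by decide +kernel

theorem eich_congr' {V : Type*} [AddCommGroup V] [Module F V] {Q : QuadraticForm F V} {u w u' w' : V} (hu : Q u = 0) (h : pB Q u w = 0)
    (hu' : Q u' = 0) (h' : pB Q u' w' = 0) (e : u = u') (e2 : w = w') : eich hu h = eich hu' h' := by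
  subst e; subst e2; rfl

theorem eich_swap {u w : I4 → F} (hu : qPlus 4 F u = 0) (hw : qPlus 4 F w = 0) (t : F)
    (h1 : pB (qPlus 4 F) u (t • w) = 0) (h2 : pB (qPlus 4 F) w ((-t) • u) = 0) : eich hu h1 = eich hw h2 := by
  apply og_ext
  intro x
  rw [eich_apply, eich_apply, q_smul, q_smul, hu, hw, pl_smul, pl_smul]
  module

theorem xr_mem (r : ℕ) (hr : r < 24) (t : F) : xr F r t ∈ (psiD4 F).range := ⟨_, psiD4_gen r t hr⟩

theorem eich_basis_mem (a b : I4) (hab : a ≠ b) (hab' : a ≠ b.swap) (t : F)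
    (h : pB (qPlus 4 F) (bv4 F b.swap) (t • bv4 F a) = 0) : eich (q_bv4 b.swap) h ∈ (psiD4 F).range := by
  obtain ⟨r, hr, h1 | h1⟩ := tD4_cover a b hab hab'
  · have h2 := xr_mem (F := F) r hr t
    unfold xr at h2
    rw [dif_pos hr] at h2
    convert h2 using 2
    all_goals rw [h1]
  · have h2 := xr_mem (F := F) r hr (-t)
    unfold xr at h2
    rw [dif_pos hr] at h2
    have h3 : pB (qPlus 4 F) (bv4 F a) ((-t) • bv4 F b.swap) = 0 := by
      rw [pr_smul, pB_symm]
      rw [pr_smul] at h
      rw [neg_mul, h, neg_zero]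
    rw [eich_swap (q_bv4 b.swap) (q_bv4 a) t h h3]
    convert h2 using 2
    · rw [h1]; simp
    · rw [h1]

/-- all Siegel transformations based at a basis vector -/
theorem eich_bv_mem (a : I4) (w : I4 → F) (h : pB (qPlus 4 F) (bv4 F a) w = 0) : eich (q_bv4 a) h ∈ (psiD4 F).range := by
  have hpw : ∀ v : I4 → F, pB (qPlus 4 F) (bv4 F a) v = v a.swap := by
    intro v
    rw [pB_plus]
    unfold bv4
    rcases a with a | a <;> simp [Pi.single_apply]
  have key : ∀ S : Finset I4, a.swap ∉ S → ∀ h : pB (qPlus 4 F) (bv4 F a) (∑ d ∈ S, w d • bv4 F d) = 0,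
      eich (q_bv4 a) h ∈ (psiD4 F).range := by
    intro S
    induction S using Finset.induction_on with
    | empty =>
      intro _ h
      have : eich (q_bv4 a) h = 1 := by
        apply og_ext
        intro x
        rw [eich_apply, Finset.sum_empty, og_one, q_zero]
        simp
      rw [this]; exact one_mem _
    | insert d S hd ih =>
      intro hS h
      rw [Finset.mem_insert, not_or] at hS
      have h1 : pB (qPlus 4 F) (bv4 F a) (w d • bv4 F d) = 0 := by
        rw [pr_smul, pB_bv4, if_neg (Ne.symm hS.1), mul_zero]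
      have h2 : pB (qPlus 4 F) (bv4 F a) (∑ d ∈ S, w d • bv4 F d) = 0 := by
        have := h
        rwa [Finset.sum_insert hd, pr_add, h1, zero_add] at this
      have h3 : eich (q_bv4 a) h = eich (q_bv4 a) h1 * eich (q_bv4 a) h2 := by
        rw [eich_mul _ h1 h2 (by rw [pr_add, h1, h2, add_zero])]
        exact eich_congr' _ _ _ _ rfl (Finset.sum_insert hd)
      rw [h3]
      refine mul_mem ?_ (ih hS.2 h2)
      by_cases hda : d = a
      · subst hda
        have : eich (q_bv4 d) h1 = 1 := by
          apply og_ext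
          intro x
          rw [eich_apply, q_smul, q_bv4, pl_smul, og_one]
          module
        rw [this]; exact one_mem _
      · have h4 := eich_basis_mem (F := F) d a.swap (fun h => hS.1 h.symm) (by rw [Sum.swap_swap]; exact hda) (w d)
          (by rw [Sum.swap_swap]; exact h1)
        convert h4 using 2
        all_goals rw [Sum.swap_swap]
  have hsum : w = ∑ d ∈ Finset.univ.erase a.swap, w d • bv4 F d := by
    have h1 : w = ∑ d, w d • bv4 F d := by
      funext k
      rw [Finset.sum_apply]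
      simp [bv4, Pi.single_apply]
    have h2 := Finset.add_sum_erase Finset.univ (fun d => w d • bv4 F d) (Finset.mem_univ a.swap)
    have h3 : w a.swap = 0 := by rw [← hpw w, h]
    simp only [h3, zero_smul, zero_add] at h2
    rw [h2, ← h1]
  have h5 := key (Finset.univ.erase a.swap) (Finset.notMem_erase _ _) (by rw [← hsum]; exact h)
  rw [eich_congr' (q_bv4 a) h (q_bv4 a) (by rw [← hsum]; exact h) rfl hsum]
  exact h5

theorem pB_bv_left (a : I4) (v : I4 → F) : pB (qPlus 4 F) (bv4 F a) v = v a.swap := by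
  rw [pB_plus]
  unfold bv4
  rcases a with a | a <;> simp [Pi.single_apply]

/-- transitivity on singular vectors up to scalars -/
theorem trans_bv {v : I4 → F} (hv : v ≠ 0) (hq : qPlus 4 F v = 0) :
    ∃ g ∈ (psiD4 F).range, ∃ (c : F) (a : I4), c ≠ 0 ∧ g v = c • bv4 F a := by
  obtain ⟨a, ha⟩ : ∃ a, v a ≠ 0 := by
    by_contra h
    push Not at h
    exact hv (funext h)
  -- the Siegel transformation at `a.swap`
  let w : I4 → F := fun d => if d = a ∨ d = a.swap then 0 else -(v d / v a)
  have hw : pB (qPlus 4 F) (bv4 F a.swap) w = 0 := by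
    rw [pB_bv_left, Sum.swap_swap]
    show (if a = a ∨ a = a.swap then (0 : F) else _) = 0
    rw [if_pos (Or.inl rfl)]
  have hgv : ∃ s : F, eich (q_bv4 a.swap) hw v = v a • bv4 F a + s • bv4 F a.swap := by
    refine ⟨v a.swap - pB (qPlus 4 F) w v - qPlus 4 F w * v a, ?_⟩
    rw [eich_apply, pB_bv_left, Sum.swap_swap]
    funext d
    simp only [Pi.add_apply, Pi.sub_apply, Pi.smul_apply, smul_eq_mul, bv4, Pi.single_apply]
    have hsw : a ≠ a.swap := by rcases a with a | a <;> simp
    by_cases h1 : d = a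
    · subst h1
      rw [if_pos rfl, if_neg hsw]
      show v d + v d * (if d = d ∨ d = d.swap then (0 : F) else _) - _ - _ = _
      rw [if_pos (Or.inl rfl)]; ring
    · by_cases h2 : d = a.swap
      · subst h2
        rw [if_pos rfl, if_neg (Ne.symm hsw)]
        show v a.swap + v a * (if a.swap = a ∨ a.swap = a.swap then (0 : F) else _) - _ - _ = _
        rw [if_pos (Or.inr rfl)]; ring
      · rw [if_neg h1, if_neg h2]
        show v d + v a * (if d = a ∨ d = a.swap then (0 : F) else -(v d / v a)) - _ - _ = _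
        rw [if_neg (not_or.2 ⟨h1, h2⟩)]
        field_simp
        ring
  obtain ⟨s, hs⟩ := hgv
  have hs0 : s = 0 := by
    have h1 := og_q (eich (q_bv4 a.swap) hw) v
    rw [hs, hq, q_add, q_smul, q_smul, q_bv4, q_bv4, pl_smul, pr_smul, pB_bv4, if_pos rfl] at h1
    have h2 : v a * s = 0 := by linear_combination h1
    exact (mul_eq_zero.1 h2).resolve_left ha
  refine ⟨_, eich_bv_mem a.swap w hw, v a, a, ha, ?_⟩
  rw [hs, hs0, zero_smul, add_zero]

theorem eg_le_range : EG (qPlus 4 F) ≤ (psiD4 F).range := by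
  rw [EG, Subgroup.closure_le]
  rintro _ ⟨u, w, hu, huw, rfl⟩
  by_cases hu0 : u = 0
  · have : eich hu huw = 1 := by
      apply og_ext
      intro x
      rw [eich_apply, hu0]
      simp
    rw [this]; exact one_mem _
  · obtain ⟨g, hg, c, a, hc, hga⟩ := trans_bv hu0 hu
    have h1 : qPlus 4 F (g u) = 0 := by rw [og_q, hu]
    have h2 : pB (qPlus 4 F) (g u) (g w) = 0 := by rw [og_p, huw]
    have h3 := eich_conj g hu huw h1 h2
    have h4 : eich h1 h2 ∈ (psiD4 F).range := by
      have h5 : pB (qPlus 4 F) (bv4 F a) (c • g w) = 0 := by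
        rw [pr_smul, ← pl_smul, ← hga, h2]
      have h6 : eich h1 h2 = eich (q_bv4 a) h5 := by
        apply og_ext
        intro x
        rw [eich_apply, eich_apply, hga, q_smul, pl_smul, pl_smul]
        module
      rw [h6]
      exact eich_bv_mem a _ h5
    have h7 : eich hu huw = g⁻¹ * eich h1 h2 * g := by rw [← h3]; group
    rw [SetLike.mem_coe, h7]
    exact mul_mem (mul_mem (inv_mem hg) h4) hg

theorem comm_le_range : commutator (OG (qPlus 4 F)) ≤ (psiD4 F).range := by
  refine le_trans ?_ eg_le_range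
  have hfr : Module.finrank F (I4 → F) = 8 := by rw [Module.finrank_fintype_fun_eq_card]; rfl
  refine comm_le_eg (e := bv4 F (.inl 0)) (f := bv4 F (.inr 0)) (w := bv4 F (.inl 1) + bv4 F (.inr 1))
    (rg_top nd_plus (fun _ => by rw [hfr]; norm_num)) (q_bv4 _) (q_bv4 _) ?_ ?_ ?_ ?_
  · rw [pB_bv4]; simp
  · rw [pr_add, pB_bv4, pB_bv4]; simp
  · rw [pr_add, pB_bv4, pB_bv4]; simp
  · rw [q_add, q_bv4, q_bv4, pB_bv4]; simp

theorem range_le_comm (hperf : commutator (chevD4.SteinbergCover F) = ⊤) : (psiD4 F).range ≤ commutator (OG (qPlus 4 F)) := by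
  rw [MonoidHom.range_eq_map, ← hperf, commutator_def, Subgroup.map_commutator, commutator_def]
  exact Subgroup.commutator_mono le_top le_top

theorem og_noncomm : ∃ x y : OG (qPlus 4 F), x ∈ (psiD4 F).range ∧ y ∈ (psiD4 F).range ∧ x * y ≠ y * x := by
  refine ⟨xr F 18 1, xr F 14 1, xr_mem 18 (by norm_num) 1, xr_mem 14 (by norm_num) 1, ?_⟩
  intro h
  have h1 := congrArg (fun g : OG (qPlus 4 F) => g (bv4 F (.inl 2)) (.inl 0)) h
  simp only [og_mul, xr_bv (show (14:ℕ) < 24 by norm_num), xr_bv (show (18:ℕ) < 24 by norm_num), og_add, og_smul] at h1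
  have e1 : act4 14 (.inl 2) = (.inl 1, 1) := by decide +kernel
  have e2 : act4 18 (.inl 2) = (.inl 2, 0) := by decide +kernel
  have e3 : act4 18 (.inl 1) = (.inl 0, 1) := by decide +kernel
  rw [e1, e2, e3] at h1
  simp [bv4, Pi.single_apply] at h1

end

end Cfsg.Agent.H5
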