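import Mathlib
import Cfsg.Agent.H5.ChB2b
import Cfsg.Agent.H5.ChD4c
set_option autoImplicit false

/-! Generation for type B2. -/

namespace Cfsg.Agent.H5
open Cfsg.Lie Matrix Cfsg

section
variable {F : Type*} [Field F]

theorem psiB2_range : (psiB2 F).range = Subgroup.closure {g | ∃ (r : ℕ) (t : F), r < 8 ∧ g = xb F r t} := by
  rw [MonoidHom.range_eq_map, ← PresentedGroup.closure_range_of, MonoidHom.map_closure]
  congr 1
  ext g
  constructor
  · rintro ⟨_, ⟨⟨r, t⟩, rfl⟩, rfl⟩
    refine ⟨r, t, r.2, ?_⟩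
    exact PresentedGroup.toGroup.of _
  · rintro ⟨r, t, hr, rfl⟩
    exact ⟨_, ⟨(⟨r, hr⟩, t), rfl⟩, PresentedGroup.toGroup.of _⟩

theorem b2_cover : ∀ (a : J4) (d : I5), d ≠ .inr a.swap → d = .inr a ∨ (∃ r < 8, uB r = a ∧ dB r = d) ∨
    (∃ r < 8, ∃ b : J4, d = .inr b ∧ uB r = b ∧ dB r = .inr a) := by decide +kernel

theorem sB_sq : ∀ r < 8, sB r * sB r = 1 := by decide +kernel

theorem xb_mem (r : ℕ) (hr : r < 8) (t : F) : xb F r t ∈ (psiB2 F).range := ⟨_, psiB2_gen r t hr⟩

theorem eich_basis5_mem (a : J4) (d : I5) (hd : d ≠ .inr a.swap) (t : F)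
    (h : pB (qOdd 2 F) (bv5 F (.inr a)) (t • bv5 F d) = 0) : eich (q_bv5 a) h ∈ (psiB2 F).range := by
  rcases b2_cover a d hd with h1 | ⟨r, hr, h1, h2⟩ | ⟨r, hr, b, h0, h1, h2⟩
  · subst h1
    have : eich (q_bv5 a) h = 1 := by
      apply og_ext
      intro x
      rw [eich_apply, q_smul, q_bv5, pl_smul, og_one]
      module
    rw [this]; exact one_mem _
  · have hs : ((sB r : ℤ) : F) * ((sB r : ℤ) : F) = 1 := by rw [← Int.cast_mul, sB_sq r hr, Int.cast_one]
    have h3 := xb_mem (F := F) r hr (sB r * t)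
    unfold xb at h3
    rw [dif_pos hr] at h3
    convert h3 using 2
    · rw [h1]
    · rw [h2, ← mul_assoc, hs, one_mul]
  · have hs : ((sB r : ℤ) : F) * ((sB r : ℤ) : F) = 1 := by rw [← Int.cast_mul, sB_sq r hr, Int.cast_one]
    have h3 := xb_mem (F := F) r hr (sB r * (-t))
    unfold xb at h3
    rw [dif_pos hr] at h3
    subst h0
    have h4 : pB (qOdd 2 F) (bv5 F (.inr b)) ((-t) • bv5 F (.inr a)) = 0 := by
      rw [pr_smul, pB_symm]
      rw [pr_smul] at h
      rw [neg_mul, h, neg_zero]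
    have h5 : eich (q_bv5 a) h = eich (q_bv5 b) h4 := by
      apply og_ext
      intro x
      rw [eich_apply, eich_apply, q_smul, q_smul, q_bv5, q_bv5, pl_smul, pl_smul]
      module
    rw [h5]
    convert h3 using 2
    · rw [h1]
    · rw [h2, ← mul_assoc, hs, one_mul]

/-- all Siegel transformations based at a basis vector -/
theorem eich_bv5_mem (a : J4) (w : I5 → F) (h : pB (qOdd 2 F) (bv5 F (.inr a)) w = 0) : eich (q_bv5 a) h ∈ (psiB2 F).range := by
  have hbv : ∀ d : I5, d ≠ .inr a.swap → pB (qOdd 2 F) (bv5 F (.inr a)) (w d • bv5 F d) = 0 := by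
    intro d hd
    rw [pr_smul, pB_bv5]
    unfold bv5
    rw [Pi.single_apply, if_neg (Ne.symm hd), mul_zero]
  have key : ∀ S : Finset I5, .inr a.swap ∉ S → ∀ h : pB (qOdd 2 F) (bv5 F (.inr a)) (∑ d ∈ S, w d • bv5 F d) = 0,
      eich (q_bv5 a) h ∈ (psiB2 F).range := by
    intro S
    induction S using Finset.induction_on with
    | empty =>
      intro _ h
      have : eich (q_bv5 a) h = 1 := by
        apply og_ext
        intro x
        rw [eich_apply, Finset.sum_empty, og_one, q_zero]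
        simp
      rw [this]; exact one_mem _
    | insert d S hd ih =>
      intro hS h
      rw [Finset.mem_insert, not_or] at hS
      have h1 := hbv d (Ne.symm hS.1)
      have h2 : pB (qOdd 2 F) (bv5 F (.inr a)) (∑ d ∈ S, w d • bv5 F d) = 0 := by
        have := h
        rwa [Finset.sum_insert hd, pr_add, h1, zero_add] at this
      have h3 : eich (q_bv5 a) h = eich (q_bv5 a) h1 * eich (q_bv5 a) h2 := by
        rw [eich_mul _ h1 h2 (by rw [pr_add, h1, h2, add_zero])]
        exact eich_congr' _ _ _ _ rfl (Finset.sum_insert hd)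
      rw [h3]
      exact mul_mem (eich_basis5_mem a d (Ne.symm hS.1) _ h1) (ih hS.2 h2)
  have hsum : w = ∑ d ∈ Finset.univ.erase (.inr a.swap), w d • bv5 F d := by
    have h1 : w = ∑ d, w d • bv5 F d := by
      funext k
      rw [Finset.sum_apply]
      simp only [bv5, Pi.smul_apply, Pi.single_apply, smul_eq_mul, mul_ite, mul_one, mul_zero]
      rw [Finset.sum_ite_eq Finset.univ k, if_pos (Finset.mem_univ _)]
    have h2 := Finset.add_sum_erase Finset.univ (fun d => w d • bv5 F d) (Finset.mem_univ (.inr a.swap : I5))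
    have h3 : w (.inr a.swap) = 0 := by rw [← pB_bv5 a w, h]
    simp only [h3, zero_smul, zero_add] at h2
    rw [h2, ← h1]
  have h5 := key (Finset.univ.erase (.inr a.swap)) (Finset.notMem_erase _ _) (by rw [← hsum]; exact h)
  rw [eich_congr' (q_bv5 a) h (q_bv5 a) (by rw [← hsum]; exact h) rfl hsum]
  exact h5

theorem bv5_apply (a d : I5) : bv5 F a d = if d = a then 1 else 0 := by
  unfold bv5; rw [Pi.single_apply]

/-- moving a singular vector to a basis vector -/
theorem mv5 {v : I5 → F} (hq : qOdd 2 F v = 0) (a : J4) (ha : v (.inr a) ≠ 0) :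
    ∃ (w : I5 → F) (h : pB (qOdd 2 F) (bv5 F (.inr a.swap)) w = 0), w (.inr a) = 0 ∧ w (.inr a.swap) = 0 ∧
      (∀ d, v d = 0 → w d = 0) ∧ eich (q_bv5 a.swap) h v = v (.inr a) • bv5 F (.inr a) := by
  let w : I5 → F := fun d => if d = .inr a ∨ d = .inr a.swap then 0 else -(v d / v (.inr a))
  have w1 : w (.inr a) = 0 := if_pos (Or.inl rfl)
  have w2 : w (.inr a.swap) = 0 := if_pos (Or.inr rfl)
  have hw : pB (qOdd 2 F) (bv5 F (.inr a.swap)) w = 0 := by
    rw [pB_bv5, Sum.swap_swap, w1]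
  refine ⟨w, hw, w1, w2, ?_, ?_⟩
  · intro d hd
    show (if d = .inr a ∨ d = .inr a.swap then (0 : F) else -(v d / v (.inr a))) = 0
    rw [hd]; simp
  have hgv : ∃ s : F, eich (q_bv5 a.swap) hw v = v (.inr a) • bv5 F (.inr a) + s • bv5 F (.inr a.swap) := by
    refine ⟨v (.inr a.swap) - pB (qOdd 2 F) w v - qOdd 2 F w * v (.inr a), ?_⟩
    rw [eich_apply, pB_bv5, Sum.swap_swap]
    funext d
    simp only [Pi.add_apply, Pi.sub_apply, Pi.smul_apply, smul_eq_mul, bv5_apply]
    have hsw : a ≠ a.swap := by rcases a with a | a <;> simp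
    by_cases h1 : d = .inr a
    · subst h1
      rw [w1, if_neg (fun h => hsw (Sum.inr_injective h)), if_pos rfl]; ring
    · by_cases h2 : d = .inr a.swap
      · subst h2
        rw [w2, if_pos rfl, if_neg h1]; ring
      · rw [if_neg h1, if_neg h2]
        have h3 : w d = -(v d / v (.inr a)) := if_neg (not_or.2 ⟨h1, h2⟩)
        rw [h3]
        field_simp
        ring
  obtain ⟨s, hs⟩ := hgv
  have hs0 : s = 0 := by
    have h1 := og_q (eich (q_bv5 a.swap) hw) v
    rw [hs, hq, q_add, q_smul, q_smul, q_bv5, q_bv5, pl_smul, pr_smul, pB_bv5, bv5_apply, if_pos rfl] at h1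
    have h2 : v (.inr a) * s = 0 := by linear_combination h1
    exact (mul_eq_zero.1 h2).resolve_left ha
  rw [hs, hs0, zero_smul, add_zero]

/-- fixing basis vectors -/
theorem eich_fix5 {a : J4} {w : I5 → F} (h : pB (qOdd 2 F) (bv5 F (.inr a.swap)) w = 0) {b : J4} (hb : b ≠ a)
    (hw : w (.inr b.swap) = 0) : eich (q_bv5 a.swap) h (bv5 F (.inr b)) = bv5 F (.inr b) := by
  have h1 : (.inr a : I5) ≠ .inr b := fun h => hb (Sum.inr_injective h).symm
  rw [eich_apply, pB_bv5, Sum.swap_swap, bv5_apply, if_neg h1, pB_symm, pB_bv5, hw]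
  simp

theorem q_tup (v : I5 → F) : qOdd 2 F v = (tup v).z ^ 2 + ((tup v).x1 * (tup v).y1 + (tup v).x2 * (tup v).y2) := by
  rw [qOdd_coe]
  unfold quadFormOdd tup
  rw [Fin.sum_univ_two]

theorem range_trans {v : I5 → F} (hv : v ≠ 0) (hq : qOdd 2 F v = 0) :
    ∃ g ∈ (psiB2 F).range, ∃ c : F, c ≠ 0 ∧ g v = c • bv5 F (.inr (.inl 0)) := by
  -- first make the coordinate non-zero
  obtain ⟨g, hg, hgv⟩ : ∃ g ∈ (psiB2 F).range, (g v) (.inr (.inl 0)) ≠ 0 := by
    by_cases h1 : v (.inr (.inl 0)) = 0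
    · have hx : ∀ (r : ℕ) (hr : r < 8) (t : F), (xb F r t v) (.inr (.inl 0)) = (bf r t (tup v)).x1 := by
        intro r hr t
        rw [← tup_xb r hr]; rfl
      by_cases h2 : v (.inr (.inl 1)) = 0
      · by_cases h3 : v (.inr (.inr 1)) = 0
        · have hz : v (.inl ()) = 0 := by
            rw [q_tup] at hq
            simp only [tup, h1, h2, zero_mul, add_zero] at hq
            exact pow_eq_zero_iff (by norm_num) |>.1 hq
          have hy : v (.inr (.inr 0)) ≠ 0 := by
            intro h4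
            apply hv
            apply tup_injective
            apply T5.ext' <;> simp [tup, *]
          refine ⟨xb F 6 1, xb_mem 6 (by norm_num) 1, ?_⟩
          rw [hx 6 (by norm_num)]
          show v (.inr (.inl 0)) - 2 * 1 * v (.inl ()) - 1 ^ 2 * v (.inr (.inr 0)) ≠ 0
          rw [h1, hz]
          simpa using hy
        · refine ⟨xb F 7 1, xb_mem 7 (by norm_num) 1, ?_⟩
          rw [hx 7 (by norm_num)]
          show v (.inr (.inl 0)) + 1 * v (.inr (.inr 1)) ≠ 0
          rw [h1]; simpa using h3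
      · refine ⟨xb F 4 1, xb_mem 4 (by norm_num) 1, ?_⟩
        rw [hx 4 (by norm_num)]
        show v (.inr (.inl 0)) + 1 * v (.inr (.inl 1)) ≠ 0
        rw [h1]; simpa using h2
    · exact ⟨1, one_mem _, h1⟩
  obtain ⟨w, hw, -, -, -, h5⟩ := mv5 (v := g v) (by rw [og_q, hq]) (.inl 0) hgv
  exact ⟨_, mul_mem (eich_bv5_mem _ w hw) hg, _, hgv, h5⟩

theorem eg_le_rangeB : EG (qOdd 2 F) ≤ (psiB2 F).range := by
  rw [EG, Subgroup.closure_le]
  rintro _ ⟨u, w, hu, huw, rfl⟩
  by_cases hu0 : u = 0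
  · have : eich hu huw = 1 := by
      apply og_ext
      intro x
      rw [eich_apply, hu0]
      simp
    rw [this]; exact one_mem _
  · obtain ⟨g, hg, c, hc, hga⟩ := range_trans hu0 hu
    have h1 : qOdd 2 F (g u) = 0 := by rw [og_q, hu]
    have h2 : pB (qOdd 2 F) (g u) (g w) = 0 := by rw [og_p, huw]
    have h3 := eich_conj g hu huw h1 h2
    have h4 : eich h1 h2 ∈ (psiB2 F).range := by
      have h5 : pB (qOdd 2 F) (bv5 F (.inr (.inl 0))) (c • g w) = 0 := by
        rw [pr_smul, ← pl_smul, ← hga, h2]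
      have h6 : eich h1 h2 = eich (q_bv5 (.inl 0)) h5 := by
        apply og_ext
        intro x
        rw [eich_apply, eich_apply, hga, q_smul, pl_smul, pl_smul]
        module
      rw [h6]
      exact eich_bv5_mem _ _ h5
    have h7 : eich hu huw = g⁻¹ * eich h1 h2 * g := by rw [← h3]; group
    rw [SetLike.mem_coe, h7]
    exact mul_mem (mul_mem (inv_mem hg) h4) hg

theorem rangeB_le_eg : (psiB2 F).range ≤ EG (qOdd 2 F) := by
  rw [psiB2_range, Subgroup.closure_le]
  rintro _ ⟨r, t, hr, rfl⟩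
  unfold xb
  rw [dif_pos hr]
  exact eg_mem _ _

end

end Cfsg.Agent.H5
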