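import Mathlib
import Cfsg.Agent.H5.ChB2c
set_option autoImplicit false

/-! The commutator subgroup of the 5-dimensional orthogonal group, any characteristic. -/

namespace Cfsg.Agent.H5
open Cfsg.Lie Matrix Cfsg

section
variable {F : Type*} [Field F]

theorem og_ext_bv {g h : OG (qOdd 2 F)} (H : ∀ d, g (bv5 F d) = h (bv5 F d)) : g = h := by
  apply og_ext
  intro x
  have h1 : x = ∑ d, x d • bv5 F d := by
    funext k
    rw [Finset.sum_apply]
    simp only [bv5, Pi.smul_apply, Pi.single_apply, smul_eq_mul, mul_ite, mul_one, mul_zero]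
    rw [Finset.sum_ite_eq Finset.univ k, if_pos (Finset.mem_univ _)]
  have key : ∀ g : OG (qOdd 2 F), g x = ∑ d, x d • g (bv5 F d) := by
    intro g
    conv_lhs => rw [h1]
    show g.1 (∑ d, x d • bv5 F d) = _
    rw [map_sum]
    apply Finset.sum_congr rfl
    intro d _
    rw [map_smul]
  rw [key g, key h]
  exact Finset.sum_congr rfl fun d _ => by rw [H]

theorem bv5_ne (d : I5) : bv5 F d ≠ 0 := by
  intro h
  have := congrFun h d
  rw [bv5_apply, if_pos rfl] at this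
  exact one_ne_zero this

/-- the diagonal subgroup -/
def HdB (F : Type*) [Field F] : Subgroup (OG (qOdd 2 F)) where
  carrier := {h | ∀ d, ∃ c : F, h (bv5 F d) = c • bv5 F d}
  mul_mem' := by
    intro g h hg hh d
    obtain ⟨c, hc⟩ := hh d
    obtain ⟨c', hc'⟩ := hg d
    exact ⟨c * c', by rw [og_mul, hc, og_smul, hc', smul_smul]⟩
  one_mem' := fun d => ⟨1, by rw [og_one, one_smul]⟩
  inv_mem' := by
    intro g hg d
    obtain ⟨c, hc⟩ := hg d
    have hc0 : c ≠ 0 := by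
      rintro rfl
      rw [zero_smul] at hc
      have := og_inv g (bv5 F d)
      rw [hc, og_zero] at this
      exact bv5_ne d this.symm
    refine ⟨c⁻¹, ?_⟩
    apply og_inj g
    rw [og_inv', og_smul, hc, smul_smul, inv_mul_cancel₀ hc0, one_smul]

theorem HdB_comm {g h : OG (qOdd 2 F)} (hg : g ∈ HdB F) (hh : h ∈ HdB F) : g * h = h * g := by
  apply og_ext_bv
  intro d
  obtain ⟨c, hc⟩ := hh d
  obtain ⟨c', hc'⟩ := hg d
  rw [og_mul, og_mul, hc, hc', og_smul, og_smul, hc, hc', smul_smul, smul_smul, mul_comm]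

/-- torus elements -/
noncomputable def torB (c : J4 → Fˣ) (hc : ∀ i, c (.inl i) * c (.inr i) = 1) : OG (qOdd 2 F) :=
  ⟨LinearEquiv.piCongrRight (fun d : I5 => LinearEquiv.smulOfUnit (Sum.elim (fun _ => (1 : Fˣ)) c d)), fun x => by
    rw [qOdd_coe]
    unfold quadFormOdd
    have h1 : ∀ d, (LinearEquiv.piCongrRight (fun d : I5 => (LinearEquiv.smulOfUnit (Sum.elim (fun _ => (1 : Fˣ)) c d) : F ≃ₗ[F] F))) x d =
        ((Sum.elim (fun _ => (1 : Fˣ)) c d : Fˣ) : F) * x d := fun d => rfl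
    simp only [h1, Sum.elim_inl, Sum.elim_inr, Units.val_one, one_mul]
    congr 1
    apply Finset.sum_congr rfl
    intro i _
    have h2 : ((c (.inl i) : Fˣ) : F) * ((c (.inr i) : Fˣ) : F) = 1 := by
      rw [← Units.val_mul, hc i, Units.val_one]
    linear_combination (x (.inr (.inl i)) * x (.inr (.inr i))) * h2⟩

theorem torB_bv (c : J4 → Fˣ) (hc : ∀ i, c (.inl i) * c (.inr i) = 1) (d : I5) :
    torB c hc (bv5 F d) = ((Sum.elim (fun _ => (1 : Fˣ)) c d : Fˣ) : F) • bv5 F d := by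
  funext k
  show ((Sum.elim (fun _ => (1 : Fˣ)) c k : Fˣ) : F) * bv5 F d k = _ * bv5 F d k
  rw [bv5_apply]
  by_cases h : k = d
  · rw [h]
  · rw [if_neg h, mul_zero, mul_zero]

theorem torB_mem (c : J4 → Fˣ) (hc : ∀ i, c (.inl i) * c (.inr i) = 1) : torB c hc ∈ HdB F := fun d => ⟨_, torB_bv c hc d⟩

theorem dec_step1 {g : OG (qOdd 2 F)} (h : ∀ a : J4, g (bv5 F (.inr a)) = bv5 F (.inr a)) : g ∈ HdB F := by
  intro d
  rcases d with ⟨⟩ | a
  · refine ⟨(g (bv5 F (.inl ()))) (.inl ()), ?_⟩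
    have h1 : ∀ a : J4, (g (bv5 F (.inl ()))) (.inr a) = 0 := by
      intro a
      have h2 := pB_bv5 (F := F) a.swap (g (bv5 F (.inl ())))
      rw [Sum.swap_swap, ← h a.swap, og_p, pB_bv5, bv5_apply, if_neg (by simp)] at h2
      exact h2.symm
    funext k
    rw [Pi.smul_apply, smul_eq_mul, bv5_apply]
    rcases k with ⟨⟩ | k
    · rw [if_pos rfl, mul_one]
    · rw [h1, if_neg (by simp), mul_zero]
  · exact ⟨1, by rw [h, one_smul]⟩

/-- the subgroup generated by the Siegel transformations and the torus -/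
noncomputable def SB (F : Type*) [Field F] : Subgroup (OG (qOdd 2 F)) := EG (qOdd 2 F) ⊔ HdB F

theorem eg_le_SB : EG (qOdd 2 F) ≤ SB F := le_sup_left
theorem hd_le_SB : HdB F ≤ SB F := le_sup_right

theorem eich5_mem {u w : I5 → F} (hu : qOdd 2 F u = 0) (h : pB (qOdd 2 F) u w = 0) : eich hu h ∈ SB F := eg_le_SB (eg_mem hu h)

theorem dec_step2 {g : OG (qOdd 2 F)} (h1 : g (bv5 F (.inr (.inl 0))) = bv5 F (.inr (.inl 0)))
    (h2 : g (bv5 F (.inr (.inr 0))) = bv5 F (.inr (.inr 0))) (h3 : g (bv5 F (.inr (.inl 1))) = bv5 F (.inr (.inl 1))) : g ∈ SB F := by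
  obtain ⟨v, hv⟩ : ∃ v, v = g (bv5 F (.inr (.inr 1))) := ⟨_, rfl⟩
  have hq : qOdd 2 F v = 0 := by rw [hv, og_q, q_bv5]
  have hc1 : v (.inr (.inr 1)) = 1 := by
    have := pB_bv5 (F := F) (.inl 1) v
    rw [hv, ← h3, og_p, pB_bv5, bv5_apply] at this
    simpa [hv] using this.symm
  have hc2 : v (.inr (.inr 0)) = 0 := by
    have := pB_bv5 (F := F) (.inl 0) v
    rw [hv, ← h1, og_p, pB_bv5, bv5_apply] at this
    simpa [hv] using this.symm
  have hc3 : v (.inr (.inl 0)) = 0 := by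
    have := pB_bv5 (F := F) (.inr 0) v
    rw [hv, ← h2, og_p, pB_bv5, bv5_apply] at this
    simpa [hv] using this.symm
  obtain ⟨w, hw, w1, w2, w3, h5⟩ := mv5 hq (.inr 1) (by rw [hc1]; exact one_ne_zero)
  have h6 : eich (q_bv5 _) hw * g ∈ HdB F := by
    apply dec_step1
    intro a
    rw [og_mul]
    rcases a with a | a <;> fin_cases a
    · show eich (q_bv5 _) hw (g (bv5 F (.inr (.inl 0)))) = _
      rw [h1]
      exact eich_fix5 hw (by simp) (w3 _ hc2)
    · show eich (q_bv5 _) hw (g (bv5 F (.inr (.inl 1)))) = _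
      rw [h3]
      exact eich_fix5 hw (by simp) w1
    · show eich (q_bv5 _) hw (g (bv5 F (.inr (.inr 0)))) = _
      rw [h2]
      exact eich_fix5 hw (by simp) (w3 _ hc3)
    · show eich (q_bv5 _) hw (g (bv5 F (.inr (.inr 1)))) = _
      rw [← hv, h5, hc1, one_smul]
      rfl
  exact (Subgroup.mul_mem_cancel_left _ (eich5_mem _ _)).1 (hd_le_SB h6)

theorem dec_step3 {g : OG (qOdd 2 F)} (h1 : g (bv5 F (.inr (.inl 0))) = bv5 F (.inr (.inl 0)))
    (h2 : g (bv5 F (.inr (.inr 0))) = bv5 F (.inr (.inr 0))) : g ∈ SB F := by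
  -- the case of non-zero coordinate
  have main : ∀ g : OG (qOdd 2 F), g (bv5 F (.inr (.inl 0))) = bv5 F (.inr (.inl 0)) →
      g (bv5 F (.inr (.inr 0))) = bv5 F (.inr (.inr 0)) → (g (bv5 F (.inr (.inl 1)))) (.inr (.inl 1)) ≠ 0 → g ∈ SB F := by
    intro g h1 h2 hne
    obtain ⟨v, hv⟩ : ∃ v, v = g (bv5 F (.inr (.inl 1))) := ⟨_, rfl⟩
    rw [← hv] at hne
    have hq : qOdd 2 F v = 0 := by rw [hv, og_q, q_bv5]
    have hc2 : v (.inr (.inr 0)) = 0 := by
      have := pB_bv5 (F := F) (.inl 0) v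
      rw [hv, ← h1, og_p, pB_bv5, bv5_apply] at this
      simpa [hv] using this.symm
    have hc3 : v (.inr (.inl 0)) = 0 := by
      have := pB_bv5 (F := F) (.inr 0) v
      rw [hv, ← h2, og_p, pB_bv5, bv5_apply] at this
      simpa [hv] using this.symm
    obtain ⟨w, hw, w1, w2, w3, h5⟩ := mv5 hq (.inl 1) hne
    let c0 : Fˣ := Units.mk0 _ hne
    let c : J4 → Fˣ := Sum.elim ![1, c0⁻¹] ![1, c0]
    have hc : ∀ i, c (.inl i) * c (.inr i) = 1 := by
      intro i; fin_cases i <;> simp [c]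
    have h6 : torB c hc * (eich (q_bv5 _) hw * g) ∈ SB F := by
      apply dec_step2
      · rw [og_mul, og_mul, h1, eich_fix5 hw (b := .inl 0) (by simp) (w3 _ hc2), torB_bv]
        simp [c]
      · rw [og_mul, og_mul, h2, eich_fix5 hw (b := .inr 0) (by simp) (w3 _ hc3), torB_bv]
        simp [c]
      · rw [og_mul, og_mul, ← hv, h5, og_smul, torB_bv, smul_smul]
        simp only [c, Sum.elim_inr, Sum.elim_inl, Matrix.cons_val_one, Matrix.cons_val_fin_one]
        have : v (.inr (.inl 1)) * ((c0⁻¹ : Fˣ) : F) = 1 := by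
          show ((c0 : Fˣ) : F) * ((c0⁻¹ : Fˣ) : F) = 1
          rw [Units.mul_inv]
        rw [this, one_smul]
    rw [Subgroup.mul_mem_cancel_left _ (hd_le_SB (torB_mem c hc))] at h6
    exact (Subgroup.mul_mem_cancel_left _ (eich5_mem _ _)).1 h6
  by_cases hne : (g (bv5 F (.inr (.inl 1)))) (.inr (.inl 1)) = 0
  · obtain ⟨v, hv⟩ : ∃ v, v = g (bv5 F (.inr (.inl 1))) := ⟨_, rfl⟩
    rw [← hv] at hne
    have hq : qOdd 2 F v = 0 := by rw [hv, og_q, q_bv5]
    have hc2 : v (.inr (.inr 0)) = 0 := by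
      have := pB_bv5 (F := F) (.inl 0) v
      rw [hv, ← h1, og_p, pB_bv5, bv5_apply] at this
      simpa [hv] using this.symm
    have hc3 : v (.inr (.inl 0)) = 0 := by
      have := pB_bv5 (F := F) (.inr 0) v
      rw [hv, ← h2, og_p, pB_bv5, bv5_apply] at this
      simpa [hv] using this.symm
    have hz : v (.inl ()) = 0 := by
      rw [q_tup] at hq
      simp only [tup, hne, hc3, zero_mul, add_zero] at hq
      exact pow_eq_zero_iff (by norm_num) |>.1 hq
    have hy : v (.inr (.inr 1)) ≠ 0 := by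
      intro h4
      have h5 : v = 0 := by
        apply tup_injective
        apply T5.ext' <;> simp [tup, hz, hc3, hne, hc2, h4]
      rw [hv] at h5
      have := og_inv g (bv5 F (.inr (.inl 1)))
      rw [h5, og_zero] at this
      exact bv5_ne _ this.symm
    have hx5 : xb F 5 1 ∈ SB F := eg_le_SB (rangeB_le_eg (xb_mem 5 (by norm_num) 1))
    have h7 : xb F 5 1 * g ∈ SB F := by
      apply main
      · rw [og_mul, h1]
        apply tup_injective
        rw [tup_xb 5 (by norm_num)]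
        apply T5.ext' <;> simp [tup, bf, bf5, bv5_apply]
      · rw [og_mul, h2]
        apply tup_injective
        rw [tup_xb 5 (by norm_num)]
        apply T5.ext' <;> simp [tup, bf, bf5, bv5_apply]
      · rw [og_mul, ← hv]
        have : (xb F 5 1 v) (.inr (.inl 1)) = (bf 5 1 (tup v)).x2 := by rw [← tup_xb 5 (by norm_num)]; rfl
        rw [this]
        show v (.inr (.inl 1)) - 2 * 1 * v (.inl ()) - 1 ^ 2 * v (.inr (.inr 1)) ≠ 0
        rw [hne, hz]
        simpa using hy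
    exact (Subgroup.mul_mem_cancel_left _ hx5).1 h7
  · exact main g h1 h2 hne

theorem dec_step4 {g : OG (qOdd 2 F)} (h1 : g (bv5 F (.inr (.inl 0))) = bv5 F (.inr (.inl 0))) : g ∈ SB F := by
  obtain ⟨v, hv⟩ : ∃ v, v = g (bv5 F (.inr (.inr 0))) := ⟨_, rfl⟩
  have hq : qOdd 2 F v = 0 := by rw [hv, og_q, q_bv5]
  have hc1 : v (.inr (.inr 0)) = 1 := by
    have := pB_bv5 (F := F) (.inl 0) v
    rw [hv, ← h1, og_p, pB_bv5, bv5_apply] at this
    simpa [hv] using this.symm
  obtain ⟨w, hw, w1, w2, w3, h5⟩ := mv5 hq (.inr 0) (by rw [hc1]; exact one_ne_zero)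
  have h6 : eich (q_bv5 _) hw * g ∈ SB F := by
    apply dec_step3
    · rw [og_mul, h1]
      exact eich_fix5 hw (by simp) w1
    · rw [og_mul, ← hv, h5, hc1, one_smul]
  exact (Subgroup.mul_mem_cancel_left _ (eich5_mem _ _)).1 h6

theorem SB_top (g : OG (qOdd 2 F)) : g ∈ SB F := by
  obtain ⟨r, hr, c, hc, hrc⟩ := range_trans (F := F) (v := g (bv5 F (.inr (.inl 0)))) (by
    intro h
    have := og_inv g (bv5 F (.inr (.inl 0)))
    rw [h, og_zero] at this
    exact bv5_ne _ this.symm) (by rw [og_q, q_bv5])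
  have hrS : r ∈ SB F := eg_le_SB (rangeB_le_eg hr)
  let c0 : Fˣ := Units.mk0 _ hc
  let cc : J4 → Fˣ := Sum.elim ![c0⁻¹, 1] ![c0, 1]
  have hcc : ∀ i, cc (.inl i) * cc (.inr i) = 1 := by
    intro i; fin_cases i <;> simp [cc]
  have h6 : torB cc hcc * (r * g) ∈ SB F := by
    apply dec_step4
    rw [og_mul, og_mul, hrc, og_smul, torB_bv, smul_smul]
    simp only [cc, Sum.elim_inr, Sum.elim_inl, Matrix.cons_val_zero]
    have : c * ((c0⁻¹ : Fˣ) : F) = 1 := by
      show ((c0 : Fˣ) : F) * ((c0⁻¹ : Fˣ) : F) = 1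
      rw [Units.mul_inv]
    rw [this, one_smul]
  rw [Subgroup.mul_mem_cancel_left _ (hd_le_SB (torB_mem cc hcc))] at h6
  exact (Subgroup.mul_mem_cancel_left _ hrS).1 h6

theorem comm_le_egB : commutator (OG (qOdd 2 F)) ≤ EG (qOdd 2 F) := by
  have key : ∀ g : OG (qOdd 2 F), ∃ h ∈ HdB F, (QuotientGroup.mk g : OG (qOdd 2 F) ⧸ EG (qOdd 2 F)) = QuotientGroup.mk h := by
    intro g
    have hg : g ∈ EG (qOdd 2 F) ⊔ HdB F := SB_top g
    rw [Subgroup.mem_sup_of_normal_left] at hg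
    obtain ⟨e, he, h, hh, rfl⟩ := hg
    refine ⟨h, hh, ?_⟩
    show (QuotientGroup.mk (e * h) : OG (qOdd 2 F) ⧸ EG (qOdd 2 F)) = QuotientGroup.mk h
    rw [QuotientGroup.mk_mul, (QuotientGroup.eq_one_iff e).2 he, one_mul]
  rw [commutator_def, Subgroup.commutator_le]
  intro g1 _ g2 _
  obtain ⟨h1, hh1, e1⟩ := key g1
  obtain ⟨h2, hh2, e2⟩ := key g2
  rw [← QuotientGroup.eq_one_iff, commutatorElement_def, QuotientGroup.mk_mul, QuotientGroup.mk_mul, QuotientGroup.mk_mul,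
    QuotientGroup.mk_inv, QuotientGroup.mk_inv, e1, e2, ← QuotientGroup.mk_inv, ← QuotientGroup.mk_inv, ← QuotientGroup.mk_mul,
    ← QuotientGroup.mk_mul, ← QuotientGroup.mk_mul, HdB_comm hh1 hh2]
  simp

theorem comm_le_rangeB : commutator (OG (qOdd 2 F)) ≤ (psiB2 F).range := comm_le_egB.trans eg_le_rangeB

theorem rangeB_le_comm (hperf : commutator (chevB2.SteinbergCover F) = ⊤) : (psiB2 F).range ≤ commutator (OG (qOdd 2 F)) := by
  rw [MonoidHom.range_eq_map, ← hperf, commutator_def, Subgroup.map_commutator, commutator_def]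
  exact Subgroup.commutator_mono le_top le_top

theorem ogB_noncomm : ∃ x y : OG (qOdd 2 F), x ∈ (psiB2 F).range ∧ y ∈ (psiB2 F).range ∧ x * y ≠ y * x := by
  refine ⟨xb F 4 1, xb F 5 1, xb_mem 4 (by norm_num) 1, xb_mem 5 (by norm_num) 1, ?_⟩
  intro h
  have h1 := congrArg (fun g : OG (qOdd 2 F) => (tup (g (bv5 F (.inr (.inr 0))))).z) h
  simp only [og_mul, tup_xb 4 (by norm_num), tup_xb 5 (by norm_num)] at h1
  simp [bf, bf4, bf5, tup, bv5_apply] at h1

end

end Cfsg.Agent.H5
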