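import Mathlib
import Cfsg.Agent.H5.ChD4c
import Cfsg.Agent.H5.ExcIso
import Cfsg.Agent.S2396
import Cfsg.Agent.S2395
import Cfsg.Agent.H6.ChevSimpleTab
set_option autoImplicit false

/-! `D₄(F) ≅ PΩ₈⁺(F)` with the root elements. -/

namespace Cfsg.Agent.H5
open Cfsg.Lie Matrix Cfsg

section
variable {F : Type*} [Field F]

/-- `PΩ` in terms of the group `OG` -/
noncomputable def pomOG {ι : Type} [Fintype ι] [DecidableEq ι] (Q : QuadraticForm F (ι → F)) :
    POmega F ⇑Q ≃* commutator (OG Q) ⧸ Subgroup.center (commutator (OG Q)) :=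
  quotCenterCongr (commCongr (ogEquiv Q))

theorem d4_rank_ne : ¬ chevD4 ∈ [chevB2, chevG2] := by
  intro h
  rw [List.mem_cons, List.mem_singleton] at h
  rcases h with h | h
  · exact absurd (congrArg ChevalleyDatum.rank h) (by decide)
  · exact absurd (congrArg ChevalleyDatum.rank h) (by decide)

theorem d4_perf : commutator (chevD4.SteinbergCover F) = ⊤ :=
  Cfsg.Agent.S2395.result chevD4 (by simp) (fun h => absurd h d4_rank_ne)

/-- the root elements lie in the commutator group -/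
theorem xr_mem_comm (r : ℕ) (hr : r < 24) (t : F) : xr F r t ∈ commutator (OG (qPlus 4 F)) :=
  range_le_comm d4_perf (xr_mem r hr t)

/-- the isomorphism with the action on root elements -/
theorem d4_iso (F : Type*) [Field F] :
    ∃ f : ↥(chevD4.group F) ≃* commutator (OG (qPlus 4 F)) ⧸ Subgroup.center (commutator (OG (qPlus 4 F))),
      ∀ (r : ℕ) (hr : r < 24) (t : F) (g : ↥(chevD4.group F)), ((g : GL chevD4.Idx F) : Matrix chevD4.Idx chevD4.Idx F) = chevD4.x F r t →
        f g = QuotientGroup.mk ⟨xr F r t, xr_mem_comm r hr t⟩ := by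
  obtain ⟨θ, hθ, hker, hgen⟩ := Cfsg.Agent.S2396.result (K := F) chevD4 (by simp) (fun h => absurd h d4_rank_ne)
  obtain ⟨hs, hn⟩ := Cfsg.Agent.H6.TD4.simple F
  have hrange : (psiD4 F).range = commutator (OG (qPlus 4 F)) := le_antisymm (range_le_comm d4_perf) comm_le_range
  let ψ : chevD4.SteinbergCover F →* commutator (OG (qPlus 4 F)) :=
    (psiD4 F).codRestrict _ (fun s => by rw [← hrange]; exact ⟨s, rfl⟩)
  have hψ : Function.Surjective ψ := by
    rintro ⟨y, hy⟩
    rw [← hrange] at hy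
    obtain ⟨s, hs⟩ := hy
    exact ⟨s, Subtype.ext hs⟩
  obtain ⟨f, hf⟩ := two_covers θ hθ hker hs hn ψ hψ (by
    obtain ⟨x, y, hx, hy, hxy⟩ := og_noncomm (F := F)
    rw [hrange] at hx hy
    exact ⟨⟨x, hx⟩, ⟨y, hy⟩, fun h => hxy (congrArg Subtype.val h)⟩)
  refine ⟨f, ?_⟩
  intro r hr t g hg
  have h1 : g = θ (chevD4.scGen F r t) := by
    apply Subtype.ext
    apply Units.ext
    rw [hg, ← hgen r t hr]
  rw [h1, hf]
  congr 1
  apply Subtype.ext
  exact psiD4_gen r t hr

end

end Cfsg.Agent.H5
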