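import Mathlib
import Cfsg.Agent.H5.ChB2d
import Cfsg.Agent.H5.ChD4d
set_option autoImplicit false

/-! `B₂(F) ≅ PΩ₅(F)` with the root elements. -/

namespace Cfsg.Agent.H5
open Cfsg.Lie Matrix Cfsg

section
variable {F : Type*} [Field F]

theorem b2_perf (hF : ∃ a : F, a ≠ 0 ∧ a ≠ 1) : commutator (chevB2.SteinbergCover F) = ⊤ :=
  Cfsg.Agent.S2395.result chevB2 (by simp) (fun _ => hF)

/-- the root elements lie in the commutator group -/
theorem xb_mem_comm (hF : ∃ a : F, a ≠ 0 ∧ a ≠ 1) (r : ℕ) (hr : r < 8) (t : F) : xb F r t ∈ commutator (OG (qOdd 2 F)) :=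
  rangeB_le_comm (b2_perf hF) (xb_mem r hr t)

/-- the isomorphism with the action on root elements -/
theorem b2_iso (F : Type*) [Field F] (hF : ∃ a : F, a ≠ 0 ∧ a ≠ 1) :
    ∃ f : ↥(chevB2.group F) ≃* commutator (OG (qOdd 2 F)) ⧸ Subgroup.center (commutator (OG (qOdd 2 F))),
      ∀ (r : ℕ) (hr : r < 8) (t : F) (g : ↥(chevB2.group F)), ((g : GL chevB2.Idx F) : Matrix chevB2.Idx chevB2.Idx F) = chevB2.x F r t →
        f g = QuotientGroup.mk ⟨xb F r t, xb_mem_comm hF r hr t⟩ := by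
  obtain ⟨θ, hθ, hker, hgen⟩ := Cfsg.Agent.S2396.result (K := F) chevB2 (by simp) (fun _ => hF)
  obtain ⟨hs, hn⟩ := Cfsg.Agent.H6.TB2.simple F hF
  have hrange : (psiB2 F).range = commutator (OG (qOdd 2 F)) := le_antisymm (rangeB_le_comm (b2_perf hF)) comm_le_rangeB
  let ψ : chevB2.SteinbergCover F →* commutator (OG (qOdd 2 F)) :=
    (psiB2 F).codRestrict _ (fun s => by rw [← hrange]; exact ⟨s, rfl⟩)
  have hψ : Function.Surjective ψ := by
    rintro ⟨y, hy⟩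
    rw [← hrange] at hy
    obtain ⟨s, hs⟩ := hy
    exact ⟨s, Subtype.ext hs⟩
  obtain ⟨f, hf⟩ := two_covers θ hθ hker hs hn ψ hψ (by
    obtain ⟨x, y, hx, hy, hxy⟩ := ogB_noncomm (F := F)
    rw [hrange] at hx hy
    exact ⟨⟨x, hx⟩, ⟨y, hy⟩, fun h => hxy (congrArg Subtype.val h)⟩)
  refine ⟨f, ?_⟩
  intro r hr t g hg
  have h1 : g = θ (chevB2.scGen F r t) := by
    apply Subtype.ext
    apply Units.ext
    rw [hg, ← hgen r t hr]
  rw [h1, hf]
  congr 1
  apply Subtype.ext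
  exact psiB2_gen r t hr

end

end Cfsg.Agent.H5
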