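import Mathlib
import Cfsg.Agent.H5.SpSimple
set_option autoImplicit false
set_option maxHeartbeats 4000000

/-! The graph automorphism of `Sp_4` in characteristic two. -/

namespace Cfsg.Agent.H5

open Matrix Cfsg

variable {F : Type*} [Field F]

def gp1 : Fin 2 ⊕ Fin 2 → Fin 2 ⊕ Fin 2 := Sum.elim (fun _ => Sum.inl 0) (fun _ => Sum.inr 0)

def gp2 : Fin 2 ⊕ Fin 2 → Fin 2 ⊕ Fin 2 := Sum.elim ![Sum.inl 1, Sum.inr 1] ![Sum.inr 1, Sum.inl 1]

def gth (A : Matrix (Fin 2 ⊕ Fin 2) (Fin 2 ⊕ Fin 2) F) : Matrix (Fin 2 ⊕ Fin 2) (Fin 2 ⊕ Fin 2) F :=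
  Matrix.of fun p q => A (gp1 p) (gp1 q) * A (gp2 p) (gp2 q) - A (gp1 p) (gp2 q) * A (gp2 p) (gp1 q)

theorem cb_aux [CharP F 2] (a a' b b' : Fin 2 ⊕ Fin 2 → F)
    (h1 : ∑ i, (a (Sum.inr i) * a' (Sum.inl i) - a (Sum.inl i) * a' (Sum.inr i)) = 0)
    (h2 : ∑ i, (b (Sum.inr i) * b' (Sum.inl i) - b (Sum.inl i) * b' (Sum.inr i)) = 0) :
    (∑ k, a k * b k) * (∑ k, a' k * b' k) - (∑ k, a k * b' k) * (∑ k, a' k * b k) =
      ∑ r, (a (gp1 r) * a' (gp2 r) - a (gp2 r) * a' (gp1 r)) *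
        (b (gp1 r) * b' (gp2 r) - b' (gp1 r) * b (gp2 r)) := by
  have h3 : (2 : F) = 0 := CharTwo.two_eq_zero
  simp only [Fintype.sum_sum_type, Fin.sum_univ_two, gp1, gp2, Sum.elim_inl, Sum.elim_inr,
    Matrix.cons_val_zero, Matrix.cons_val_one] at h1 h2 ⊢
  linear_combination h1 * (b (Sum.inr 1) * b' (Sum.inl 1) - b (Sum.inl 1) * b' (Sum.inr 1)) -
    (a (Sum.inr 0) * a' (Sum.inl 0) - a (Sum.inl 0) * a' (Sum.inr 0)) * h2 +
    (a (Sum.inr 0) * a' (Sum.inl 0) - a (Sum.inl 0) * a' (Sum.inr 0)) *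
    (b (Sum.inr 0) * b' (Sum.inl 0) - b (Sum.inl 0) * b' (Sum.inr 0)) * h3

theorem sp_col {m : ℕ} {A : Matrix (Fin m ⊕ Fin m) (Fin m ⊕ Fin m) F} (hA : A ∈ Matrix.symplecticGroup (Fin m) F)
    (p q : Fin m ⊕ Fin m) :
    ∑ i, (A (Sum.inr i) p * A (Sum.inl i) q - A (Sum.inl i) p * A (Sum.inr i) q) = Matrix.J (Fin m) F p q := by
  have h := (mem_Sp_iff.mp hA) (Pi.single p 1) (Pi.single q 1)
  rw [sympB_apply, sympForm_eq, sympB, Matrix.toBilin'_single] at h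
  simpa [Matrix.mulVec_single_one] using h

theorem sp_row {m : ℕ} {A : Matrix (Fin m ⊕ Fin m) (Fin m ⊕ Fin m) F} (hA : A ∈ Matrix.symplecticGroup (Fin m) F)
    (p q : Fin m ⊕ Fin m) :
    ∑ i, (A p (Sum.inr i) * A q (Sum.inl i) - A p (Sum.inl i) * A q (Sum.inr i)) = Matrix.J (Fin m) F p q :=
  sp_col (SymplecticGroup.transpose_mem hA) p q

theorem J_gp (p : Fin 2 ⊕ Fin 2) : Matrix.J (Fin 2) F (gp1 p) (gp2 p) = 0 := by
  rcases p with p | p <;> fin_cases p <;> simp [Matrix.J, gp1, gp2]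

theorem gth_mul [CharP F 2] {A B : Matrix (Fin 2 ⊕ Fin 2) (Fin 2 ⊕ Fin 2) F}
    (hA : A ∈ Matrix.symplecticGroup (Fin 2) F) (hB : B ∈ Matrix.symplecticGroup (Fin 2) F) :
    gth (A * B) = gth A * gth B := by
  ext p q
  simp only [gth, Matrix.of_apply, Matrix.mul_apply]
  exact cb_aux (A (gp1 p)) (A (gp2 p)) (fun k => B k (gp1 q)) (fun k => B k (gp2 q))
    ((sp_row hA _ _).trans (J_gp p)) ((sp_col hB _ _).trans (J_gp q))

theorem gth_one : gth (1 : Matrix (Fin 2 ⊕ Fin 2) (Fin 2 ⊕ Fin 2) F) = 1 := by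
  ext p q
  rcases p with p | p <;> rcases q with q | q <;> fin_cases p <;> fin_cases q <;>
    simp [gth, gp1, gp2, Matrix.one_apply]

def gpt : Fin 2 ⊕ Fin 2 → Fin 2 ⊕ Fin 2 := Sum.swap

theorem spT_entry [CharP F 2] (w : Fin 2 ⊕ Fin 2 → F) (c : F) (a b : Fin 2 ⊕ Fin 2) :
    sympTransvection 2 w c a b = (if a = b then 1 else 0) + c * (w a * w (gpt b)) := by
  unfold sympTransvection
  rcases b with b | b <;>
    simp [Matrix.add_apply, Matrix.one_apply, vecMulVec_apply, Matrix.J, Matrix.fromBlocks_mulVec, gpt, Matrix.neg_mulVec,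
      CharTwo.neg_eq]

/-- the quadratic part of the image of a transvection -/
def gN (w : Fin 2 ⊕ Fin 2 → F) (p q : Fin 2 ⊕ Fin 2) : F :=
  (if gp1 p = gp1 q then w (gp2 p) * w (gpt (gp2 q)) else 0) + (if gp2 p = gp2 q then w (gp1 p) * w (gpt (gp1 q)) else 0)
  + (if gp1 p = gp2 q then w (gp2 p) * w (gpt (gp1 q)) else 0) + (if gp2 p = gp1 q then w (gp1 p) * w (gpt (gp2 q)) else 0)

theorem gth_spT [CharP F 2] (w : Fin 2 ⊕ Fin 2 → F) (c : F) (p q : Fin 2 ⊕ Fin 2) :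
    gth (sympTransvection 2 w c) p q = (if p = q then 1 else 0) + c * gN w p q := by
  have h3 : (2 : F) = 0 := CharTwo.two_eq_zero
  simp only [gth, Matrix.of_apply, spT_entry, gN, CharTwo.sub_eq_add]
  rcases p with p | p <;> rcases q with q | q <;> fin_cases p <;> fin_cases q <;> 
   simp [gp1, gp2, gpt]  <;> ring_nf <;> (try simp [h3])

theorem sp_of_cols {m : ℕ} {A : Matrix (Fin m ⊕ Fin m) (Fin m ⊕ Fin m) F}
    (h : ∀ p q, ∑ i, (A (Sum.inr i) p * A (Sum.inl i) q - A (Sum.inl i) p * A (Sum.inr i) q) = Matrix.J (Fin m) F p q) :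
    A ∈ Matrix.symplecticGroup (Fin m) F := by
  rw [SymplecticGroup.mem_iff']
  ext p q
  rw [← h p q, Matrix.mul_apply]
  simp only [Fintype.sum_sum_type]
  rw [← Finset.sum_add_distrib]
  refine Finset.sum_congr rfl fun i _ => ?_
  simp [Matrix.J, Matrix.mul_apply, Fintype.sum_sum_type, Matrix.fromBlocks, Matrix.one_apply]
  ring

theorem gth_spT_mem [CharP F 2] (w : Fin 2 ⊕ Fin 2 → F) (c : F) :
    gth (sympTransvection 2 w c) ∈ Matrix.symplecticGroup (Fin 2) F := by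
  have h3 : (2 : F) = 0 := CharTwo.two_eq_zero
  apply sp_of_cols
  intro p q
  simp only [gth_spT, gN, CharTwo.sub_eq_add, Fin.sum_univ_two]
  rcases p with p | p <;> rcases q with q | q <;> fin_cases p <;> fin_cases q <;> 
   simp [gp1, gp2, gpt, Matrix.J, CharTwo.neg_eq]  <;> ring_nf <;> (try simp [h3])

theorem gth_gth_spT [CharP F 2] (w : Fin 2 ⊕ Fin 2 → F) (c : F) :
    gth (gth (sympTransvection 2 w c)) = (sympTransvection 2 w c).map (fun x => x ^ 2) := by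
  have h3 : (2 : F) = 0 := CharTwo.two_eq_zero
  ext p q
  rw [Matrix.map_apply]
  conv_lhs => rw [gth, Matrix.of_apply]
  simp only [gth_spT, gN, CharTwo.sub_eq_add, spT_entry]
  rcases p with p | p <;> rcases q with q | q <;> fin_cases p <;> fin_cases q <;> 
   simp [gp1, gp2, gpt]  <;> ring_nf <;> (try simp [h3])

theorem gN_minor [CharP F 2] (w : Fin 2 ⊕ Fin 2 → F) (a : Fin 2 ⊕ Fin 2) :
    gN w (gp1 a) (gp1 (gpt a)) * gN w (gp2 a) (gp2 (gpt a)) + gN w (gp1 a) (gp2 (gpt a)) * gN w (gp2 a) (gp1 (gpt a)) = w a ^ 4 := by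
  have h3 : (2 : F) = 0 := CharTwo.two_eq_zero
  simp only [gN]
  rcases a with a | a <;> fin_cases a <;> 
   simp [gp1, gp2, gpt]  <;> ring_nf <;> (try simp [h3])

/-- the compound map as a homomorphism to matrices -/
def gthM (F : Type*) [Field F] [CharP F 2] :
    Matrix.symplecticGroup (Fin 2) F →* Matrix (Fin 2 ⊕ Fin 2) (Fin 2 ⊕ Fin 2) F where
  toFun A := gth (A : Matrix (Fin 2 ⊕ Fin 2) (Fin 2 ⊕ Fin 2) F)
  map_one' := gth_one
  map_mul' A B := gth_mul A.2 B.2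

theorem gth_mem [CharP F 2] (A : Matrix.symplecticGroup (Fin 2) F) :
    gth (A : Matrix (Fin 2 ⊕ Fin 2) (Fin 2 ⊕ Fin 2) F) ∈ Matrix.symplecticGroup (Fin 2) F := by
  have hA : A ∈ spTgroup 2 F := by rw [spTgroup_eq_top]; trivial
  refine Subgroup.closure_induction (p := fun A _ => gthM F A ∈ Matrix.symplecticGroup (Fin 2) F)
    ?_ ?_ ?_ ?_ hA
  · rintro x ⟨w, c, h⟩
    show gth (x : Matrix (Fin 2 ⊕ Fin 2) (Fin 2 ⊕ Fin 2) F) ∈ _
    rw [h]
    exact gth_spT_mem w c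
  · rw [map_one]; exact one_mem _
  · intro x y _ _ hx hy
    rw [map_mul]; exact mul_mem hx hy
  · intro x _ hx
    have h1 : gthM F x⁻¹ * gthM F x = 1 := by rw [← map_mul, inv_mul_cancel, map_one]
    have h2 : gthM F x * ((⟨gthM F x, hx⟩⁻¹ : Matrix.symplecticGroup (Fin 2) F) : Matrix (Fin 2 ⊕ Fin 2) (Fin 2 ⊕ Fin 2) F) = 1 := by
      have := mul_inv_cancel (⟨gthM F x, hx⟩ : Matrix.symplecticGroup (Fin 2) F)
      exact congrArg Subtype.val this
    have h3 : gthM F x⁻¹ = ((⟨gthM F x, hx⟩⁻¹ : Matrix.symplecticGroup (Fin 2) F) : Matrix (Fin 2 ⊕ Fin 2) (Fin 2 ⊕ Fin 2) F) := by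
      rw [← mul_one (gthM F x⁻¹), ← h2, ← mul_assoc, h1, one_mul]
    rw [h3]
    exact Subtype.property _

/-- the compound map as an endomorphism of `Sp_4` -/
def gthS (F : Type*) [Field F] [CharP F 2] :
    Matrix.symplecticGroup (Fin 2) F →* Matrix.symplecticGroup (Fin 2) F where
  toFun A := ⟨gth (A : Matrix (Fin 2 ⊕ Fin 2) (Fin 2 ⊕ Fin 2) F), gth_mem A⟩
  map_one' := Subtype.ext gth_one
  map_mul' A B := Subtype.ext (gth_mul A.2 B.2)

theorem gthS_gthS [CharP F 2] (A : Matrix.symplecticGroup (Fin 2) F) :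
    ((gthS F (gthS F A) : Matrix.symplecticGroup (Fin 2) F) : Matrix (Fin 2 ⊕ Fin 2) (Fin 2 ⊕ Fin 2) F) =
      (A : Matrix (Fin 2 ⊕ Fin 2) (Fin 2 ⊕ Fin 2) F).map (fun x => x ^ 2) := by
  let f1 : Matrix.symplecticGroup (Fin 2) F →* Matrix (Fin 2 ⊕ Fin 2) (Fin 2 ⊕ Fin 2) F :=
    (Matrix.symplecticGroup (Fin 2) F).subtype.comp ((gthS F).comp (gthS F))
  let f2 : Matrix.symplecticGroup (Fin 2) F →* Matrix (Fin 2 ⊕ Fin 2) (Fin 2 ⊕ Fin 2) F :=
    ((frobenius F 2).mapMatrix : Matrix (Fin 2 ⊕ Fin 2) (Fin 2 ⊕ Fin 2) F →+* _).toMonoidHom.comp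
      (Matrix.symplecticGroup (Fin 2) F).subtype
  have h : f1 = f2 := by
    refine MonoidHom.eq_of_eqOn_dense (spTgroup_eq_top (m := 2) (F := F)) ?_
    rintro x ⟨w, c, h⟩
    show gth (gth (x : Matrix (Fin 2 ⊕ Fin 2) (Fin 2 ⊕ Fin 2) F)) = (x : Matrix (Fin 2 ⊕ Fin 2) (Fin 2 ⊕ Fin 2) F).map (fun x => x ^ 2)
    rw [h]
    exact gth_gth_spT w c
  exact DFunLike.congr_fun h A

theorem gthS_injective [CharP F 2] : Function.Injective (gthS F) := by
  intro A B h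
  have h1 := gthS_gthS A
  rw [h, gthS_gthS B] at h1
  apply Subtype.ext
  ext i j
  have h2 := congrFun (congrFun h1 i) j
  simp only [Matrix.map_apply] at h2
  exact (CharTwo.sq_injective h2).symm

theorem sp4_graph [Finite F] [CharP F 2] :
    ∃ θ : Matrix.symplecticGroup (Fin 2) F ≃* Matrix.symplecticGroup (Fin 2) F,
      (∀ A, ((θ (θ A) : Matrix.symplecticGroup (Fin 2) F) : Matrix (Fin 2 ⊕ Fin 2) (Fin 2 ⊕ Fin 2) F) =
        (A : Matrix (Fin 2 ⊕ Fin 2) (Fin 2 ⊕ Fin 2) F).map (fun x => x ^ 2)) ∧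
      ∀ (u : Fin 2 ⊕ Fin 2 → F) (A : Matrix.symplecticGroup (Fin 2) F), u ≠ 0 →
        (∀ v, (A : Matrix (Fin 2 ⊕ Fin 2) (Fin 2 ⊕ Fin 2) F).mulVec v = v + sympB 2 F u v • u) →
        ¬ ∃ w, ∀ v, ((θ A : Matrix.symplecticGroup (Fin 2) F) : Matrix (Fin 2 ⊕ Fin 2) (Fin 2 ⊕ Fin 2) F).mulVec v - v ∈
          Submodule.span F {w} := by
  haveI : Finite (Matrix.symplecticGroup (Fin 2) F) :=
    Finite.of_injective (fun A => (A : Matrix (Fin 2 ⊕ Fin 2) (Fin 2 ⊕ Fin 2) F)) Subtype.val_injective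
  refine ⟨MulEquiv.ofBijective (gthS F) ((Finite.injective_iff_bijective).mp gthS_injective), ?_, ?_⟩
  · intro A
    exact gthS_gthS A
  · rintro u A hu hA ⟨w, hw⟩
    have hAe : (A : Matrix (Fin 2 ⊕ Fin 2) (Fin 2 ⊕ Fin 2) F) = sympTransvection 2 u 1 := by
      have h1 : ∀ v, (A : Matrix (Fin 2 ⊕ Fin 2) (Fin 2 ⊕ Fin 2) F).mulVec v = (sympTransvection 2 u 1).mulVec v := by
        intro v
        rw [hA, sympTransvection_mulVec, sympB_neg, one_mul, CharTwo.neg_eq]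
      ext i j
      have := congrFun (h1 (Pi.single j 1)) i
      simpa [Matrix.mulVec_single_one] using this
    obtain ⟨a, ha⟩ : ∃ a, u a ≠ 0 := by
      by_contra h
      push Not at h
      exact hu (funext h)
    have h2 : ∀ q, ∃ t : F, ∀ p, gN u p q = t * w p := by
      intro q
      obtain ⟨t, ht⟩ := Submodule.mem_span_singleton.mp (hw (Pi.single q 1))
      refine ⟨t, fun p => ?_⟩
      have h3 := congrFun ht p
      have h4 : ((MulEquiv.ofBijective (gthS F) ((Finite.injective_iff_bijective).mp gthS_injective) A :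
        Matrix.symplecticGroup (Fin 2) F) : Matrix (Fin 2 ⊕ Fin 2) (Fin 2 ⊕ Fin 2) F) = gth (sympTransvection 2 u 1) := by
        show gth (A : Matrix (Fin 2 ⊕ Fin 2) (Fin 2 ⊕ Fin 2) F) = _
        rw [hAe]
      rw [h4, Pi.smul_apply, smul_eq_mul, Pi.sub_apply, Matrix.mulVec_single_one, Matrix.col_apply, gth_spT, one_mul,
        Pi.single_apply] at h3
      rw [h3]
      ring
    choose t ht using h2
    have h5 := gN_minor u a
    rw [ht, ht, ht, ht] at h5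
    have h3 : (2 : F) = 0 := CharTwo.two_eq_zero
    have h6 : u a ^ 4 = 0 := by
      rw [← h5]
      linear_combination (t (gp1 (gpt a)) * w (gp1 a) * (t (gp2 (gpt a)) * w (gp2 a))) * h3
    exact ha (pow_eq_zero_iff (by norm_num) |>.mp h6)

end Cfsg.Agent.H5
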