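import Mathlib
import Cfsg.Prelude.Def_ChevB2
import Cfsg.Agent.S1060
set_option autoImplicit false

/-! `B₂(2) ≅ S₆`. -/

namespace Cfsg.Agent.H5
open Cfsg.Lie Matrix Cfsg

abbrev JB := chevB2.Idx

def wvB (k : Fin 6) : JB → ℤ := Sum.elim (![![0, 1], ![0, 1], ![0, 1], ![0, 1], ![0, 1], ![0, 1]] k)
  (![![0, 0, 0, 1, 1, 0, 0, 0], ![1, 0, 0, 1, 1, 0, 0, 0], ![1, 0, 0, 0, 0, 0, 0, 1], ![1, 0, 0, 1, 0, 0, 0, 1],
    ![1, 0, 0, 0, 1, 0, 0, 1], ![0, 0, 0, 1, 1, 0, 0, 1]] k)

def sgB (r : Fin chevB2.nroots) : Fin 6 → Fin 6 := ![![5, 1, 2, 3, 4, 0], ![5, 3, 4, 1, 2, 0], ![5, 4, 3, 2, 1, 0], ![0, 1, 4, 3, 2, 5],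
  ![0, 1, 3, 2, 4, 5], ![1, 0, 4, 5, 2, 3], ![1, 0, 3, 2, 5, 4], ![1, 0, 2, 3, 4, 5]] (show Fin 8 from r)

def xIB (r : Fin chevB2.nroots) : Matrix JB JB ℤ :=
  Matrix.of fun row col =>
    match col with
    | Sum.inl i =>
      (match row with
       | Sum.inl i' => if i' = i then 1 else 0
       | Sum.inr u => if u = r then - ((chevB2.cartanSR.getD i.val #[]).getD r.val 0 : ℤ) else 0)
    | Sum.inr s =>
      if s = r then (match row with | Sum.inr u => if u = r then 1 else 0 | Sum.inl _ => 0)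
      else if s.val = chevB2.negIdx.getD r.val 0 then
        (match row with
         | Sum.inl i => ((chevB2.coroot.getD r.val #[]).getD i.val 0 : ℤ)
         | Sum.inr u => if u = s then 1 else if u = r then -1 else 0)
      else
        (match row with
         | Sum.inl _ => 0
         | Sum.inr u => (if u = s then 1 else 0) +
             ((chevB2.chainCoeff r.val s.val u.val).map fun km => km.2).sum)

theorem xIB_cast {F : Type*} [Field F] (r : Fin chevB2.nroots) : chevB2.xMat F r 1 = (xIB r).map (Int.cast : ℤ → F) := by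
  ext row col
  unfold ChevalleyDatum.xMat xIB
  rw [Matrix.map_apply, Matrix.of_apply, Matrix.of_apply]
  rcases col with i | s
  · rcases row with i' | u
    · simp only; split_ifs <;> simp
    · simp only; split_ifs <;> simp
  · simp only
    split_ifs
    · rcases row with i' | u
      · simp
      · simp only; split_ifs <;> simp
    · rcases row with i' | u
      · simp
      · simp only; split_ifs <;> simp
    · rcases row with i' | u
      · simp
      · simp only
        rw [Int.cast_add, Int.cast_list_sum, List.map_map]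
        congr 1
        · split_ifs <;> simp
        · congr 1
          apply List.map_congr_left
          intro a _
          simp

theorem wvB_chk : ∀ (r : Fin chevB2.nroots) (k : Fin 6) (c : JB), (∑ row, wvB k row * xIB r row c - wvB (sgB r k) c) % 2 = 0 := by decide +kernel

theorem wvB_inj : ∀ (k k' : Fin 6), (∀ c : JB, (wvB k c - wvB k' c) % 2 = 0) → k = k' := by decide +kernel

section
variable {F : Type*} [Field F] [Fintype F]

theorem two_elts (hF : Fintype.card F = 2) (t : F) : t = 0 ∨ t = 1 := by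
  classical
  by_contra h
  push Not at h
  have h1 : ({0, 1, t} : Finset F).card = 3 := by
    rw [Finset.card_insert_of_notMem, Finset.card_pair (Ne.symm h.2)]
    simp [Ne.symm h.1]
  have h2 := Finset.card_le_univ ({0, 1, t} : Finset F)
  rw [h1, hF] at h2
  omega

theorem int_cast_eq (hF : Fintype.card F = 2) {a b : ℤ} : (a : F) = (b : F) ↔ (a - b) % 2 = 0 := by
  haveI : CharP F 2 := by
    have h1 : (Fintype.card F : F) = 0 := FiniteField.cast_card_eq_zero F
    rw [hF] at h1
    exact CharTwo.of_one_ne_zero_of_two_eq_zero one_ne_zero (by exact_mod_cast h1)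
  rw [← sub_eq_zero, ← Int.cast_sub, CharP.intCast_eq_zero_iff F 2]
  omega

def wFB (F : Type*) [Field F] (k : Fin 6) : JB → F := fun j => (wvB k j : F)

theorem wFB_inj (hF : Fintype.card F = 2) : Function.Injective (wFB F) := by
  intro k k' h
  apply wvB_inj
  intro c
  rw [← int_cast_eq hF]
  exact congrFun h c

theorem wFB_x (hF : Fintype.card F = 2) (r : Fin chevB2.nroots) (k : Fin 6) : wFB F k ᵥ* chevB2.xMat F r 1 = wFB F (sgB r k) := by
  rw [xIB_cast]
  funext c
  have h1 : (wFB F k ᵥ* (xIB r).map (Int.cast : ℤ → F)) c = ((∑ row, wvB k row * xIB r row c : ℤ) : F) := by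
    rw [Matrix.vecMul, dotProduct]
    push_cast
    rfl
  rw [h1]
  show _ = ((wvB (sgB r k) c : ℤ) : F)
  rw [int_cast_eq hF]
  exact wvB_chk r k c


theorem wFB_xt (hF : Fintype.card F = 2) (r : Fin chevB2.nroots) (t : F) (k : Fin 6) :
    ∃ k', wFB F k ᵥ* chevB2.xMat F r t = wFB F k' := by
  rcases two_elts hF t with rfl | rfl
  · refine ⟨k, ?_⟩
    have h1 : chevB2.xMat F r 0 = 1 := by
      have := Cfsg.Agent.H6.TB2.good.toSem.x_zero (F := F) r.1
      rwa [Cfsg.Agent.H6.x_of_lt r.2] at this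
    rw [h1, Matrix.vecMul_one]
  · exact ⟨_, wFB_x hF r k⟩

theorem wFB_stab (hF : Fintype.card F = 2) {g : GL JB F} (hg : g ∈ chevB2.group F) :
    ∀ k, ∃ k', wFB F k ᵥ* (g : Matrix JB JB F) = wFB F k' := by
  induction hg using Subgroup.closure_induction with
  | mem x hx =>
    obtain ⟨r, t, hrt⟩ := hx
    intro k
    rw [hrt]
    exact wFB_xt hF r t k
  | one => intro k; exact ⟨k, by rw [Units.val_one, Matrix.vecMul_one]⟩
  | mul x y _ _ hx hy =>
    intro k
    obtain ⟨k1, h1⟩ := hx k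
    obtain ⟨k2, h2⟩ := hy k1
    exact ⟨k2, by rw [Units.val_mul, ← Matrix.vecMul_vecMul, h1, h2]⟩
  | inv x _ hx =>
    choose f hf using hx
    have hinj : Function.Injective f := by
      intro a b hab
      apply wFB_inj (F := F) hF
      have h1 : wFB F a ᵥ* (x : Matrix JB JB F) = wFB F b ᵥ* (x : Matrix JB JB F) := by rw [hf, hf, hab]
      have h2 := congrArg (fun w => w ᵥ* ((x⁻¹ : GL JB F) : Matrix JB JB F)) h1
      simpa only [Matrix.vecMul_vecMul, ← Units.val_mul, mul_inv_cancel, Units.val_one, Matrix.vecMul_one] using h2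
    have hsurj := Finite.surjective_of_injective hinj
    intro k
    obtain ⟨k', rfl⟩ := hsurj k
    refine ⟨k', ?_⟩
    rw [← hf, Matrix.vecMul_vecMul, ← Units.val_mul, mul_inv_cancel, Units.val_one, Matrix.vecMul_one]

/-- the action on six points -/
noncomputable def sixHom (hF : Fintype.card F = 2) : ↥(chevB2.group F) →* Equiv.Perm (Fin 6) := by
  have hst := fun g : ↥(chevB2.group F) => wFB_stab hF (g⁻¹).2
  let f : ↥(chevB2.group F) → Fin 6 → Fin 6 := fun g k => (hst g k).choose
  have hf : ∀ g k, wFB F k ᵥ* (((g⁻¹ : ↥(chevB2.group F)) : GL JB F) : Matrix JB JB F) = wFB F (f g k) := fun g k => (hst g k).choose_spec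
  exact MonoidHom.toHomPerm
    { toFun := f
      map_one' := by
        funext k
        apply wFB_inj (F := F) hF
        rw [← hf, inv_one]
        show wFB F k ᵥ* (1 : Matrix JB JB F) = wFB F k
        rw [Matrix.vecMul_one]
      map_mul' := by
        intro g h
        funext k
        apply wFB_inj (F := F) hF
        show wFB F (f (g * h) k) = wFB F (f g (f h k))
        rw [← hf, ← hf, ← hf, Matrix.vecMul_vecMul, _root_.mul_inv_rev]
        rfl }

theorem sixHom_spec (hF : Fintype.card F = 2) (g : ↥(chevB2.group F)) (k : Fin 6) :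
    wFB F k ᵥ* (((g⁻¹ : ↥(chevB2.group F)) : GL JB F) : Matrix JB JB F) = wFB F (sixHom hF g k) :=
  (wFB_stab hF (g⁻¹).2 k).choose_spec

theorem sixHom_x (hF : Fintype.card F = 2) (r : Fin chevB2.nroots) : ∃ g : ↥(chevB2.group F), ∀ k, sixHom hF g (sgB r k) = k := by
  have hu : IsUnit (chevB2.xMat F r 1) := by
    have := Cfsg.Agent.H6.TB2.good.x_isUnit (F := F) r.1 1
    rwa [Cfsg.Agent.H6.x_of_lt r.2] at this
  let g : ↥(chevB2.group F) := ⟨hu.unit, Subgroup.subset_closure ⟨r, 1, hu.unit_spec⟩⟩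
  refine ⟨g, fun k => ?_⟩
  apply wFB_inj (F := F) hF
  rw [← sixHom_spec]
  have h1 : wFB F (sgB r k) = wFB F k ᵥ* ((g : GL JB F) : Matrix JB JB F) := by
    rw [← wFB_x hF r k]
    congr 1
  rw [h1, Matrix.vecMul_vecMul]
  have h2 : ((g : GL JB F) : Matrix JB JB F) * (((g⁻¹ : ↥(chevB2.group F)) : GL JB F) : Matrix JB JB F) = 1 := by
    rw [← Units.val_mul, ← Subgroup.coe_mul, mul_inv_cancel]; rfl
  rw [h2, Matrix.vecMul_one]

theorem sgB_inv : ∀ (r : Fin chevB2.nroots) (k : Fin 6), sgB r (sgB r k) = k := by decide +kernel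

/-- the image contains the permutation -/
theorem sixHom_mem (hF : Fintype.card F = 2) (r : Fin chevB2.nroots) : ∃ p ∈ (sixHom hF).range, ∀ k, p k = sgB r k := by
  obtain ⟨g, hg⟩ := sixHom_x hF r
  refine ⟨_, ⟨g, rfl⟩, fun k => ?_⟩
  have := hg (sgB r k)
  rwa [sgB_inv] at this

theorem sixHom_range (hF : Fintype.card F = 2) : (sixHom hF).range = ⊤ := by
  obtain ⟨p0, h0, e0⟩ := sixHom_mem hF ⟨0, by decide⟩
  obtain ⟨p1, h1, e1⟩ := sixHom_mem hF ⟨1, by decide⟩
  obtain ⟨p6, h6, e6⟩ := sixHom_mem hF ⟨6, by decide⟩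
  obtain ⟨p7, h7, e7⟩ := sixHom_mem hF ⟨7, by decide⟩
  have hc : p0 * p1 * p6 = List.formPerm [(0 : Fin 6), 3, 4, 5, 2, 1] := by
    apply Equiv.ext
    intro k
    rw [Equiv.Perm.mul_apply, Equiv.Perm.mul_apply, e6, e1, e0]
    revert k
    decide +kernel
  have hs : p7 = Equiv.swap (1 : Fin 6) (List.formPerm [(0 : Fin 6), 3, 4, 5, 2, 1] 1) := by
    apply Equiv.ext
    intro k
    rw [e7]
    revert k
    decide +kernel
  have hcyc : (List.formPerm [(0 : Fin 6), 3, 4, 5, 2, 1]).IsCycle := List.isCycle_formPerm (by decide) (by decide)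
  have hsup : (List.formPerm [(0 : Fin 6), 3, 4, 5, 2, 1]).support = Finset.univ := by decide +kernel
  have := Equiv.Perm.closure_cycle_adjacent_swap hcyc hsup 1
  rw [eq_top_iff, ← this, Subgroup.closure_le]
  intro x hx
  rcases hx with rfl | hx
  · rw [← hc]; exact mul_mem (mul_mem h0 h1) h6
  · rw [Set.mem_singleton_iff] at hx
    rw [hx, ← hs]; exact h7

theorem b2_two (hF : Fintype.card F = 2) : Nonempty (↥(chevB2.group F) ≃* Equiv.Perm (Fin 6)) := by
  have hcard := Cfsg.Agent.S1060.result hF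
  have hc : Nat.card ↥(chevB2.group F) = Nat.card (Equiv.Perm (Fin 6)) := by
    rw [Nat.card_eq_fintype_card (α := Equiv.Perm (Fin 6)), Fintype.card_perm, Fintype.card_fin]
    have h6 : Nat.factorial 6 = 720 := rfl
    rw [h6]
    simpa using hcard
  haveI : Finite ↥(chevB2.group F) := Nat.finite_of_card_ne_zero (by rw [hc]; exact Nat.card_pos.ne')
  exact ⟨MulEquiv.ofBijective (sixHom hF) ((Nat.bijective_iff_surjective_and_card _).2 ⟨MonoidHom.range_eq_top.1 (sixHom_range hF), hc⟩)⟩

end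

end Cfsg.Agent.H5
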