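import Cfsg.Agent.H5.Dk18
import Cfsg.Agent.H21.PresSL25
set_option autoImplicit false
set_option linter.style.haveILetI false
set_option linter.unusedSectionVars false

/-! Generation of `SL₂(q)` by two transvections (Dickson). -/

namespace Cfsg.Agent.H5

open OnePoint Cfsg.Agent.H4 Cfsg.Agent.H2 Matrix

section
variable {K : Type*} [Field K] [DecidableEq K]

theorem trace_of_slPerm_eq {A C : Matrix.SpecialLinearGroup (Fin 2) K} (h : slPerm K A = slPerm K C) :
    (A : Matrix (Fin 2) (Fin 2) K).trace = (C : Matrix (Fin 2) (Fin 2) K).trace ∨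
      (A : Matrix (Fin 2) (Fin 2) K).trace = -(C : Matrix (Fin 2) (Fin 2) K).trace := by
  have h1 : slPerm K (C⁻¹ * A) = 1 := by rw [map_mul, map_inv, h, inv_mul_cancel]
  rw [← MonoidHom.mem_ker, slPerm_ker, Matrix.SpecialLinearGroup.mem_center_iff] at h1
  obtain ⟨r, hr, hrA⟩ := h1
  have h3 : (A : Matrix (Fin 2) (Fin 2) K) = r • (C : Matrix (Fin 2) (Fin 2) K) := by
    have h4 : A = C * (C⁻¹ * A) := by group
    have h5 := congrArg (fun M : Matrix.SpecialLinearGroup (Fin 2) K => (M : Matrix (Fin 2) (Fin 2) K)) h4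
    rw [Matrix.SpecialLinearGroup.coe_mul] at hrA
    simp only [Matrix.SpecialLinearGroup.coe_mul] at h5
    rw [← hrA] at h5
    rw [h5, Matrix.scalar_apply, ← Matrix.smul_one_eq_diagonal, Matrix.mul_smul, mul_one]
  have hr' : r = 1 ∨ r = -1 := by
    have : r ^ 2 = 1 := by simpa using hr
    rcases mul_eq_zero.1 (show (r - 1) * (r + 1) = 0 by linear_combination this) with h | h
    · left; linear_combination h
    · right; linear_combination h
  rw [h3, Matrix.trace_smul, smul_eq_mul]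
  rcases hr' with rfl | rfl
  · left; ring
  · right; ring

/-- squares of elements of `Mimg` lie in `Simg` -/
theorem Mimg_sq (B : Subfield K) {x : Equiv.Perm (OnePoint K)} (hx : x ∈ Mimg B) : x ^ 2 ∈ Simg B := by
  obtain ⟨A, rfl⟩ := hx
  have hdet : (A.det : B) = (A : Matrix (Fin 2) (Fin 2) B).det := rfl
  have hne : (A : Matrix (Fin 2) (Fin 2) B).det ≠ 0 := by rw [← hdet]; exact A.det.ne_zero
  let S : Matrix.SpecialLinearGroup (Fin 2) B := ⟨((A : Matrix (Fin 2) (Fin 2) B).det)⁻¹ • ((A : Matrix (Fin 2) (Fin 2) B) * (A : Matrix (Fin 2) (Fin 2) B)), by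
    rw [Matrix.det_smul, Matrix.det_mul, Fintype.card_fin]
    field_simp⟩
  refine ⟨S, ?_⟩
  have h1 : Matrix.SpecialLinearGroup.toGL (Matrix.SpecialLinearGroup.map B.subtype S) =
      Matrix.GeneralLinearGroup.scalar (Fin 2) (Units.map B.subtype.toMonoidHom (A.det)⁻¹) *
        (Matrix.GeneralLinearGroup.map B.subtype A * Matrix.GeneralLinearGroup.map B.subtype A) := by
    apply Units.ext
    rw [Units.val_mul, Matrix.GeneralLinearGroup.coe_scalar, Matrix.scalar_apply, ← Matrix.smul_one_eq_diagonal, Matrix.smul_mul, one_mul,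
      Units.val_mul]
    ext i j
    show B.subtype ((((A : Matrix (Fin 2) (Fin 2) B).det)⁻¹ • ((A : Matrix (Fin 2) (Fin 2) B) * (A : Matrix (Fin 2) (Fin 2) B))) i j) = _
    rw [Matrix.smul_apply, smul_eq_mul, map_mul, Matrix.smul_apply, smul_eq_mul]
    congr 1
    · show _ = B.subtype (((A.det)⁻¹ : Bˣ) : B)
      rw [Units.val_inv_eq_inv_val, hdet]
  have h2 : glPerm K (Matrix.GeneralLinearGroup.scalar (Fin 2) (Units.map B.subtype.toMonoidHom (A.det)⁻¹)) = 1 := by
    rw [← MonoidHom.mem_ker, glPerm_ker, Matrix.GeneralLinearGroup.center_eq_range_scalar]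
    exact ⟨_, rfl⟩
  show slPerm K (Matrix.SpecialLinearGroup.map B.subtype S) = (glPerm K (Matrix.GeneralLinearGroup.map B.subtype A)) ^ 2
  rw [← glPerm_toGL, h1, map_mul, h2, one_mul, map_mul, pow_two]

theorem Mimg_pow_mem (B : Subfield K) {x : Equiv.Perm (OnePoint K)} (hx : x ∈ Mimg B) {p : ℕ} (hp : Odd p) (hxp : x ^ p = 1) :
    x ∈ Simg B := by
  obtain ⟨k, hk⟩ := hp
  have : x = (x ^ 2) ^ (k + 1) := by
    rw [← pow_mul, show 2 * (k + 1) = p + 1 by omega, pow_succ, hxp, one_mul]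
  rw [this]
  exact pow_mem (Mimg_sq B hx) _

end

section
variable {F : Type*} [Field F]

local notation "SL₂" => Matrix.SpecialLinearGroup (Fin 2) F

theorem sl2_mul_self (M : SL₂) : (M.1 * M.1) = (M.1 0 0 + M.1 1 1) • M.1 - 1 := by
  have hdet : M.1 0 0 * M.1 1 1 - M.1 0 1 * M.1 1 0 = 1 := by
    have := M.2
    rwa [Matrix.det_fin_two] at this
  ext i j
  fin_cases i <;> fin_cases j <;> simp [Matrix.mul_apply, Fin.sum_univ_two]
  · linear_combination -hdet
  · ring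
  · ring
  · linear_combination -hdet

theorem mat_pow5 {M : Matrix (Fin 2) (Fin 2) F} {t : F} (h : M * M = t • M - 1) :
    M * M * M = (t ^ 2 - 1) • M - t • (1 : Matrix (Fin 2) (Fin 2) F) ∧
    M * M * M * (M * M) = (t ^ 4 - 3 * t ^ 2 + 1) • M - (t ^ 3 - 2 * t) • (1 : Matrix (Fin 2) (Fin 2) F) := by
  have h3 : M * M * M = (t ^ 2 - 1) • M - t • (1 : Matrix (Fin 2) (Fin 2) F) := by
    rw [h, Matrix.sub_mul, Matrix.smul_mul, h, one_mul]
    module
  refine ⟨h3, ?_⟩
  rw [h3, h, Matrix.sub_mul, Matrix.smul_mul, Matrix.smul_mul, one_mul, Matrix.mul_sub, Matrix.mul_smul, mul_one, h]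
  module

theorem sl2_pow2 (M : SL₂) : (M ^ 2).1 1 0 = M.1 1 0 * (M.1 0 0 + M.1 1 1) := by
  have h : (M ^ 2).1 = M.1 * M.1 := by rw [pow_two]; rfl
  rw [h, sl2_mul_self]
  simp; ring

theorem sl2_pow3 (M : SL₂) : (M ^ 3).1 1 0 = M.1 1 0 * ((M.1 0 0 + M.1 1 1) ^ 2 - 1) := by
  have h : (M ^ 3).1 = M.1 * M.1 * M.1 := by rw [pow_succ, pow_two]; rfl
  rw [h, (mat_pow5 (sl2_mul_self M)).1]
  simp; ring

theorem sl2_pow5 (M : SL₂) : (M ^ 5).1 1 0 = M.1 1 0 * ((M.1 0 0 + M.1 1 1) ^ 4 - 3 * (M.1 0 0 + M.1 1 1) ^ 2 + 1) := by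
  have h : (M ^ 5).1 = M.1 * M.1 * M.1 * (M.1 * M.1) := by
    rw [show (5 : ℕ) = 3 + 2 by norm_num, pow_add, pow_two, pow_succ, pow_two]; rfl
  rw [h, (mat_pow5 (sl2_mul_self M)).2]
  simp; ring

end

end Cfsg.Agent.H5
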