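import Cfsg.Agent.H5.Dk19
set_option autoImplicit false
set_option linter.style.haveILetI false
set_option linter.unusedSectionVars false

/-! Generation of `SL₂(q)` by two transvections (Dickson). -/

namespace Cfsg.Agent.H5

open OnePoint Cfsg.Agent.H4 Cfsg.Agent.H2 Matrix

section
variable {F : Type*} [Field F]

local notation "SL₂" => Matrix.SpecialLinearGroup (Fin 2) F

theorem transv_pow {i j : Fin 2} (hij : i ≠ j) (c : F) (n : ℕ) :
    (Matrix.SpecialLinearGroup.transvection hij c : SL₂) ^ n = Matrix.SpecialLinearGroup.transvection hij (n * c) := by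
  induction n with
  | zero => rw [Nat.cast_zero, zero_mul, Matrix.SpecialLinearGroup.transvection_coeff_zero, pow_zero]
  | succ n ih =>
    rw [pow_succ, ih, ← Matrix.SpecialLinearGroup.transvection_add]
    congr 1
    push_cast; ring

theorem transv_p (p : ℕ) [CharP F p] {i j : Fin 2} (hij : i ≠ j) (c : F) :
    (Matrix.SpecialLinearGroup.transvection hij c : SL₂) ^ p = 1 := by
  rw [transv_pow, CharP.cast_eq_zero, zero_mul, Matrix.SpecialLinearGroup.transvection_coeff_zero]

theorem center_sq {z : SL₂} (hz : z ∈ Subgroup.center SL₂) : z ^ 2 = 1 := by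
  rw [Matrix.SpecialLinearGroup.mem_center_iff] at hz
  obtain ⟨c, hc, hcA⟩ := hz
  apply Subtype.ext
  have hc' : c ^ 2 = 1 := by simpa using hc
  rw [Matrix.SpecialLinearGroup.coe_pow, ← hcA, ← map_pow, hc', map_one]; rfl

/-- a subgroup covering `PSL₂` is everything, `p` odd -/
theorem eq_top_of_cover (p : ℕ) (hp : Odd p) [CharP F p] (C : Subgroup SL₂) (h : ∀ g : SL₂, ∃ c ∈ C, c⁻¹ * g ∈ Subgroup.center SL₂) : C = ⊤ := by
  apply H16.eq_top_of_transvection_mem
  intro i j hij c
  obtain ⟨d, hd, hz⟩ := h (Matrix.SpecialLinearGroup.transvection hij c)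
  obtain ⟨k, hk⟩ := hp
  set t := (Matrix.SpecialLinearGroup.transvection hij c : SL₂) with ht
  have h1 : t = d * (d⁻¹ * t) := by group
  have h2 : t = t ^ (p + 1) := by rw [pow_succ, ht, transv_p p hij c, one_mul]
  have hcomm : Commute d (d⁻¹ * t) := by
    have := Subgroup.mem_center_iff.1 hz d
    exact this
  have h3 : t ^ (p + 1) = d ^ (p + 1) := by
    conv_lhs => rw [h1]
    rw [hcomm.mul_pow, show p + 1 = 2 * (k + 1) by omega, pow_mul (d⁻¹ * t), center_sq hz, one_pow, mul_one]
  rw [h2, h3]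
  exact pow_mem hd _

/-- the two generators -/
def tL (F : Type*) [Field F] : Matrix.SpecialLinearGroup (Fin 2) F := mkSL 1 0 1 1 (by ring)
def tU {F : Type*} [Field F] (lam : F) : Matrix.SpecialLinearGroup (Fin 2) F := mkSL 1 lam 0 1 (by ring)

theorem mkSL_mul (a b c d a' b' c' d' : F) (h : a * d - b * c = 1) (h' : a' * d' - b' * c' = 1) :
    mkSL a b c d h * mkSL a' b' c' d' h' = mkSL (a * a' + b * c') (a * b' + b * d') (c * a' + d * c') (c * b' + d * d') (by
      linear_combination (a' * d' - b' * c') * h + h') := by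
  apply Subtype.ext
  show !![a, b; c, d] * !![a', b'; c', d'] = !![a * a' + b * c', a * b' + b * d'; c * a' + d * c', c * b' + d * d']
  rw [Matrix.mul_fin_two]

theorem mkSL_eq {a b c d a' b' c' d' : F} {h : a * d - b * c = 1} {h' : a' * d' - b' * c' = 1}
    (e1 : a = a') (e2 : b = b') (e3 : c = c') (e4 : d = d') : mkSL a b c d h = mkSL a' b' c' d' h' := by
  subst e1 e2 e3 e4; rfl

theorem mkSL_one : (1 : SL₂) = mkSL 1 0 0 1 (by ring) := by
  apply Subtype.ext
  show (1 : Matrix (Fin 2) (Fin 2) F) = !![1, 0; 0, 1]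
  rw [Matrix.one_fin_two]

/-- relations in characteristic three with `λ² = -1` -/
theorem rels_120 {lam : F} (h3 : (3 : F) = 0) (hl : lam ^ 2 = -1) :
    ∃ z : SL₂, z = mkSL (-1) 0 0 (-1) (by ring) ∧ (tL F) ^ 3 = 1 ∧ ((tU lam * tL F) ^ 2) ^ 5 = 1 ∧ z ^ 2 = 1 ∧ z * tL F = tL F * z ∧
      z * (tU lam * tL F) ^ 2 = (tU lam * tL F) ^ 2 * z ∧ (tL F * (tU lam * tL F) ^ 2) ^ 2 = z ∧ (tU lam * tL F) ^ 5 = z := by
  have hM : tU lam * tL F = mkSL (1 + lam) lam 1 1 (by ring) := by
    rw [tU, tL, mkSL_mul]; exact mkSL_eq (by ring) (by ring) (by ring) (by ring)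
  have hM2 : (tU lam * tL F) ^ 2 = mkSL 0 (-lam - 1) (lam - 1) (lam + 1) (by linear_combination hl - h3) := by
    rw [pow_two, hM, mkSL_mul]
    exact mkSL_eq (by linear_combination hl + lam * h3) (by linear_combination hl + lam * h3) (by linear_combination h3) (by ring)
  have hM4 : (tU lam * tL F) ^ 4 = mkSL (-1) lam 1 (-1 - lam) (by ring) := by
    rw [show (4 : ℕ) = 2 + 2 by norm_num, pow_add, hM2, mkSL_mul]
    exact mkSL_eq (by linear_combination h3 - hl) (by linear_combination -hl - lam * h3) (by linear_combination hl - h3)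
      (by linear_combination (1 + lam) * h3)
  have hM5 : (tU lam * tL F) ^ 5 = mkSL (-1) 0 0 (-1) (by ring) := by
    rw [pow_succ, hM4, hM, mkSL_mul]
    exact mkSL_eq (by ring) (by ring) (by ring) (by ring)
  have hz2 : (mkSL (-1) 0 0 (-1) (by ring) : SL₂) ^ 2 = 1 := by
    rw [pow_two, mkSL_mul, mkSL_one]
    exact mkSL_eq (by ring) (by ring) (by ring) (by ring)
  refine ⟨_, rfl, ?_, ?_, hz2, ?_, ?_, ?_, hM5⟩
  · rw [pow_succ, pow_two, tL, mkSL_mul, mkSL_mul, mkSL_one]
    exact mkSL_eq (by ring) (by ring) (by linear_combination h3) (by ring)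
  · rw [← pow_mul, mul_comm, pow_mul, hM5, hz2]
  · rw [tL, mkSL_mul, mkSL_mul]
    exact mkSL_eq (by ring) (by ring) (by ring) (by ring)
  · rw [hM2, mkSL_mul, mkSL_mul]
    exact mkSL_eq (by ring) (by ring) (by ring) (by ring)
  · rw [hM2, tL, mkSL_mul, pow_two, mkSL_mul]
    exact mkSL_eq (by linear_combination h3 - hl) (by ring) (by ring) (by linear_combination h3 - hl)

theorem card_le_of_rels [Finite F] {lam : F} (h3 : (3 : F) = 0) (hl : lam ^ 2 = -1) :
    Nat.card (Subgroup.closure ({tL F, tU lam} : Set SL₂)) ≤ 120 := by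
  obtain ⟨z, -, r1, r2, r3, r4, r5, r6, r7⟩ := rels_120 h3 hl
  set x := tL F with hx
  set M := tU lam * x with hM
  have hC : Subgroup.closure ({x, tU lam} : Set SL₂) = Subgroup.closure {x, M ^ 2, z} := by
    apply le_antisymm
    · rw [Subgroup.closure_le]
      have hxm : x ∈ Subgroup.closure ({x, M ^ 2, z} : Set SL₂) := Subgroup.subset_closure (by simp)
      have hM2 : M ^ 2 ∈ Subgroup.closure ({x, M ^ 2, z} : Set SL₂) := Subgroup.subset_closure (by simp)
      have hz : z ∈ Subgroup.closure ({x, M ^ 2, z} : Set SL₂) := Subgroup.subset_closure (by simp)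
      have hMm : M ∈ Subgroup.closure ({x, M ^ 2, z} : Set SL₂) := by
        have e : z * ((M ^ 2) ^ 2)⁻¹ = M := by
          rw [← r7]; group
        have h := mul_mem hz (inv_mem (pow_mem hM2 2))
        rw [e] at h
        exact h
      rintro g (rfl | rfl)
      · exact hxm
      · have : tU lam = M * x⁻¹ := by rw [hM]; group
        show tU lam ∈ _
        rw [this]
        exact mul_mem hMm (inv_mem hxm)
    · rw [Subgroup.closure_le]
      have hxm : x ∈ Subgroup.closure ({x, tU lam} : Set SL₂) := Subgroup.subset_closure (by simp)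
      have hum : tU lam ∈ Subgroup.closure ({x, tU lam} : Set SL₂) := Subgroup.subset_closure (by simp)
      have hMm : M ∈ Subgroup.closure ({x, tU lam} : Set SL₂) := mul_mem hum hxm
      rintro g (rfl | rfl | rfl)
      · exact hxm
      · exact pow_mem hMm 2
      · show g ∈ _
        rw [← r7]; exact pow_mem hMm 5
  rw [hC]
  have hgen := Subgroup.closure_closure_coe_preimage (k := ({x, M ^ 2, z} : Set SL₂))
  have m1 : x ∈ Subgroup.closure ({x, M ^ 2, z} : Set SL₂) := Subgroup.subset_closure (by simp)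
  have m2 : M ^ 2 ∈ Subgroup.closure ({x, M ^ 2, z} : Set SL₂) := Subgroup.subset_closure (by simp)
  have m3 : z ∈ Subgroup.closure ({x, M ^ 2, z} : Set SL₂) := Subgroup.subset_closure (by simp)
  have hset : ((↑) : Subgroup.closure ({x, M ^ 2, z} : Set SL₂) → SL₂) ⁻¹' ({x, M ^ 2, z} : Set SL₂) =
      {(⟨x, m1⟩ : Subgroup.closure ({x, M ^ 2, z} : Set SL₂)), ⟨M ^ 2, m2⟩, ⟨z, m3⟩} := by
    ext g
    simp only [Set.mem_preimage, Set.mem_insert_iff, Set.mem_singleton_iff, Subtype.ext_iff]
  rw [hset] at hgen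
  exact (H21.card_le_120 _ _ _ hgen (Subtype.ext r1) (Subtype.ext r2) (Subtype.ext r3) (Subtype.ext r4) (Subtype.ext r5)
    (Subtype.ext r6)).2

end

section
variable {F : Type*} [Field F] {K : Type*} [Field K] [DecidableEq K] (ι : F →+* K)

local notation "SL₂" => Matrix.SpecialLinearGroup (Fin 2) F

/-- the map `SL₂(F) → Perm (K ∪ ∞)` -/
noncomputable def sph : SL₂ →* Equiv.Perm (OnePoint K) := (slPerm K).comp (Matrix.SpecialLinearGroup.map ι)

theorem sph_apply (A : SL₂) : sph ι A = slPerm K (Matrix.SpecialLinearGroup.map ι A) := rfl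

theorem sph_range (A : SL₂) : sph ι A ∈ (slPerm K).range := ⟨_, rfl⟩

theorem sph_eq_one (A : SL₂) : sph ι A = 1 ↔ A ∈ Subgroup.center SL₂ := by
  rw [sph_apply, ← MonoidHom.mem_ker, slPerm_ker, mem_center_SL_map]

theorem sph_mkSL {a b c d : F} (h : a * d - b * c = 1) :
    sph ι (mkSL a b c d h) = slPerm K (mkSL (ι a) (ι b) (ι c) (ι d) (by rw [← map_mul, ← map_mul, ← map_sub, h, map_one])) := by
  rw [sph_apply]
  congr 1
  apply Subtype.ext
  ext i j
  fin_cases i <;> fin_cases j <;> rfl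

theorem sph_tL_infty : sph ι (tL F) ∞ = ((1 : K) : OnePoint K) := by
  rw [tL, sph_mkSL, slPerm_mkSL_infty, if_neg (by rw [map_one]; exact one_ne_zero), map_one, div_one]

theorem sph_tU_infty (lam : F) : sph ι (tU lam) ∞ = ∞ := by
  rw [tU, sph_mkSL, slPerm_mkSL_infty, if_pos (map_zero ι)]

theorem sph_tU_coe (lam : F) (k : K) : sph ι (tU lam) (k : OnePoint K) = ((k + ι lam : K) : OnePoint K) := by
  rw [tU, sph_mkSL, slPerm_mkSL_some]
  simp

/-- the classification for the image of `⟨L, U⟩` -/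
theorem gen_cases [Finite F] [IsAlgClosed K] (p : ℕ) [hp : Fact p.Prime] [CharP F p] [CharP K p] (hp2 : p ≠ 2) (lam : F) (hlam : lam ≠ 0) :
    (p = 3 ∧ Nonempty (((Subgroup.closure ({tL F, tU lam} : Set SL₂)).map (sph ι)) ≃* alternatingGroup (Fin 5))) ∨
    (∃ B : Subfield K, Finite B ∧ B ≤ ι.fieldRange ∧ ι lam ∈ B ∧
      Nonempty (((Subgroup.closure ({tL F, tU lam} : Set SL₂)).map (sph ι)) ≃* ProjectiveSpecialLinearGroup (Fin 2) B)) := by
  set C := Subgroup.closure ({tL F, tU lam} : Set SL₂) with hC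
  set Γ := C.map (sph ι) with hΓdef
  have hLm : tL F ∈ C := Subgroup.subset_closure (by simp)
  have hUm : tU lam ∈ C := Subgroup.subset_closure (by simp)
  have hΓ : Γ ≤ (slPerm K).range := by
    rintro _ ⟨x, -, rfl⟩; exact sph_range ι x
  have hΓ2 : Γ ≤ (pemb ι).range := by
    rintro _ ⟨x, -, rfl⟩; exact ⟨QuotientGroup.mk x, rfl⟩
  haveI : Finite C := inferInstance
  haveI : Finite Γ := by
    rw [hΓdef]
    have : Finite ((sph ι) '' (C : Set SL₂)) := (Set.toFinite _).to_subtype
    exact this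
  have hι : ι lam ≠ 0 := by rwa [map_ne_zero]
  have hLt : tL F = Matrix.SpecialLinearGroup.transvection (one_ne_zero (α := Fin 2)) 1 := by
    apply Subtype.ext
    rw [Matrix.SpecialLinearGroup.transvection_coe]
    show !![(1 : F), 0; 1, 1] = _
    ext i j
    fin_cases i <;> fin_cases j <;> simp [Matrix.single_apply]
  have hUt : tU lam = Matrix.SpecialLinearGroup.transvection (zero_ne_one (α := Fin 2)) lam := by
    apply Subtype.ext
    rw [Matrix.SpecialLinearGroup.transvection_coe]
    show !![(1 : F), lam; 0, 1] = _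
    ext i j
    fin_cases i <;> fin_cases j <;> simp [Matrix.single_apply]
  have hLp : (tL F) ^ p = 1 := by rw [hLt]; exact transv_p p _ _
  have hUp : (tU lam) ^ p = 1 := by rw [hUt]; exact transv_p p _ _
  have hdvd : p ∣ Nat.card Γ := by
    have h1 : (⟨sph ι (tL F), ⟨_, hLm, rfl⟩⟩ : Γ) ^ p = 1 := by
      apply Subtype.ext
      show (sph ι (tL F)) ^ p = 1
      rw [← map_pow, hLp, map_one]
    have h2 : (⟨sph ι (tL F), ⟨_, hLm, rfl⟩⟩ : Γ) ≠ 1 := by
      intro h
      have h3 : sph ι (tL F) = 1 := congrArg Subtype.val h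
      have h4 := sph_tL_infty ι
      rw [h3] at h4
      exact OnePoint.infty_ne_coe _ h4
    rw [← orderOf_eq_prime h1 h2]
    exact orderOf_dvd_natCard _
  rcases pdvd_class p Γ hΓ hdvd with ⟨a, -, -, -, -, -, hall⟩ | ⟨h, -⟩ | h | ⟨B, hBf, g, hg, hB⟩
  · exfalso
    have h1 := hall _ ⟨_, hUm, rfl⟩
    have h2 := hall _ ⟨_, hLm, rfl⟩
    cases a with
    | infty =>
      rw [sph_tL_infty] at h2
      exact OnePoint.coe_ne_infty _ h2
    | coe k =>
      rw [sph_tU_coe, coe_inj'] at h1
      apply hι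
      linear_combination h1
  · exact absurd h hp2
  · exact Or.inl h
  · right
    have hM : cj g Γ ≤ Mimg B := by
      rcases hB with h | h
      · rw [h]; exact Simg_le_Mimg B
      · rw [h]
    have hSle : Simg B ≤ cj g Γ := by
      rcases hB with h | h
      · rw [h]
      · rw [h]; exact Simg_le_Mimg B
    have hgen : ∀ y ∈ ({tL F, tU lam} : Set SL₂), g * sph ι y * g⁻¹ ∈ Simg B := by
      intro y hy
      have hyC : y ∈ C := Subgroup.subset_closure hy
      have h1 : g * sph ι y * g⁻¹ ∈ Mimg B := hM ⟨_, ⟨y, hyC, rfl⟩, rfl⟩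
      apply Mimg_pow_mem B h1 (hp.out.odd_of_ne_two hp2)
      have hyp : y ^ p = 1 := by
        rcases hy with rfl | hy
        · exact hLp
        · rw [Set.mem_singleton_iff.1 hy]; exact hUp
      rw [conj_pow, ← map_pow, hyp, map_one]; group
    have hCle : C ≤ (Simg B).comap ((MulAut.conj g).toMonoidHom.comp (sph ι)) := by
      rw [hC, Subgroup.closure_le]
      exact hgen
    have heq : cj g Γ = Simg B := by
      apply le_antisymm _ hSle
      rintro _ ⟨_, ⟨y, hy, rfl⟩, rfl⟩
      exact hCle hy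
    have hBF := le_fieldRange_of_conj ι B Γ hΓ2 hg hSle
    refine ⟨B, hBf, hBF, ?_, ?_⟩
    · -- traces
      obtain ⟨G, rfl⟩ := hg
      have h1 : slPerm K G * sph ι (tU lam * tL F) * (slPerm K G)⁻¹ ∈ Simg B := by
        rw [← heq]
        exact ⟨_, ⟨_, mul_mem hUm hLm, rfl⟩, rfl⟩
      obtain ⟨S, hS⟩ := h1
      have h2 : slPerm K (Matrix.SpecialLinearGroup.map B.subtype S) = slPerm K (G * Matrix.SpecialLinearGroup.map ι (tU lam * tL F) * G⁻¹) := by
        rw [map_mul, map_mul, map_inv]; exact hS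
      have h3 := trace_of_slPerm_eq h2
      have h4 : ((G * Matrix.SpecialLinearGroup.map ι (tU lam * tL F) * G⁻¹ : Matrix.SpecialLinearGroup (Fin 2) K) : Matrix (Fin 2) (Fin 2) K).trace = 2 + ι lam := by
        rw [Matrix.SpecialLinearGroup.coe_mul, Matrix.trace_mul_comm, ← Matrix.SpecialLinearGroup.coe_mul, inv_mul_cancel_left]
        have h5 : tU lam * tL F = mkSL (1 + lam) lam 1 1 (by ring) := by
          rw [tU, tL, mkSL_mul]; exact mkSL_eq (by ring) (by ring) (by ring) (by ring)
        rw [h5, Matrix.trace_fin_two]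
        show ι (1 + lam) + ι 1 = _
        rw [map_add, map_one]; ring
      have h5 : ((Matrix.SpecialLinearGroup.map B.subtype S : Matrix.SpecialLinearGroup (Fin 2) K) : Matrix (Fin 2) (Fin 2) K).trace ∈ B := by
        rw [Matrix.trace_fin_two]
        exact B.add_mem (S.1 0 0).2 (S.1 1 1).2
      have h2B : (2 : K) ∈ B := by
        have : (2 : K) = 1 + 1 := by norm_num
        rw [this]; exact B.add_mem B.one_mem B.one_mem
      rcases h3 with h3 | h3
      · rw [h3, h4] at h5
        have := B.sub_mem h5 h2B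
        rwa [add_sub_cancel_left] at this
      · rw [h3, h4] at h5
        have := B.sub_mem (B.neg_mem h5) h2B
        rwa [neg_neg, add_sub_cancel_left] at this
    · obtain ⟨f⟩ := Simg_equiv B
      exact ⟨(cjEquiv g Γ).trans ((MulEquiv.subgroupCongr heq).trans f)⟩

end

end Cfsg.Agent.H5
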