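import Cfsg.Agent.H5.Dk20
set_option autoImplicit false
set_option linter.style.haveILetI false
set_option linter.unusedSectionVars false

/-! Generation of `SL₂(q)` by two transvections (Dickson). -/

namespace Cfsg.Agent.H5

open OnePoint Cfsg.Agent.H4 Cfsg.Agent.H2 Matrix

section
variable {F : Type*} [Field F] [Fintype F]

local notation "SL₂" => Matrix.SpecialLinearGroup (Fin 2) F

theorem card_dvd_of_pow_eq {k : ℕ} (h : ∀ x : F, x ^ (k + 1) = x) : Fintype.card F - 1 ∣ k := by
  classical
  obtain ⟨z, hz⟩ := IsCyclic.exists_generator (α := Fˣ)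
  have hzo : orderOf z = Fintype.card F - 1 := by
    rw [orderOf_eq_card_of_forall_mem_zpowers hz, Nat.card_eq_fintype_card, Fintype.card_units]
  rw [← hzo]
  apply orderOf_dvd_of_pow_eq_one
  have h1 := h (z : F)
  apply Units.ext
  rw [Units.val_pow_eq_pow_val, Units.val_one]
  have h2 : (z : F) * (z : F) ^ k = (z : F) * 1 := by rw [mul_one, ← pow_succ', h1]
  exact mul_left_cancel₀ z.ne_zero h2

theorem card_three {lam : F} [CharP F 3] (hgen : Subfield.closure ({lam} : Set F) = ⊤) (hl : lam ^ 3 = lam) : Fintype.card F ≤ 3 := by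
  haveI : Fact (Nat.Prime 3) := ⟨Nat.prime_three⟩
  have h1 : frobenius F 3 = RingHom.id F := by
    apply RingHom.eq_of_eqOn_of_field_closure_eq_top hgen
    intro x hx
    rw [Set.mem_singleton_iff.1 hx]
    exact hl
  have h2 : ∀ x : F, x ^ (2 + 1) = x := by
    intro x
    have := congrArg (fun f : F →+* F => f x) h1
    exact this
  have h3 := Nat.le_of_dvd (by norm_num) (card_dvd_of_pow_eq h2)
  omega

theorem card_nine {lam : F} [CharP F 3] (hgen : Subfield.closure ({lam} : Set F) = ⊤) (hl : lam ^ 2 = -1) : Fintype.card F = 9 := by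
  haveI : Fact (Nat.Prime 3) := ⟨Nat.prime_three⟩
  have h1 : (frobenius F 3).comp (frobenius F 3) = RingHom.id F := by
    apply RingHom.eq_of_eqOn_of_field_closure_eq_top hgen
    intro x hx
    rw [Set.mem_singleton_iff.1 hx]
    show (lam ^ 3) ^ 3 = lam
    have : (lam ^ 3) ^ 3 = (lam ^ 2) ^ 4 * lam := by ring
    rw [this, hl]; ring
  have h2 : ∀ x : F, x ^ (8 + 1) = x := by
    intro x
    have := congrArg (fun f : F →+* F => f x) h1
    have h3 : (x ^ 3) ^ 3 = x := this
    rw [← pow_mul] at h3
    exact h3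
  have h3 := Nat.le_of_dvd (by norm_num) (card_dvd_of_pow_eq h2)
  obtain ⟨n, -, hcard⟩ := FiniteField.card F 3
  have hlt : 1 < Fintype.card F := Fintype.one_lt_card
  have hn : (n : ℕ) ≤ 2 := by
    by_contra hcon
    have : 3 ^ 3 ≤ 3 ^ (n : ℕ) := Nat.pow_le_pow_right (by norm_num) (by omega)
    omega
  have hn0 : (n : ℕ) ≠ 0 := n.ne_zero
  have : (n : ℕ) = 1 ∨ (n : ℕ) = 2 := by omega
  rcases this with h | h
  · exfalso
    rw [h] at hcard
    have hl0 : lam ≠ 0 := by
      rintro rfl
      rw [zero_pow two_ne_zero] at hl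
      exact one_ne_zero (neg_eq_zero.1 hl.symm)
    have h4 := FiniteField.pow_card_sub_one_eq_one lam hl0
    rw [hcard] at h4
    have h5 : lam ^ 2 = 1 := h4
    rw [hl] at h5
    have h6 : (2 : F) = 0 := by linear_combination -h5
    have h7 : ((2 : ℕ) : F) = 0 := by exact_mod_cast h6
    have h8 := (CharP.cast_eq_zero_iff F 3 2).1 h7
    omega
  · rw [hcard, h]; norm_num

theorem two_transv (h2 : (2 : F) ≠ 0) (lam : F) (hlam : lam ≠ 0) (hgen : Subfield.closure ({lam} : Set F) = ⊤) :
    (Subgroup.closure ({tL F, tU lam} : Set SL₂) = ⊤ ∧ ¬ (Fintype.card F = 9 ∧ lam ^ 2 = -1)) ∨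
    (Fintype.card F = 9 ∧ lam ^ 2 = -1 ∧ Nat.card (Subgroup.closure ({tL F, tU lam} : Set SL₂)) = 120) := by
  classical
  obtain ⟨p, hp⟩ := CharP.exists F
  haveI : Fact p.Prime := ⟨CharP.char_is_prime F p⟩
  have hpp : p.Prime := Fact.out
  have hp2 : p ≠ 2 := by
    rintro rfl
    apply h2
    have := CharP.cast_eq_zero F 2
    exact_mod_cast this
  let K := AlgebraicClosure F
  haveI : CharP K p := charP_of_injective_algebraMap (algebraMap F K).injective p
  let ι : F →+* K := algebraMap F K
  set C := Subgroup.closure ({tL F, tU lam} : Set SL₂) with hC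
  have hLm : tL F ∈ C := Subgroup.subset_closure (by simp)
  have hUm : tU lam ∈ C := Subgroup.subset_closure (by simp)
  have hcases := gen_cases ι p hp2 lam hlam
  rw [← hC] at hcases
  -- the order of the image
  have hmapcard : Nat.card C = Nat.card (C.map (sph ι)) * Nat.card ((sph ι).domRestrict C).ker := by
    rw [← Subgroup.index_mul_card ((sph ι).domRestrict C).ker, Subgroup.index_ker]
    congr 1
    rw [MonoidHom.domRestrict_range]
  have hB : ∀ B : Subfield K, B ≤ ι.fieldRange → ι lam ∈ B → Finite B →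
      Nat.card (ProjectiveSpecialLinearGroup (Fin 2) B) = Nat.card (ProjectiveSpecialLinearGroup (Fin 2) F) := by
    intro B hBF hlB hfin
    have h1 : B.comap ι = ⊤ := by
      rw [eq_top_iff, ← hgen, Subfield.closure_le]
      rintro x hx
      rw [Set.mem_singleton_iff.1 hx]
      exact hlB
    have h2 : B = ι.fieldRange := by
      apply le_antisymm hBF
      rintro _ ⟨x, rfl⟩
      have : x ∈ B.comap ι := by rw [h1]; trivial
      exact this
    subst h2
    obtain ⟨f⟩ := psl_congr (n := 2) (RingHom.rangeRestrictFieldEquiv ι)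
    exact (Nat.card_congr f.toEquiv).symm
  by_cases h9 : Fintype.card F = 9 ∧ lam ^ 2 = -1
  · right
    refine ⟨h9.1, h9.2, ?_⟩
    have hp3 : p = 3 := by
      obtain ⟨n, -, hcard⟩ := FiniteField.card F p
      have h1 : p ∣ 9 := by rw [← h9.1, hcard]; exact dvd_pow_self _ n.ne_zero
      have h3 : p ∣ 3 ^ 2 := by norm_num; exact h1
      exact (Nat.prime_dvd_prime_iff_eq hpp Nat.prime_three).1 (hpp.dvd_of_dvd_pow h3)
    subst hp3
    have h3 : (3 : F) = 0 := by
      have := CharP.cast_eq_zero F 3
      exact_mod_cast this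
    have hle := card_le_of_rels h3 h9.2
    rw [← hC] at hle
    obtain ⟨z, hz, -, -, -, -, -, -, r7⟩ := rels_120 h3 h9.2
    have hzC : z ∈ C := by rw [← r7]; exact pow_mem (mul_mem hUm hLm) 5
    have hzc : z ∈ Subgroup.center SL₂ := by
      rw [Matrix.SpecialLinearGroup.mem_center_iff]
      refine ⟨-1, by simp, ?_⟩
      rw [hz]
      ext i j
      fin_cases i <;> fin_cases j <;> simp [mkSL]
    have hz1 : z ≠ 1 := by
      intro h
      have h4 := congrArg (fun M : SL₂ => M.1 0 0) h
      rw [hz] at h4
      have h5 : (-1 : F) = 1 := h4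
      apply h2
      linear_combination -h5
    have hker : 2 ≤ Nat.card ((sph ι).domRestrict C).ker := by
      have : Nontrivial ((sph ι).domRestrict C).ker := by
        rw [Subgroup.nontrivial_iff_exists_ne_one]
        refine ⟨⟨z, hzC⟩, ?_, fun h => hz1 (congrArg Subtype.val h)⟩
        rw [MonoidHom.mem_ker]
        exact (sph_eq_one ι z).2 hzc
      exact Finite.one_lt_card
    have h60 : Nat.card (C.map (sph ι)) = 60 := by
      rcases hcases with ⟨-, ⟨f⟩⟩ | ⟨B, hfin, hBF, hlB, ⟨f⟩⟩
      · rw [Nat.card_congr f.toEquiv, card_A5']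
      · exfalso
        have h4 := hB B hBF hlB hfin
        rw [← Nat.card_congr f.toEquiv] at h4
        have h5 := card_PSL2 (F := F) rfl
        rw [h9.1] at h5
        have h6 : Nat.card (ProjectiveSpecialLinearGroup (Fin 2) F) = 360 := by
          have : Nat.gcd 2 (9 - 1) = 2 := by decide
          rw [this] at h5
          omega
        rw [h4, h6] at hmapcard
        nlinarith
    rw [h60] at hmapcard
    nlinarith
  · left
    refine ⟨?_, h9⟩
    rcases hcases with ⟨hp3, ⟨f⟩⟩ | ⟨B, hfin, hBF, hlB, ⟨f⟩⟩
    · exfalso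
      subst hp3
      have h3 : (3 : F) = 0 := by
        have := CharP.cast_eq_zero F 3
        exact_mod_cast this
      have key : ∀ c ∈ C, (c ^ 2 : SL₂).1 1 0 = 0 ∨ (c ^ 3 : SL₂).1 1 0 = 0 ∨ (c ^ 5 : SL₂).1 1 0 = 0 := by
        intro c hc
        have hn : ∀ n : ℕ, orderOf (f ⟨sph ι c, ⟨c, hc, rfl⟩⟩) ∣ n → (c ^ n : SL₂).1 1 0 = 0 := by
          intro n hn
          rw [MulEquiv.orderOf_eq] at hn
          have h4 := orderOf_dvd_iff_pow_eq_one.1 hn
          have h5 : sph ι (c ^ n) = 1 := by
            rw [map_pow]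
            exact congrArg Subtype.val h4
          rw [sph_eq_one, Matrix.SpecialLinearGroup.mem_center_iff] at h5
          obtain ⟨r, -, hr⟩ := h5
          have : (c ^ n : SL₂).1 1 0 = (Matrix.scalar (Fin 2) r) 1 0 := by rw [hr]
          rw [this]; simp
        rcases a5_order_le (f ⟨sph ι c, ⟨c, hc, rfl⟩⟩) with h | h | h
        · exact Or.inl (hn 2 h)
        · exact Or.inr (Or.inl (hn 3 h))
        · exact Or.inr (Or.inr (hn 5 h))
      have e1 : tU lam * tL F = mkSL (1 + lam) lam 1 1 (by ring) := by
        rw [tU, tL, mkSL_mul]; exact mkSL_eq (by ring) (by ring) (by ring) (by ring)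
      have e2' : (tL F)⁻¹ = mkSL 1 0 (-1) 1 (by ring) := by
        rw [inv_eq_iff_mul_eq_one, tL, mkSL_mul, mkSL_one]
        exact mkSL_eq (by ring) (by ring) (by ring) (by ring)
      have e2 : tU lam * (tL F)⁻¹ = mkSL (1 - lam) lam (-1) 1 (by ring) := by
        rw [e2', tU, mkSL_mul]; exact mkSL_eq (by ring) (by ring) (by ring) (by ring)
      have k1 := key _ (mul_mem hUm hLm)
      have k2 := key _ (mul_mem hUm (inv_mem hLm))
      rw [sl2_pow2, sl2_pow3, sl2_pow5, e1] at k1
      rw [sl2_pow2, sl2_pow3, sl2_pow5, e2] at k2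
      have k1' : (2 + lam = 0 ∨ (2 + lam) ^ 2 - 1 = 0 ∨ (2 + lam) ^ 4 - 3 * (2 + lam) ^ 2 + 1 = 0) := by
        have a1 : (mkSL (1 + lam) lam 1 1 (by ring) : SL₂).1 1 0 = 1 := rfl
        have a2 : (mkSL (1 + lam) lam 1 1 (by ring) : SL₂).1 0 0 = 1 + lam := rfl
        have a3 : (mkSL (1 + lam) lam 1 1 (by ring) : SL₂).1 1 1 = 1 := rfl
        rw [a1, a2, a3] at k1
        rcases k1 with h | h | h
        · left; linear_combination h
        · right; left; linear_combination h
        · right; right; linear_combination h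
      have k2' : (2 - lam = 0 ∨ (2 - lam) ^ 2 - 1 = 0 ∨ (2 - lam) ^ 4 - 3 * (2 - lam) ^ 2 + 1 = 0) := by
        have a1 : (mkSL (1 - lam) lam (-1) 1 (by ring) : SL₂).1 1 0 = -1 := rfl
        have a2 : (mkSL (1 - lam) lam (-1) 1 (by ring) : SL₂).1 0 0 = 1 - lam := rfl
        have a3 : (mkSL (1 - lam) lam (-1) 1 (by ring) : SL₂).1 1 1 = 1 := rfl
        rw [a1, a2, a3] at k2
        rcases k2 with h | h | h
        · left; linear_combination -h
        · right; left; linear_combination -h
        · right; right; linear_combination -h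
      have hdich : lam ^ 3 = lam ∨ lam ^ 2 = -1 := by
        rcases k1' with h | h | h
        · left
          have : lam = 1 := by linear_combination h - h3
          rw [this]; ring
        · left
          have h4 : lam * (lam + 1) = 0 := by linear_combination h - (1 + lam) * h3
          rcases mul_eq_zero.1 h4 with h5 | h5
          · exact absurd h5 hlam
          · have : lam = -1 := by linear_combination h5
            rw [this]; ring
        · rcases k2' with h' | h' | h'
          · left
            have : lam = -1 := by linear_combination h3 - h'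
            rw [this]; ring
          · left
            have h4 : lam * (lam - 1) = 0 := by linear_combination h' + (lam - 1) * h3
            rcases mul_eq_zero.1 h4 with h5 | h5
            · exact absurd h5 hlam
            · have : lam = 1 := by linear_combination h5
              rw [this]; ring
          · right
            -- (2+λ)⁴ - (2-λ)⁴ = 16λ³ + 64 λ ; 3((2+λ)²-(2-λ)²) = 24 λ
            have h4 : lam * (lam ^ 2 + 1) = 0 := by
              linear_combination h - h' - (5 * lam ^ 3 + 13 * lam) * h3
            have h5 := (mul_eq_zero.1 h4).resolve_left hlam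
            linear_combination h5
      rcases hdich with h | h
      · have h4 := card_three hgen h
        have h5 := card_PSL2 (F := F) rfl
        have h6 : Nat.card (C.map (sph ι)) ≤ Nat.card (ProjectiveSpecialLinearGroup (Fin 2) F) := by
          have h7 : C.map (sph ι) ≤ (pemb ι).range := by
            rintro _ ⟨x, -, rfl⟩; exact ⟨QuotientGroup.mk x, rfl⟩
          have h8 := Subgroup.card_le_of_le h7
          rwa [← Nat.card_congr (MonoidHom.ofInjective (pemb_injective ι)).toEquiv] at h8
        rw [Nat.card_congr f.toEquiv, card_A5'] at h6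
        have h7 : Nat.card (ProjectiveSpecialLinearGroup (Fin 2) F) ≤ Fintype.card F * (Fintype.card F ^ 2 - 1) := by
          rw [← h5]
          exact Nat.le_mul_of_pos_left _ (Nat.gcd_pos_of_pos_left _ (by norm_num))
        have hlt : 1 < Fintype.card F := Fintype.one_lt_card
        have : Fintype.card F = 2 ∨ Fintype.card F = 3 := by omega
        have h8 := h6.trans h7
        rcases this with h | h <;> rw [h] at h8 <;> norm_num at h8
      · exact h9 ⟨card_nine hgen h, h⟩
    · apply eq_top_of_cover p (hpp.odd_of_ne_two hp2)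
      intro g
      have h4 := hB B hBF hlB hfin
      rw [← Nat.card_congr f.toEquiv] at h4
      have h7 : C.map (sph ι) ≤ (pemb ι).range := by
        rintro _ ⟨x, -, rfl⟩; exact ⟨QuotientGroup.mk x, rfl⟩
      haveI : Finite (pemb ι).range := Finite.of_equiv _ (MonoidHom.ofInjective (pemb_injective ι)).toEquiv
      have h8 : C.map (sph ι) = (pemb ι).range := by
        apply Subgroup.eq_of_le_of_card_ge h7
        rw [h4, ← Nat.card_congr (MonoidHom.ofInjective (pemb_injective ι)).toEquiv]
      have h9 : sph ι g ∈ C.map (sph ι) := by rw [h8]; exact ⟨QuotientGroup.mk g, rfl⟩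
      obtain ⟨c, hc, hcg⟩ := h9
      refine ⟨c, hc, ?_⟩
      rw [← sph_eq_one ι, map_mul, map_inv, hcg, inv_mul_cancel]

end

end Cfsg.Agent.H5
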