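import Mathlib
import Cfsg.Agent.H5.O6plus2
import Cfsg.Agent.S0288

set_option autoImplicit false

/-! `O₄⁻(2) ≅ S₅`. -/

namespace Cfsg.Agent.H5

open Cfsg

theorem esq6 {F : Type*} [CommRing F] (v : Fin 6 → F) : esq v =
    v 0 * v 1 + v 0 * v 2 + v 0 * v 3 + v 0 * v 4 + v 0 * v 5 +
    (v 1 * v 2 + v 1 * v 3 + v 1 * v 4 + v 1 * v 5) +
    (v 2 * v 3 + v 2 * v 4 + v 2 * v 5) +
    (v 3 * v 4 + v 3 * v 5) + v 4 * v 5 := by
  unfold esq
  rw [Finset.sum_filter, Fintype.sum_prod_type]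
  simp only [Fin.sum_univ_six]
  simp [show ¬ ((1 : Fin 6) < 0) by decide]

/-- a basis of even vectors -/
def hyp5 : (Fin 1 ⊕ Fin 1) ⊕ Fin 2 → Fin 6 → ZMod 2
  | .inl (.inl _) => ![1, 1, 1, 1, 0, 0]
  | .inl (.inr _) => ![1, 1, 1, 0, 1, 0]
  | .inr 0 => ![1, 1, 0, 0, 0, 0]
  | .inr 1 => ![0, 1, 1, 0, 0, 0]

theorem hyp5_mem (k : (Fin 1 ⊕ Fin 1) ⊕ Fin 2) : hyp5 k ∈ E0 (ZMod 2) 5 := by
  rw [mem_E0]
  rcases k with (k | k) | k <;> fin_cases k <;> decide

/-- the coordinate map -/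
def hyp5L : ((Fin 1 ⊕ Fin 1) ⊕ Fin 2 → ZMod 2) →ₗ[ZMod 2] E0 (ZMod 2) 5 :=
  ∑ k, (LinearMap.proj k : ((Fin 1 ⊕ Fin 1) ⊕ Fin 2 → ZMod 2) →ₗ[ZMod 2] ZMod 2).smulRight (⟨hyp5 k, hyp5_mem k⟩ : E0 (ZMod 2) 5)

theorem hyp5L_coe (x : (Fin 1 ⊕ Fin 1) ⊕ Fin 2 → ZMod 2) (i : Fin 6) : (hyp5L x : Fin 6 → ZMod 2) i =
    ∑ k, x k * hyp5 k i := by
  unfold hyp5L
  rw [LinearMap.sum_apply, Submodule.coe_sum, Finset.sum_apply]
  rfl

theorem hyp5_esq (x : (Fin 1 ⊕ Fin 1) ⊕ Fin 2 → ZMod 2) : esq (hyp5L x : Fin 6 → ZMod 2) = quadFormMinus 1 (ZMod 2) 1 1 x := by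
  rw [esq6]
  simp only [hyp5L_coe, Fintype.sum_sum_type, Fin.sum_univ_two, Fin.sum_univ_one, quadFormMinus]
  generalize x (.inl (.inl 0)) = a
  generalize x (.inl (.inr 0)) = b
  generalize x (.inr 0) = c
  generalize x (.inr 1) = d
  revert a b c d
  decide

theorem hyp5L_inj : Function.Injective hyp5L := by
  rw [← LinearMap.ker_eq_bot, eq_bot_iff]
  intro x hx
  rw [LinearMap.mem_ker] at hx
  have h : ∀ i : Fin 6, ∑ k, x k * hyp5 k i = 0 := by
    intro i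
    rw [← hyp5L_coe, hx]; rfl
  have h0 := h 0
  have h1 := h 1
  have h2 := h 2
  have h3 := h 3
  have h4 := h 4
  simp only [Fintype.sum_sum_type, Fin.sum_univ_two, Fin.sum_univ_one, hyp5] at h0 h1 h2 h3 h4
  have key : x (.inl (.inl 0)) = 0 ∧ x (.inl (.inr 0)) = 0 ∧ x (.inr 0) = 0 ∧ x (.inr 1) = 0 := by
    revert h0 h1 h2 h3 h4
    generalize x (.inl (.inl 0)) = a
    generalize x (.inl (.inr 0)) = b
    generalize x (.inr 0) = c
    generalize x (.inr 1) = d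
    revert a b c d
    decide
  rw [Submodule.mem_bot]
  funext k
  rcases k with (k | k) | k
  · fin_cases k; exact key.1
  · fin_cases k; exact key.2.1
  · fin_cases k
    · exact key.2.2.1
    · exact key.2.2.2

/-- `O₄⁻(2) ≅ S₅` -/
theorem o4minus2 {F : Type*} [Field F] [Fintype F] (hF : Fintype.card F = 2) :
    ∃ f : Equiv.Perm (Fin 5) →* isometryGroup F (quadFormMinus 1 F 1 1), Function.Bijective f := by
  classical
  let r : F ≃+* ZMod 2 := FiniteField.ringEquivOfCardEq (by rw [hF, ZMod.card])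
  have hQ : ∀ v, quadFormMinus 1 (ZMod 2) 1 1 (fun i => r (v i)) = r (quadFormMinus 1 F 1 1 v) := by
    intro v
    simp only [quadFormMinus, map_sum, map_mul, map_add, map_pow, map_one]
  let T := isomTransport r (quadFormMinus 1 F 1 1) (quadFormMinus 1 (ZMod 2) 1 1) hQ
  have h2 : (2 : ZMod 2) = 0 := by decide
  have hN : ((5 + 1 : ℕ) : ZMod 2) = 0 := by decide
  let e : ((Fin 1 ⊕ Fin 1) ⊕ Fin 2 → ZMod 2) ≃ₗ[ZMod 2] E0 (ZMod 2) 5 := LinearMap.linearEquivOfInjective hyp5L hyp5L_inj (by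
    have := finrank_E0 (F := ZMod 2) (N := 5) (by norm_num)
    rw [Module.finrank_fintype_fun_eq_card]
    simp only [Fintype.card_sum, Fintype.card_fin]
    omega)
  have he : ∀ x, e x = hyp5L x := fun x => rfl
  have hq : ∀ v : E0 (ZMod 2) 5, quadFormMinus 1 (ZMod 2) 1 1 (e.symm v) = esq (v : Fin 6 → ZMod 2) := by
    intro v
    rw [← hyp5_esq, ← he, e.apply_symm_apply]
  let s : Fin 5 ≃ {x : Fin 6 // x ≠ Fin.last 5} := finSuccAboveEquiv (Fin.last 5)
  let j := Equiv.Perm.extendDomainHom s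
  have hj : Function.Injective j := Equiv.Perm.extendDomainHom_injective s
  have hjl : ∀ g, (j g)⁻¹ (Fin.last 5) = Fin.last 5 := by
    intro g
    rw [Equiv.Perm.inv_eq_iff_eq]
    symm
    exact Equiv.Perm.extendDomain_apply_not_subtype g s (by simp)
  have hρ : ∀ (g : Equiv.Perm (Fin 5)) (x : (Fin 1 ⊕ Fin 1) ⊕ Fin 2 → ZMod 2),
      quadFormMinus 1 (ZMod 2) 1 1 (e.symm (((prep h2 hN).comp j) g (e x))) = quadFormMinus 1 (ZMod 2) 1 1 x := by
    intro g x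
    have h0 : ((prep h2 hN).comp j) g (e x) = pact h2 hN (j g) (e x) := rfl
    rw [hq, h0]
    have h1 : ((pact h2 hN (j g) (e x) : E0 (ZMod 2) 5) : Fin 6 → ZMod 2) =
        (fun i => ((e x : E0 (ZMod 2) 5) : Fin 6 → ZMod 2) ((j g)⁻¹ i)) := by
      funext i
      rw [pact_apply, hjl]
      have := (e x).2.2
      rw [this, add_zero]
    rw [h1, esq_perm (fun i => ((e x : E0 (ZMod 2) 5) : Fin 6 → ZMod 2) i) (j g)⁻¹, he]
    exact hyp5_esq x
  let f₀ := isomHom (quadFormMinus 1 (ZMod 2) 1 1) e ((prep h2 hN).comp j) hρ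
  have hf₀ : Function.Injective f₀ := isomHom_inj _ _ _ _ ((prep_injective h2 hN (by norm_num)).comp hj)
  let f : Equiv.Perm (Fin 5) →* isometryGroup F (quadFormMinus 1 F 1 1) := T.symm.toMonoidHom.comp f₀
  have hf : Function.Injective f := T.symm.injective.comp hf₀
  have hx : ∀ x : F, x = 0 ∨ x = 1 := by
    intro x
    have h1 := FiniteField.pow_card x
    rw [hF] at h1
    have h3 : x * (x - 1) = 0 := by linear_combination h1
    rcases mul_eq_zero.1 h3 with h | h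
    · left; exact h
    · right; exact sub_eq_zero.1 h
  have h2F : (2 : F) = 0 := by
    have h1 : ((Fintype.card F : ℕ) : F) = 0 := by simp
    rw [hF] at h1
    exact_mod_cast h1
  have hab : ∀ z₁ z₂ : F, z₁ ^ 2 + 1 * z₁ * z₂ + 1 * z₂ ^ 2 = 0 → z₁ = 0 ∧ z₂ = 0 := by
    intro z₁ z₂ h
    have h10 : (1 : F) ≠ 0 := one_ne_zero
    rcases hx z₁ with rfl | rfl <;> rcases hx z₂ with rfl | rfl
    · exact ⟨rfl, rfl⟩
    · exfalso; apply h10; linear_combination h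
    · exfalso; apply h10; linear_combination h
    · exfalso; apply h10; linear_combination h - h2F
  have hcard : Nat.card (isometryGroup F (quadFormMinus 1 F 1 1)) = 120 := by
    have := Cfsg.Agent.S0288.result hF 2 (by norm_num) 1 1 hab
    rw [this]
    simp
  refine ⟨f, ?_⟩
  haveI : Finite (isometryGroup F (quadFormMinus 1 F 1 1)) := Nat.finite_of_card_ne_zero (by rw [hcard]; norm_num)
  rw [Nat.bijective_iff_injective_and_card]
  refine ⟨hf, ?_⟩
  rw [hcard, Nat.card_perm, Nat.card_fin]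
  rfl

end Cfsg.Agent.H5
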