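import Mathlib
import Cfsg.Agent.H5.ExcSmall
import Cfsg.Agent.H5.OrthDihedral
import Cfsg.Agent.H5.UnitBasic
import Cfsg.Agent.H5.O4minus2

set_option autoImplicit false

/-! `PΩ₄⁻(q) ≅ PSL₂(q²)`. -/

namespace Cfsg.Agent.H5

open Matrix Cfsg

section nf

theorem exists_normalg {F K : Type*} [Field F] [Fintype F] [Field K] [Fintype K] {q : ℕ} (hF : Fintype.card F = q)
    (hK : Fintype.card K = q ^ 2) {a b : F} (hab : ∀ z₁ z₂ : F, z₁ ^ 2 + a * z₁ * z₂ + b * z₂ ^ 2 = 0 → z₁ = 0 ∧ z₂ = 0) :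
    ∃ (ι : F →+* K) (α : K) (σ : K →+* K), (∀ x, σ x = x ^ q) ∧ (∀ x, σ (σ x) = x) ∧ (∀ x : F, σ (ι x) = ι x) ∧
      α ^ 2 = ι a * α - ι b ∧ σ α = ι a - α ∧ (∀ x : K, ∃ z : F × F, x = ι z.1 + ι z.2 * α) ∧
      (∀ z w : F × F, ι z.1 + ι z.2 * α = ι w.1 + ι w.2 * α → z = w) ∧ (∀ x, σ x = x → ∃ y, ι y = x) := by
  classical
  obtain ⟨K', _, _, _, α', hα', hcard, huniq⟩ := exists_normfield hab
  haveI : Fintype K' := Fintype.ofFinite K'
  let e : K' ≃+* K := FiniteField.ringEquivOfCardEq (by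
    rw [hK, ← hF, ← Nat.card_eq_fintype_card, hcard, Nat.card_eq_fintype_card])
  obtain ⟨σ, hσ, hσ2, hσ1⟩ := exists_frob hK
  let ι : F →+* K := e.toRingHom.comp (algebraMap F K')
  let α : K := e α'
  have hι : ∀ x, ι x = e (algebraMap F K' x) := fun x => rfl
  have hα : α ^ 2 = ι a * α - ι b := by
    rw [hι, hι, ← map_mul, ← map_sub, ← hα', map_pow]
  have hfix : ∀ x : F, σ (ι x) = ι x := by
    intro x
    rw [hσ, ← map_pow, ← hF, FiniteField.pow_card]
  have hsurj : ∀ x : K, ∃ z : F × F, x = ι z.1 + ι z.2 * α := by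
    intro x
    obtain ⟨z, hz, _⟩ := huniq (e.symm x)
    refine ⟨z, ?_⟩
    have := congrArg e hz
    rw [e.apply_symm_apply, map_add, map_mul] at this
    exact this
  have hinj : ∀ z w : F × F, ι z.1 + ι z.2 * α = ι w.1 + ι w.2 * α → z = w := by
    intro z w h
    have h1 : algebraMap F K' z.1 + algebraMap F K' z.2 * α' = algebraMap F K' w.1 + algebraMap F K' w.2 * α' := by
      apply e.injective
      rw [map_add, map_mul, map_add, map_mul]
      exact h
    obtain ⟨u, _, hu⟩ := huniq (algebraMap F K' z.1 + algebraMap F K' z.2 * α')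
    rw [hu z rfl, hu w h1]
  have hσα : σ α ≠ α := by
    intro h
    apply hσ1
    ext x
    obtain ⟨z, rfl⟩ := hsurj x
    rw [map_add, map_mul, hfix, hfix, h]
    rfl
  have hσα2 : σ α = ι a - α := by
    have h1 : (σ α) ^ 2 = ι a * σ α - ι b := by
      rw [← map_pow, hα, map_sub, map_mul, hfix, hfix]
    have h2 : (σ α - α) * (σ α - (ι a - α)) = 0 := by linear_combination h1 - hα
    rcases mul_eq_zero.1 h2 with h | h
    · exact absurd (sub_eq_zero.1 h) hσα
    · exact sub_eq_zero.1 h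
  refine ⟨ι, α, σ, hσ, hσ2, hfix, hα, hσα2, hsurj, hinj, ?_⟩
  intro x hx
  obtain ⟨z, rfl⟩ := hsurj x
  rw [map_add, map_mul, hfix, hfix] at hx
  have h3 : ι z.2 * (σ α - α) = 0 := by linear_combination hx
  rcases mul_eq_zero.1 h3 with h | h
  · exact ⟨z.1, by rw [h, zero_mul, add_zero]⟩
  · exact absurd (sub_eq_zero.1 h) hσα

end nf

section herm

variable {F K : Type*} [Field F] [Field K] [Algebra F K]

/-- hermitian matrices -/
def m4m (α : K) (σ : K →+* K) (hσF : ∀ x : F, σ (algebraMap F K x) = algebraMap F K x) :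
    ((Fin 1 ⊕ Fin 1) ⊕ Fin 2 → F) →ₗ[F] Matrix (Fin 2) (Fin 2) K where
  toFun v := !![algebraMap F K (v (.inl (.inl 0))), algebraMap F K (v (.inr 0)) + algebraMap F K (v (.inr 1)) * α;
    σ (algebraMap F K (v (.inr 0)) + algebraMap F K (v (.inr 1)) * α), - algebraMap F K (v (.inl (.inr 0)))]
  map_add' x y := by
    ext i j
    fin_cases i <;> fin_cases j <;> simp <;> ring
  map_smul' c x := by
    ext i j
    fin_cases i <;> fin_cases j <;> simp [Algebra.smul_def, hσF] <;> ring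

variable (α : K) (σ : K →+* K) (hσF : ∀ x : F, σ (algebraMap F K x) = algebraMap F K x)

theorem m4m_apply (v : (Fin 1 ⊕ Fin 1) ⊕ Fin 2 → F) : m4m α σ hσF v =
    !![algebraMap F K (v (.inl (.inl 0))), algebraMap F K (v (.inr 0)) + algebraMap F K (v (.inr 1)) * α;
    σ (algebraMap F K (v (.inr 0)) + algebraMap F K (v (.inr 1)) * α), - algebraMap F K (v (.inl (.inr 0)))] := rfl

theorem m4m_det {a b : F} (hα : α ^ 2 = algebraMap F K a * α - algebraMap F K b) (hσα : σ α = algebraMap F K a - α)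
    (v : (Fin 1 ⊕ Fin 1) ⊕ Fin 2 → F) : (m4m α σ hσF v).det = - algebraMap F K (qMinus 1 F a b v) := by
  rw [m4m_apply, Matrix.det_fin_two, qMinus_coe]
  simp only [Matrix.of_apply, Matrix.cons_val', Matrix.cons_val_zero, Matrix.cons_val_one, Matrix.cons_val_fin_one,
    map_add, map_mul, hσF, hσα, quadFormMinus, Fin.sum_univ_one, map_pow]
  linear_combination (- (algebraMap F K) (v (Sum.inr 1)) ^ 2 * (-1)) * hα

theorem m4m_inj (hinj : ∀ z w : F × F, algebraMap F K z.1 + algebraMap F K z.2 * α = algebraMap F K w.1 + algebraMap F K w.2 * α → z = w) :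
    Function.Injective (m4m α σ hσF) := by
  intro x y h
  rw [m4m_apply, m4m_apply] at h
  have h1 : algebraMap F K (x (.inl (.inl 0))) = algebraMap F K (y (.inl (.inl 0))) := congrFun (congrFun h 0) 0
  have h2 : algebraMap F K (x (.inr 0)) + algebraMap F K (x (.inr 1)) * α = algebraMap F K (y (.inr 0)) + algebraMap F K (y (.inr 1)) * α :=
    congrFun (congrFun h 0) 1
  have h3 : - algebraMap F K (x (.inl (.inr 0))) = - algebraMap F K (y (.inl (.inr 0))) := congrFun (congrFun h 1) 1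
  have h4 := hinj (x (.inr 0), x (.inr 1)) (y (.inr 0), y (.inr 1)) h2
  rw [Prod.mk.injEq] at h4
  funext k
  rcases k with (k | k) | k
  · fin_cases k
    exact (algebraMap F K).injective h1
  · fin_cases k
    exact (algebraMap F K).injective (neg_injective h3)
  · fin_cases k
    · exact h4.1
    · exact h4.2

/-- the conjugate transpose -/
def ctr (σ : K →+* K) (g : Matrix.SpecialLinearGroup (Fin 2) K) : Matrix (Fin 2) (Fin 2) K :=
  ((g : Matrix (Fin 2) (Fin 2) K).map σ)ᵀ

theorem ctr_mul (g h : Matrix.SpecialLinearGroup (Fin 2) K) : ctr σ (g * h) = ctr σ h * ctr σ g := by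
  unfold ctr
  rw [Matrix.SpecialLinearGroup.coe_mul, Matrix.map_mul, Matrix.transpose_mul]

theorem ctr_one : ctr σ 1 = 1 := by
  unfold ctr
  rw [Matrix.SpecialLinearGroup.coe_one, Matrix.map_one _ (map_zero σ) (map_one σ), Matrix.transpose_one]

theorem ctr_det (g : Matrix.SpecialLinearGroup (Fin 2) K) : (ctr σ g).det = 1 := by
  unfold ctr
  rw [Matrix.det_transpose]
  have h1 : (σ.mapMatrix (g : Matrix (Fin 2) (Fin 2) K)).det = 1 := by rw [← RingHom.map_det, g.2, map_one]
  exact h1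

theorem m4m_herm (hσ2 : ∀ x, σ (σ x) = x) (v : (Fin 1 ⊕ Fin 1) ⊕ Fin 2 → F) :
    ((m4m α σ hσF v).map σ)ᵀ = m4m α σ hσF v := by
  rw [m4m_apply]
  ext i j
  fin_cases i <;> fin_cases j
  · exact hσF _
  · exact hσ2 _
  · rfl
  · show σ (- algebraMap F K (v (.inl (.inr 0)))) = - algebraMap F K (v (.inl (.inr 0)))
    rw [map_neg, hσF]

theorem m4m_of_herm (hfix : ∀ x, σ x = x → ∃ y : F, algebraMap F K y = x)
    (hsurj : ∀ x : K, ∃ z : F × F, x = algebraMap F K z.1 + algebraMap F K z.2 * α)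
    (X : Matrix (Fin 2) (Fin 2) K) (hX : (X.map σ)ᵀ = X) : ∃ w, m4m α σ hσF w = X := by
  obtain ⟨x, hx⟩ := hfix (X 0 0) (congrFun (congrFun hX 0) 0)
  obtain ⟨y, hy⟩ := hfix (X 1 1) (congrFun (congrFun hX 1) 1)
  obtain ⟨z, hz⟩ := hsurj (X 0 1)
  have h10 : σ (X 0 1) = X 1 0 := congrFun (congrFun hX 1) 0
  refine ⟨Sum.elim (Sum.elim (fun _ => x) (fun _ => -y)) ![z.1, z.2], ?_⟩
  rw [m4m_apply]
  ext i j
  fin_cases i <;> fin_cases j
  · exact hx
  · exact hz.symm
  · show σ (algebraMap F K z.1 + algebraMap F K z.2 * α) = X 1 0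
    rw [← hz, h10]
  · show - algebraMap F K (-y) = X 1 1
    rw [map_neg, neg_neg, hy]

theorem m4m_st {a b : F} (hα : α ^ 2 = algebraMap F K a * α - algebraMap F K b) (hσα : σ α = algebraMap F K a - α)
    (hσ2 : ∀ x, σ (σ x) = x) (hfix : ∀ x, σ x = x → ∃ y : F, algebraMap F K y = x)
    (hsurj : ∀ x : K, ∃ z : F × F, x = algebraMap F K z.1 + algebraMap F K z.2 * α)
    (g : Matrix.SpecialLinearGroup (Fin 2) K) (v : (Fin 1 ⊕ Fin 1) ⊕ Fin 2 → F) :
    ∃ w, m4m α σ hσF w = slM (Fin 2) K g * m4m α σ hσF v * ctr σ g ∧ qMinus 1 F a b w = qMinus 1 F a b v := by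
  have hher : ((slM (Fin 2) K g * m4m α σ hσF v * ctr σ g).map σ)ᵀ = slM (Fin 2) K g * m4m α σ hσF v * ctr σ g := by
    rw [Matrix.map_mul, Matrix.map_mul, Matrix.transpose_mul, Matrix.transpose_mul, m4m_herm α σ hσF hσ2]
    have h1 : ((ctr σ g).map σ)ᵀ = slM (Fin 2) K g := by
      ext i j
      show σ (σ ((g : Matrix (Fin 2) (Fin 2) K) i j)) = (g : Matrix (Fin 2) (Fin 2) K) i j
      exact hσ2 _
    rw [h1, Matrix.mul_assoc]
    rfl
  obtain ⟨w, hw⟩ := m4m_of_herm α σ hσF hfix hsurj _ hher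
  refine ⟨w, hw, ?_⟩
  apply (algebraMap F K).injective
  apply neg_injective
  rw [← m4m_det α σ hσF hα hσα, ← m4m_det α σ hσF hα hσα, hw, Matrix.det_mul, Matrix.det_mul, ctr_det, mul_one]
  show (g : Matrix (Fin 2) (Fin 2) K).det * _ = _
  rw [g.2, one_mul]

end herm

section four

theorem comm_index_o4m2 {F : Type*} [Field F] [Fintype F] (hF : Fintype.card F = 2) :
    (commutator (isometryGroup F (quadFormMinus 1 F 1 1))).index = 2 := by
  obtain ⟨f, hf⟩ := o4minus2 hF
  rw [← comm_index_equiv (MulEquiv.ofBijective f hf), alternatingGroup.commutator_perm_eq (by simp), alternatingGroup.index_eq_two]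

theorem pom4m {F K : Type*} [Field F] [Fintype F] [Field K] [Fintype K] {q : ℕ} (hF : Fintype.card F = q)
    (hK : Fintype.card K = q ^ 2) (a b : F) (hab : ∀ z₁ z₂ : F, z₁ ^ 2 + a * z₁ * z₂ + b * z₂ ^ 2 = 0 → z₁ = 0 ∧ z₂ = 0) :
    Nonempty (POmega F (quadFormMinus 1 F a b) ≃* Matrix.ProjectiveSpecialLinearGroup (Fin 2) K) := by
  obtain ⟨ι, α, σ, hσ, hσ2, hσF, hα, hσα, hsurj, hinj, hfix⟩ := exists_normalg hF hK hab
  letI : Algebra F K := ι.toAlgebra
  have hq2 : 2 ≤ q := by rw [← hF]; exact Fintype.one_lt_card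
  have hK3 : 3 ≤ Fintype.card K := by rw [hK]; nlinarith
  have hchar : (2 : F) = 0 ↔ (2 : K) = 0 := by
    constructor
    · intro h
      have := congrArg ι h
      rwa [map_ofNat, map_zero] at this
    · intro h
      apply ι.injective
      rw [map_ofNat, map_zero, h]
  let G := Matrix.SpecialLinearGroup (Fin 2) K
  have hev : Even (Fintype.card (Fin 2)) := by rw [Fintype.card_fin]; exact even_two
  let φ : G →* OG (qMinus 1 F a b) := matAct (qMinus 1 F a b) (slM (Fin 2) K) (ctr σ)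
    (ctr_one σ) (ctr_mul σ) (m4m α σ hσF) (m4m_inj α σ hσF hinj) (m4m_st α σ hσF hα hσα hσ2 hfix hsurj)
  have hker : ∀ g, φ g = 1 → g = 1 ∨ g = nSL (Fin 2) K hev := by
    intro g hg
    have h1 := matAct_ker _ _ _ _ _ _ _ _ g hg
    have hone : m4m α σ hσF (Sum.elim (Sum.elim (fun _ => 1) (fun _ => -1)) ![0, 0]) = 1 := by
      rw [m4m_apply]
      ext i j
      fin_cases i <;> fin_cases j <;> simp
    have hgg : slM (Fin 2) K g * ctr σ g = 1 := by
      have := h1 (Sum.elim (Sum.elim (fun _ => 1) (fun _ => -1)) ![0, 0])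
      rwa [hone, Matrix.mul_one] at this
    have hgg' : ctr σ g * slM (Fin 2) K g = 1 := mul_eq_one_comm.1 hgg
    have h3 : ∀ v, (g : Matrix (Fin 2) (Fin 2) K) * m4m α σ hσF v = m4m α σ hσF v * (g : Matrix (Fin 2) (Fin 2) K) := by
      intro v
      have h4 := congrArg (fun M => M * slM (Fin 2) K g) (h1 v)
      simp only [Matrix.mul_assoc] at h4
      rw [hgg', Matrix.mul_one] at h4
      exact h4
    have h5 := h3 (Sum.elim (Sum.elim (fun _ => 1) (fun _ => 0)) ![0, 0])
    have h6 := h3 (Sum.elim (Sum.elim (fun _ => 0) (fun _ => 0)) ![1, 0])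
    rw [m4m_apply] at h5 h6
    have e1 := congrFun (congrFun h5 0) 1
    have e2 := congrFun (congrFun h5 1) 0
    have e3 := congrFun (congrFun h6 0) 1
    simp [Matrix.mul_apply, Fin.sum_univ_two] at e1 e2 e3
    have hdet := g.2
    rw [Matrix.det_fin_two, ← e3, ← e1] at hdet
    refine nSL_cases hev g (a := (g : Matrix (Fin 2) (Fin 2) K) 0 0) (by linear_combination hdet) ?_
    ext i j
    fin_cases i <;> fin_cases j
    · simp
    · simp [← e1]
    · simp [e2]
    · simp [← e3]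
  have hfr : Module.finrank F ((Fin 1 ⊕ Fin 1) ⊕ Fin 2 → F) = 4 := by
    rw [Module.finrank_fintype_fun_eq_card]; rfl
  have hcard : Nat.card (OG (qMinus 1 F a b)) = 2 * Nat.card G := by
    have h8 := Cfsg.Agent.S0288.result (F := F) hF 2 (by norm_num) a b hab
    rw [← Nat.card_congr (ogEquiv (qMinus 1 F a b)).toEquiv, qMinus_coe]
    have h9 : Nat.card G = q ^ 2 * ((q ^ 2) ^ 2 - 1) := card_SL2 hK
    rw [h9]
    simp only [Nat.add_one_sub_one, Nat.reduceSub, Finset.prod_range_one] at h8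
    refine h8.trans ?_
    have h10 : (q ^ 2) ^ 2 - 1 = (q ^ 2 + 1) * (q ^ 2 - 1) := by
      have hpos : 0 < q ^ 2 := by positivity
      obtain ⟨r, hr⟩ : ∃ r, q ^ 2 = r + 1 := ⟨q ^ 2 - 1, by omega⟩
      rw [hr]
      simp only [Nat.add_sub_cancel]
      have : (r + 1) ^ 2 = (r + 1 + 1) * r + 1 := by ring
      rw [this]
      simp
    rw [h10]
    norm_num
    ring
  have hnd : ND (qMinus 1 F a b) := nd_minus hab
  have hi1 : (2 : F) = 0 → (commutator (OG (qMinus 1 F a b))).index = 2 := by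
    intro h
    by_cases hq : ∀ x : F, x = 0 ∨ x = 1
    · -- the field with two elements
      classical
      have hF2 : Fintype.card F = 2 := by
        have h6 : (Finset.univ : Finset F) ⊆ {0, 1} := by
          intro a _
          rcases hq a with rfl | rfl <;> simp
        have h7 := Finset.card_le_card h6
        rw [Finset.card_univ] at h7
        have h8 : ({0, 1} : Finset F).card ≤ 2 := Finset.card_le_two
        omega
      have ha : a = 1 := by
        rcases hq a with h0 | h0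
        · exact absurd h0 (aniso_a h hab)
        · exact h0
      have hb : b = 1 := by
        rcases hq b with h0 | h0
        · exfalso
          have := (hab 0 1 (by rw [h0]; ring)).2
          exact one_ne_zero this
        · exact h0
      subst ha hb
      rw [← comm_index_equiv (ogEquiv (qMinus 1 F 1 1)), qMinus_coe]
      exact comm_index_o4m2 hF2
    · exact comm_index_even h hnd (by omega) (fun h' => absurd h' hq)
  have hSq : ∀ x : OG (qMinus 1 F a b), x * x ∈ commutator (OG (qMinus 1 F a b)) := by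
    by_cases h2 : (2 : F) = 0
    · exact fun x => sq_mem_of_index_two (hi1 h2) x
    · exact sq_mem_comm_odd h2 hnd (by omega)
  obtain ⟨e⟩ := pom_iso φ (nSL (Fin 2) K hev) (nSL_mul_self hev) (nSL_central hev) (fun h => nSL_two hev (hchar.1 h)) hker
    (sqTop_SL2 hK3) hSq hi1 (fun h => comm_index_odd h hnd (by omega)) hcard
  have e2 := (pomCongr (Q := qMinus 1 F a b) (Q' := qMinus 1 F a b) (LinearEquiv.refl F _) (fun x => rfl)).trans e
  rw [qMinus_coe] at e2
  exact ⟨e2⟩

end four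

end Cfsg.Agent.H5
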