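import Mathlib
import Cfsg.Agent.H5.ExcSmall
import Cfsg.Agent.H5.Pfaff
import Cfsg.Agent.H5.Exc4m
import Cfsg.Agent.H5.UnitCenter
import Cfsg.Agent.H5.UnitComm

set_option autoImplicit false

/-! `PΩ₆⁻(q) ≅ PSU₄(q)`. -/

namespace Cfsg.Agent.H5

open Matrix Cfsg

section six

variable {F K : Type*} [Field F] [Field K] [Algebra F K]

local notation "V₆" F => ((Fin 3 → F) × (Fin 3 → F))

/-- change of coordinates -/
def f6m (a b : F) : (V₆ F) →ₗ[F] ((Fin 2 ⊕ Fin 2) ⊕ Fin 2 → F) where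
  toFun v := Sum.elim (Sum.elim ![v.1 0 - v.1 1, v.2 0 - v.2 1]
    ![v.1 0 + v.1 1 + a * v.2 0, b * (v.2 0 + v.2 1) + a * v.1 1]) ![v.1 2, v.2 2]
  map_add' x y := by
    funext k
    rcases k with (k | k) | k <;> fin_cases k <;> simp <;> ring
  map_smul' c x := by
    funext k
    rcases k with (k | k) | k <;> fin_cases k <;> simp <;> ring

theorem f6m_apply (a b : F) (v : V₆ F) : f6m a b v = Sum.elim (Sum.elim ![v.1 0 - v.1 1, v.2 0 - v.2 1]
    ![v.1 0 + v.1 1 + a * v.2 0, b * (v.2 0 + v.2 1) + a * v.1 1]) ![v.1 2, v.2 2] := rfl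

theorem f6m_q (a b : F) (v : V₆ F) : qMinus 2 F a b (f6m a b v) =
    (v.1 0 ^ 2 + a * v.1 0 * v.2 0 + b * v.2 0 ^ 2) - (v.1 1 ^ 2 + a * v.1 1 * v.2 1 + b * v.2 1 ^ 2) +
      (v.1 2 ^ 2 + a * v.1 2 * v.2 2 + b * v.2 2 ^ 2) := by
  rw [qMinus_coe, f6m_apply]
  simp [quadFormMinus, Fin.sum_univ_two]
  ring

theorem f6m_inj [Finite F] {a b : F} (hab : ∀ z₁ z₂ : F, z₁ ^ 2 + a * z₁ * z₂ + b * z₂ ^ 2 = 0 → z₁ = 0 ∧ z₂ = 0) :
    Function.Injective (f6m a b) := by
  rw [injective_iff_map_eq_zero]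
  intro v hv
  rw [f6m_apply] at hv
  have h1 := congrFun hv (Sum.inl (Sum.inl 0))
  have h2 := congrFun hv (Sum.inl (Sum.inl 1))
  have h3 := congrFun hv (Sum.inl (Sum.inr 0))
  have h4 := congrFun hv (Sum.inl (Sum.inr 1))
  have h5 := congrFun hv (Sum.inr 0)
  have h6 := congrFun hv (Sum.inr 1)
  simp at h1 h2 h3 h4 h5 h6
  have e1 : v.1 0 = v.1 1 := sub_eq_zero.1 h1
  have e2 : v.2 0 = v.2 1 := sub_eq_zero.1 h2
  have h3' : 2 * v.1 1 + a * v.2 1 = 0 := by rw [e1, e2] at h3; linear_combination h3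
  have h4' : 2 * b * v.2 1 + a * v.1 1 = 0 := by rw [e2] at h4; linear_combination h4
  have e3 : v.1 1 = 0 ∧ v.2 1 = 0 := by
    by_cases h20 : (2 : F) = 0
    · have ha := aniso_a h20 hab
      have g1 : a * v.2 1 = 0 := by linear_combination h3' - v.1 1 * h20
      have g2 : a * v.1 1 = 0 := by linear_combination h4' - b * v.2 1 * h20
      exact ⟨(mul_eq_zero.1 g2).resolve_left ha, (mul_eq_zero.1 g1).resolve_left ha⟩
    · apply hab
      apply mul_left_cancel₀ h20
      rw [mul_zero]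
      linear_combination v.1 1 * h3' + v.2 1 * h4'
  rw [e3.1] at e1
  rw [e3.2] at e2
  apply Prod.ext
  · funext k
    fin_cases k
    · exact e1
    · exact e3.1
    · exact h5
  · funext k
    fin_cases k
    · exact e2
    · exact e3.2
    · exact h6

/-- the form -/
noncomputable def q6 (a b : F) : QuadraticForm F (V₆ F) := (qMinus 2 F a b).comp (f6m a b)

theorem q6_apply (a b : F) (v : V₆ F) : q6 a b v = qMinus 2 F a b (f6m a b v) := rfl

variable (α lam : K) (σ : K →+* K) (hσF : ∀ x : F, σ (algebraMap F K x) = algebraMap F K x)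

/-- the `F`-form of the space of alternating matrices -/
def m6m : (V₆ F) →ₗ[F] Matrix (Fin 4) (Fin 4) K where
  toFun v := alt4 (algebraMap F K (v.1 0) + algebraMap F K (v.2 0) * α) (lam * (algebraMap F K (v.1 1) + algebraMap F K (v.2 1) * α))
    (algebraMap F K (v.1 2) + algebraMap F K (v.2 2) * α) (σ (algebraMap F K (v.1 2) + algebraMap F K (v.2 2) * α))
    (- σ (lam * (algebraMap F K (v.1 1) + algebraMap F K (v.2 1) * α))) (σ (algebraMap F K (v.1 0) + algebraMap F K (v.2 0) * α))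
  map_add' x y := by
    ext i j
    fin_cases i <;> fin_cases j <;> simp [alt4] <;> ring
  map_smul' c x := by
    ext i j
    fin_cases i <;> fin_cases j <;> simp [alt4, Algebra.smul_def, hσF] <;> ring

theorem m6m_apply (v : V₆ F) : m6m α lam σ hσF v =
    alt4 (algebraMap F K (v.1 0) + algebraMap F K (v.2 0) * α) (lam * (algebraMap F K (v.1 1) + algebraMap F K (v.2 1) * α))
    (algebraMap F K (v.1 2) + algebraMap F K (v.2 2) * α) (σ (algebraMap F K (v.1 2) + algebraMap F K (v.2 2) * α))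
    (- σ (lam * (algebraMap F K (v.1 1) + algebraMap F K (v.2 1) * α))) (σ (algebraMap F K (v.1 0) + algebraMap F K (v.2 0) * α)) := rfl

theorem m6m_surj (hlam : lam ≠ 0) (hsurj : ∀ x : K, ∃ z : F × F, x = algebraMap F K z.1 + algebraMap F K z.2 * α) (A B C : K) :
    ∃ v : V₆ F, m6m α lam σ hσF v = alt4 A B C (σ C) (- σ B) (σ A) := by
  obtain ⟨x, hx⟩ := hsurj A
  obtain ⟨y, hy⟩ := hsurj (B / lam)
  obtain ⟨z, hz⟩ := hsurj C
  refine ⟨(![x.1, y.1, z.1], ![x.2, y.2, z.2]), ?_⟩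
  rw [m6m_apply]
  simp only [Matrix.cons_val_zero, Matrix.cons_val_one, Matrix.cons_val]
  rw [← hx, ← hy, ← hz, mul_div_cancel₀ _ hlam]

theorem m6m_pf {a b : F} (hα : α ^ 2 = algebraMap F K a * α - algebraMap F K b) (hσα : σ α = algebraMap F K a - α)
    (hlam : lam * σ lam = -1) (v : V₆ F) : pf4 (m6m α lam σ hσF v) = algebraMap F K (q6 a b v) := by
  rw [m6m_apply, pf4_alt4, q6_apply, f6m_q]
  simp only [map_add, map_mul, map_sub, map_pow, hσF, hσα]
  have hk : ∀ x y : K, (x + y * α) * (x + y * (algebraMap F K a - α)) = x ^ 2 + algebraMap F K a * x * y + algebraMap F K b * y ^ 2 := by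
    intro x y
    linear_combination (- y ^ 2) * hα
  linear_combination hk (algebraMap F K (v.1 0)) (algebraMap F K (v.2 0)) +
    lam * σ lam * hk (algebraMap F K (v.1 1)) (algebraMap F K (v.2 1)) +
    hk (algebraMap F K (v.1 2)) (algebraMap F K (v.2 2)) +
    ((algebraMap F K (v.1 1)) ^ 2 + algebraMap F K a * algebraMap F K (v.1 1) * algebraMap F K (v.2 1) +
      algebraMap F K b * (algebraMap F K (v.2 1)) ^ 2) * hlam

theorem m6m_inj (hlam : lam ≠ 0) (hinj : ∀ z w : F × F, algebraMap F K z.1 + algebraMap F K z.2 * α = algebraMap F K w.1 + algebraMap F K w.2 * α → z = w) :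
    Function.Injective (m6m α lam σ hσF) := by
  intro x y h
  rw [m6m_apply, m6m_apply] at h
  have h1 : algebraMap F K (x.1 0) + algebraMap F K (x.2 0) * α = algebraMap F K (y.1 0) + algebraMap F K (y.2 0) * α :=
    congrFun (congrFun h 0) 1
  have h2 : lam * (algebraMap F K (x.1 1) + algebraMap F K (x.2 1) * α) = lam * (algebraMap F K (y.1 1) + algebraMap F K (y.2 1) * α) :=
    congrFun (congrFun h 0) 2
  have h3 : algebraMap F K (x.1 2) + algebraMap F K (x.2 2) * α = algebraMap F K (y.1 2) + algebraMap F K (y.2 2) * α :=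
    congrFun (congrFun h 0) 3
  have e1 := hinj (x.1 0, x.2 0) (y.1 0, y.2 0) h1
  have e2 := hinj (x.1 1, x.2 1) (y.1 1, y.2 1) (mul_left_cancel₀ hlam h2)
  have e3 := hinj (x.1 2, x.2 2) (y.1 2, y.2 2) h3
  rw [Prod.mk.injEq] at e1 e2 e3
  apply Prod.ext
  · funext k
    fin_cases k
    · exact e1.1
    · exact e2.1
    · exact e3.1
  · funext k
    fin_cases k
    · exact e1.2
    · exact e2.2
    · exact e3.2

theorem m6m_real (hσ2 : ∀ x, σ (σ x) = x) (v : V₆ F) : (m6m α lam σ hσF v).map σ = star4 (m6m α lam σ hσF v) := by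
  rw [m6m_apply, alt4_eta]
  generalize algebraMap F K (v.1 0) + algebraMap F K (v.2 0) * α = A
  generalize lam * (algebraMap F K (v.1 1) + algebraMap F K (v.2 1) * α) = B
  generalize algebraMap F K (v.1 2) + algebraMap F K (v.2 2) * α = C
  ext i j
  fin_cases i <;> fin_cases j <;> simp [alt4, hσ2]

/-- unitary matrices -/
def suA (n : ℕ) (K : Type*) [Field K] (q : ℕ) : SU n K q →* Matrix (Fin n) (Fin n) K :=
  (slM (Fin n) K).comp (SU n K q).subtype

theorem suA_apply {n q : ℕ} (g : SU n K q) : suA n K q g = ((g : Matrix.SpecialLinearGroup (Fin n) K) : Matrix (Fin n) (Fin n) K) := rfl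

theorem suA_unit {n q : ℕ} {σ : K →+* K} (hσ : ∀ x, σ x = x ^ q) (g : SU n K q) : ((suA n K q g).map σ)ᵀ * suA n K q g = 1 := by
  have h := (mem_SU_iff hσ).1 g.2
  ext i j
  have h1 := h (Pi.single i 1) (Pi.single j 1)
  rw [hB_apply, hB_apply] at h1
  simp only [Matrix.mulVec_single_one] at h1
  have h2 : (∑ k, σ (((g : Matrix.SpecialLinearGroup (Fin n) K) : Matrix (Fin n) (Fin n) K) k i) *
      ((g : Matrix.SpecialLinearGroup (Fin n) K) : Matrix (Fin n) (Fin n) K) k j) =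
      (((suA n K q g).map σ)ᵀ * suA n K q g) i j := by
    rw [Matrix.mul_apply]
    rfl
  rw [← h2]
  refine Eq.trans h1 ?_
  rw [Finset.sum_eq_single i]
  · by_cases hij : i = j
    · subst hij
      rw [Pi.single_eq_same, map_one, one_mul, Matrix.one_apply_eq]
    · rw [Pi.single_eq_same, map_one, one_mul, Pi.single_eq_of_ne hij, Matrix.one_apply_ne hij]
  · intro k _ hk
    rw [Pi.single_eq_of_ne hk, map_zero, zero_mul]
  · intro h
    exact absurd (Finset.mem_univ i) h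

theorem m6m_st {q : ℕ} {a b : F} (hσ : ∀ x, σ x = x ^ q) (hσ2 : ∀ x, σ (σ x) = x)
    (hα : α ^ 2 = algebraMap F K a * α - algebraMap F K b) (hσα : σ α = algebraMap F K a - α)
    (hlam0 : lam ≠ 0) (hlam : lam * σ lam = -1)
    (hsurj : ∀ x : K, ∃ z : F × F, x = algebraMap F K z.1 + algebraMap F K z.2 * α) (g : SU 4 K q) (v : V₆ F) :
    ∃ w, m6m α lam σ hσF w = suA 4 K q g * m6m α lam σ hσF v * (suA 4 K q g)ᵀ ∧ q6 a b w = q6 a b v := by
  have h1 : ∃ A B C D E G : K, m6m α lam σ hσF v = alt4 A B C D E G := ⟨_, _, _, _, _, _, m6m_apply α lam σ hσF v⟩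
  obtain ⟨A, B, C, D, E, G, hm⟩ := h1
  obtain ⟨X, hX⟩ : ∃ X, X = suA 4 K q g * m6m α lam σ hσF v * (suA 4 K q g)ᵀ := ⟨_, rfl⟩
  have hdet : (suA 4 K q g).det = 1 := (g : Matrix.SpecialLinearGroup (Fin 4) K).2
  have hX1 := alt4_conj (suA 4 K q g) A B C D E G
  rw [← hm, ← hX] at hX1
  have hX2 := star4_conj (suA 4 K q g) A B C D E G
  rw [← hm, ← hX, hdet, one_smul, ← alt4_eta, ← hm] at hX2
  have hu := suA_unit hσ g
  have hu1 : suA 4 K q g * ((suA 4 K q g).map σ)ᵀ = 1 := mul_eq_one_comm.1 hu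
  have hu2 : (suA 4 K q g).map σ * (suA 4 K q g)ᵀ = 1 := by
    have := congrArg Matrix.transpose hu1
    rwa [Matrix.transpose_mul, Matrix.transpose_transpose, Matrix.transpose_one] at this
  have hreal : X.map σ = star4 X := by
    have h3 : X.map σ = (suA 4 K q g).map σ * (m6m α lam σ hσF v).map σ * ((suA 4 K q g).map σ)ᵀ := by
      rw [hX, Matrix.map_mul, Matrix.map_mul]
      rfl
    rw [h3, m6m_real α lam σ hσF hσ2, ← hX2]
    calc (suA 4 K q g).map σ * ((suA 4 K q g)ᵀ * star4 X * suA 4 K q g) * ((suA 4 K q g).map σ)ᵀ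
        = ((suA 4 K q g).map σ * (suA 4 K q g)ᵀ) * star4 X * (suA 4 K q g * ((suA 4 K q g).map σ)ᵀ) := by
          simp only [Matrix.mul_assoc]
      _ = star4 X := by rw [hu1, hu2, Matrix.one_mul, Matrix.mul_one]
  have g1 : σ (X 0 1) = X 2 3 := congrFun (congrFun hreal 0) 1
  have g2 : σ (X 0 2) = - X 1 3 := congrFun (congrFun hreal 0) 2
  have g3 : σ (X 0 3) = X 1 2 := congrFun (congrFun hreal 0) 3
  obtain ⟨w, hw⟩ := m6m_surj α lam σ hσF hlam0 hsurj (X 0 1) (X 0 2) (X 0 3)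
  have hw' : m6m α lam σ hσF w = X := by
    rw [hw, g1, g2, g3, neg_neg]
    exact hX1.symm
  refine ⟨w, hw'.trans hX, ?_⟩
  apply (algebraMap F K).injective
  rw [← m6m_pf α lam σ hσF hα hσα hlam, ← m6m_pf α lam σ hσF hα hσα hlam, hw', hX, hm, pf4_conj, hdet, one_mul, pf4_alt4]

theorem alt4_fix_add (g : Matrix (Fin 4) (Fin 4) K) {X Y : Matrix (Fin 4) (Fin 4) K} (hX : g * X * gᵀ = X) (hY : g * Y * gᵀ = Y) (t : K) :
    g * (X + t • Y) * gᵀ = X + t • Y := by
  rw [Matrix.mul_add, Matrix.add_mul, hX, Matrix.mul_smul, Matrix.smul_mul, hY]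

theorem alt4_add' (a b c d e f a' b' c' d' e' f' t : K) : alt4 a b c d e f + t • alt4 a' b' c' d' e' f' =
    alt4 (a + t * a') (b + t * b') (c + t * c') (d + t * d') (e + t * e') (f + t * f') := by
  ext i j
  fin_cases i <;> fin_cases j <;> simp [alt4] <;> ring

theorem fix_all (g : Matrix (Fin 4) (Fin 4) K) (hσ2 : ∀ x, σ (σ x) = x) {τ : K} (hτ : τ ≠ σ τ)
    (h : ∀ A B C : K, g * alt4 A B C (σ C) (- σ B) (σ A) * gᵀ = alt4 A B C (σ C) (- σ B) (σ A)) (a b c d e f : K) :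
    g * alt4 a b c d e f * gᵀ = alt4 a b c d e f := by
  have hd : τ - σ τ ≠ 0 := sub_ne_zero.2 hτ
  have hd' : σ τ - τ ≠ 0 := sub_ne_zero.2 (Ne.symm hτ)
  obtain ⟨A', hA'⟩ : ∃ A', A' = (a - σ f) / (τ - σ τ) := ⟨_, rfl⟩
  obtain ⟨B', hB'⟩ : ∃ B', B' = (b + σ e) / (τ - σ τ) := ⟨_, rfl⟩
  obtain ⟨C', hC'⟩ : ∃ C', C' = (c - σ d) / (τ - σ τ) := ⟨_, rfl⟩
  have h1 : alt4 a b c d e f = alt4 (a - τ * A') (b - τ * B') (c - τ * C') (σ (c - τ * C')) (- σ (b - τ * B')) (σ (a - τ * A')) +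
      τ • alt4 A' B' C' (σ C') (- σ B') (σ A') := by
    rw [alt4_add']
    have e1 : σ A' * (σ τ - τ) = σ a - f := by
      rw [hA', map_div₀, map_sub, map_sub, hσ2, hσ2, div_mul_cancel₀ _ hd']
    have e2 : σ B' * (σ τ - τ) = σ b + e := by
      rw [hB', map_div₀, map_add, map_sub, hσ2, hσ2, div_mul_cancel₀ _ hd']
    have e3 : σ C' * (σ τ - τ) = σ c - d := by
      rw [hC', map_div₀, map_sub, map_sub, hσ2, hσ2, div_mul_cancel₀ _ hd']
    congr 1
    · ring
    · ring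
    · ring
    · rw [map_sub, map_mul]; linear_combination e3
    · rw [map_sub, map_mul]; linear_combination -e2
    · rw [map_sub, map_mul]; linear_combination e1
  rw [h1]
  exact alt4_fix_add g (h _ _ _) (h _ _ _) τ

end six

section main

theorem pom6m {F K : Type*} [Field F] [Fintype F] [Field K] [Fintype K] {q : ℕ} (hF : Fintype.card F = q)
    (hK : Fintype.card K = q ^ 2) (a b : F) (hab : ∀ z₁ z₂ : F, z₁ ^ 2 + a * z₁ * z₂ + b * z₂ ^ 2 = 0 → z₁ = 0 ∧ z₂ = 0) :
    Nonempty (POmega F (quadFormMinus 2 F a b) ≃* PSU 4 K q) := by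
  obtain ⟨ι, α, σ, hσ, hσ2, hσF, hα, hσα, hsurj, hinj, hfix⟩ := exists_normalg hF hK hab
  letI : Algebra F K := ι.toAlgebra
  have hq2 : 2 ≤ q := by rw [← hF]; exact Fintype.one_lt_card
  have hchar : (2 : F) = 0 ↔ (2 : K) = 0 := by
    constructor
    · intro h
      have := congrArg ι h
      rwa [map_ofNat, map_zero] at this
    · intro h
      apply ι.injective
      rw [map_ofNat, map_zero, h]
  have hατ : α ≠ σ α := by
    intro h
    obtain ⟨y, hy⟩ := hfix α h.symm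
    have := hinj (y, 0) (0, 1) (by simp only [map_zero, map_one, zero_mul, add_zero, one_mul, zero_add]; exact hy)
    rw [Prod.mk.injEq] at this
    exact zero_ne_one this.2
  have hσ1 : σ ≠ RingHom.id K := by
    intro h
    apply hατ
    rw [h]; rfl
  obtain ⟨lam, hlam0, hlam⟩ := norm_surj hσ1 hσ2 (c := -1) (by rw [map_neg, map_one]) (neg_ne_zero.2 one_ne_zero)
  let G := SU 4 K q
  haveI : Finite G := inferInstance
  let φ : G →* OG (q6 a b) := matAct (q6 a b) (suA 4 K q) (fun g => (suA 4 K q g)ᵀ)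
    (by rw [map_one, Matrix.transpose_one]) (fun g h => by rw [map_mul, Matrix.transpose_mul]) (m6m α lam σ hσF)
    (m6m_inj α lam σ hσF hlam0 hinj) (m6m_st α lam σ hσF hσ hσ2 hα hσα hlam0 hlam hsurj)
  have hev : Even (Fintype.card (Fin 4)) := by rw [Fintype.card_fin]; exact ⟨2, rfl⟩
  have hzmem : nSL (Fin 4) K hev ∈ SU 4 K q := by
    rw [mem_SU_iff hσ]
    intro u v
    show hB (Fin 4) σ (Matrix.mulVec (-1 : Matrix (Fin 4) (Fin 4) K) u) (Matrix.mulVec (-1 : Matrix (Fin 4) (Fin 4) K) v) = _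
    rw [Matrix.neg_mulVec, Matrix.neg_mulVec, Matrix.one_mulVec, Matrix.one_mulVec, map_neg, map_neg, LinearMap.neg_apply, neg_neg]
  let z : G := ⟨nSL (Fin 4) K hev, hzmem⟩
  have hker : ∀ g, φ g = 1 → g = 1 ∨ g = z := by
    intro g hg
    have h1 := matAct_ker _ _ _ _ _ _ _ _ g hg
    obtain ⟨r, hr, hgr⟩ := scalar_of_fix_alt (suA 4 K q g) (by
        rw [suA_apply, (g : Matrix.SpecialLinearGroup (Fin 4) K).2]; exact isUnit_one) (by
      apply fix_all σ (suA 4 K q g) hσ2 hατ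
      intro A B C
      obtain ⟨v, hv⟩ := m6m_surj α lam σ hσF hlam0 hsurj A B C
      rw [← hv]
      exact h1 v)
    rcases nSL_cases hev (g : Matrix.SpecialLinearGroup (Fin 4) K) hr hgr with h | h
    · left; exact Subtype.ext h
    · right; exact Subtype.ext h
  have hzz : z * z = 1 := Subtype.ext (nSL_mul_self hev)
  have hz : z ∈ Subgroup.center G := by
    rw [Subgroup.mem_center_iff]
    intro g
    exact Subtype.ext (Subgroup.mem_center_iff.1 (nSL_central hev) g.1)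
  have hz1 : (2 : F) = 0 → z = 1 := fun h => Subtype.ext (nSL_two hev (hchar.1 h))
  have hfr : Module.finrank F ((Fin 2 ⊕ Fin 2) ⊕ Fin 2 → F) = 6 := by
    rw [Module.finrank_fintype_fun_eq_card]; rfl
  have hfr' : Module.finrank F ((Fin 3 → F) × (Fin 3 → F)) = 6 := by
    rw [Module.finrank_prod, Module.finrank_fintype_fun_eq_card]; rfl
  let e : ((Fin 3 → F) × (Fin 3 → F)) ≃ₗ[F] ((Fin 2 ⊕ Fin 2) ⊕ Fin 2 → F) :=
    LinearMap.linearEquivOfInjective (f6m a b) (f6m_inj hab) (by rw [hfr, hfr'])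
  have he : ∀ x, qMinus 2 F a b (e x) = q6 a b x := fun x => rfl
  have hnd : ND (qMinus 2 F a b) := nd_minus hab
  let E := ogCongr e he
  have hcard : Nat.card (OG (q6 a b)) = 2 * Nat.card G := by
    rw [Nat.card_congr E.toEquiv, ← Nat.card_congr (ogEquiv (qMinus 2 F a b)).toEquiv, qMinus_coe]
    have h8 := Cfsg.Agent.S0288.result (F := F) hF 3 (by norm_num) a b hab
    refine Eq.trans h8 ?_
    have h9 := card_SU_mul (F := K) hK (n := 4) (by norm_num)
    apply Nat.eq_of_mul_eq_mul_left (Nat.succ_pos q)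
    have h10 : (q + 1) * (2 * Nat.card G) = 2 * ordU q 4 := by rw [← h9]; ring
    rw [Nat.succ_eq_add_one, h10]
    unfold ordU
    simp only [Nat.reduceSub, Finset.prod_range_succ, Finset.prod_range_zero]
    have e0 : Even 0 := ⟨0, rfl⟩
    have e1 : ¬ Even 1 := by decide
    have e2 : Even 2 := ⟨1, rfl⟩
    have e3 : ¬ Even 3 := by decide
    rw [if_pos e0, if_neg e1, if_pos e2, if_neg e3]
    norm_num
    ring
  have hi1 : (2 : F) = 0 → (commutator (OG (q6 a b))).index = 2 := fun h => by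
    rw [comm_index_equiv E]
    exact comm_index_even h hnd (by omega) (fun _ => by omega)
  have hSq : ∀ x : OG (q6 a b), x * x ∈ commutator (OG (q6 a b)) := by
    by_cases h2 : (2 : F) = 0
    · exact fun x => sq_mem_of_index_two (hi1 h2) x
    · intro x
      rw [mem_comm_equiv E, map_mul]
      exact sq_mem_comm_odd h2 hnd (by omega) _
  obtain ⟨e1⟩ := pom_iso φ z hzz hz hz1 hker
    (sqTop_of_perfect (SU_perfect hK (by norm_num) (by omega))) hSq hi1
    (fun h => by rw [comm_index_equiv E]; exact comm_index_odd h hnd (by omega)) hcard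
  have e2 := (pomCongr (Q := q6 a b) (Q' := qMinus 2 F a b) e he).trans e1
  rw [qMinus_coe] at e2
  exact ⟨e2⟩

end main

end Cfsg.Agent.H5
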