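import Mathlib

set_option autoImplicit false

/-! Counting in groups whose commutators lie in a central subgroup of order two. -/

namespace Cfsg.Agent.H5

section ext

variable {G : Type*} [Group G]

open Classical in
/-- the commutator sign -/
noncomputable def kap (g h : G) : ℤ := if g * h = h * g then 1 else -1

theorem kap_symm (g h : G) : kap g h = kap h g := by
  unfold kap
  by_cases hh : g * h = h * g
  · rw [if_pos hh, if_pos hh.symm]
  · rw [if_neg hh, if_neg (fun h' => hh h'.symm)]

theorem kap_eq_one_iff (g h : G) : kap g h = 1 ↔ g * h = h * g := by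
  unfold kap
  by_cases hh : g * h = h * g
  · rw [if_pos hh]; exact ⟨fun _ => hh, fun _ => rfl⟩
  · rw [if_neg hh]
    constructor
    · intro h'; exact absurd h' (by decide)
    · intro h'; exact absurd h' hh

variable {z : G}

theorem kap_mul_left (hz : ∀ g, z * g = g * z) (hz1 : z ≠ 1) (hzz : z * z = 1)
    (hc : ∀ g h : G, g * h = h * g ∨ g * h = z * (h * g)) (g g' h : G) : kap (g * g') h = kap g h * kap g' h := by
  have key : ∀ x : G, z * x ≠ x := by
    intro x hx
    exact hz1 (mul_eq_right.1 hx)
  unfold kap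
  rcases hc g h with h1 | h1
  · rcases hc g' h with h2 | h2
    · rw [if_pos h1, if_pos h2, if_pos, one_mul]
      rw [mul_assoc, h2, ← mul_assoc, h1, mul_assoc]
    · have h2' : ¬ g' * h = h * g' := by rw [h2]; exact key _
      rw [if_pos h1, if_neg h2', if_neg, one_mul]
      have e : g * g' * h = z * (h * (g * g')) := by
        calc g * g' * h = g * (z * (h * g')) := by rw [mul_assoc, h2]
          _ = z * (g * h * g') := by rw [← mul_assoc, ← hz, mul_assoc, mul_assoc g h g']
          _ = z * (h * (g * g')) := by rw [h1, mul_assoc]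
      rw [e]
      exact key _
  · have h1' : ¬ g * h = h * g := by rw [h1]; exact key _
    rcases hc g' h with h2 | h2
    · rw [if_neg h1', if_pos h2, if_neg, mul_one]
      have e : g * g' * h = z * (h * (g * g')) := by
        calc g * g' * h = g * h * g' := by rw [mul_assoc, h2, ← mul_assoc]
          _ = z * (h * (g * g')) := by rw [h1]; simp only [mul_assoc]
      rw [e]
      exact key _
    · have h2' : ¬ g' * h = h * g' := by rw [h2]; exact key _
      rw [if_neg h1', if_neg h2', if_pos, neg_mul_neg, one_mul]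
      calc g * g' * h = g * (z * (h * g')) := by rw [mul_assoc, h2]
        _ = z * (g * h * g') := by rw [← mul_assoc, ← hz, mul_assoc, mul_assoc g h g']
        _ = z * (z * (h * g) * g') := by rw [h1]
        _ = (z * z) * (h * (g * g')) := by simp only [mul_assoc]
        _ = h * (g * g') := by rw [hzz, one_mul]

/-- as a homomorphism -/
noncomputable def kapHom (hz : ∀ g, z * g = g * z) (hz1 : z ≠ 1) (hzz : z * z = 1)
    (hc : ∀ g h : G, g * h = h * g ∨ g * h = z * (h * g)) (h : G) : G →* ℤ where
  toFun g := kap g h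
  map_one' := (kap_eq_one_iff 1 h).2 (by rw [one_mul, mul_one])
  map_mul' g g' := kap_mul_left hz hz1 hzz hc g g' h

theorem ext_count [Finite G] (hz : ∀ g, z * g = g * z) (hz1 : z ≠ 1) (hzz : z * z = 1)
    (hc : ∀ g h : G, g * h = h * g ∨ g * h = z * (h * g)) (M : Subgroup G) (hM : ∀ x ∈ M, ∀ y ∈ M, x * y = y * x)
    (hmax : ∀ g, (∀ x ∈ M, g * x = x * g) → g ∈ M) :
    Nat.card G * Nat.card (Subgroup.center G) = Nat.card M * Nat.card M := by
  classical
  haveI := Fintype.ofFinite G
  have hle : Subgroup.center G ≤ M := by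
    intro g hg
    apply hmax
    intro x _
    exact (Subgroup.mem_center_iff.1 hg x).symm
  have h1 : ∀ h : G, (∑ g : G, kap g h) = if h ∈ Subgroup.center G then (Fintype.card G : ℤ) else 0 := by
    intro h
    have h2 := sum_hom_units (kapHom hz hz1 hzz hc h)
    have h3 : (∑ g : G, kapHom hz hz1 hzz hc h g) = ∑ g : G, kap g h := rfl
    rw [← h3, h2]
    by_cases hh : h ∈ Subgroup.center G
    · rw [if_pos hh, if_pos]
      · ext g
        show kap g h = 1
        rw [kap_eq_one_iff]
        exact Subgroup.mem_center_iff.1 hh g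
    · rw [if_neg hh, if_neg]
      · rfl
      · intro h4
        apply hh
        rw [Subgroup.mem_center_iff]
        intro g
        rw [← kap_eq_one_iff]
        exact DFunLike.congr_fun h4 g
  have h5 : ∀ g : G, (∑ x : M, kap (x : G) g) = if g ∈ M then (Fintype.card M : ℤ) else 0 := by
    intro g
    have h2 := sum_hom_units ((kapHom hz hz1 hzz hc g).comp M.subtype)
    have h3 : (∑ x : M, ((kapHom hz hz1 hzz hc g).comp M.subtype) x) = ∑ x : M, kap (x : G) g := rfl
    rw [← h3, h2]
    by_cases hh : g ∈ M
    · rw [if_pos hh, if_pos]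
      · ext x
        show kap (x : G) g = 1
        rw [kap_eq_one_iff]
        exact hM x.1 x.2 g hh
    · rw [if_neg hh, if_neg]
      · rfl
      · intro h4
        apply hh
        apply hmax
        intro x hx
        have h6 : kap x g = 1 := DFunLike.congr_fun h4 ⟨x, hx⟩
        rw [kap_eq_one_iff] at h6
        exact h6.symm
  have h7 : (∑ x : M, ∑ g : G, kap g (x : G)) = (Fintype.card G : ℤ) * Nat.card (Subgroup.center G) := by
    simp only [h1]
    rw [← Finset.sum_filter, Finset.sum_const, nsmul_eq_mul, mul_comm]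
    congr 1
    have h8 : (Finset.univ.filter (fun x : M => (x : G) ∈ Subgroup.center G)).card = Nat.card (Subgroup.center G) := by
      rw [← Fintype.card_subtype, ← Nat.card_eq_fintype_card]
      apply Nat.card_congr
      exact { toFun := fun x => ⟨x.1.1, x.2⟩
              invFun := fun x => ⟨⟨x.1, hle x.2⟩, x.2⟩
              left_inv := fun x => rfl
              right_inv := fun x => rfl }
    rw [h8]
  have h9 : (∑ g : G, ∑ x : M, kap g (x : G)) = (Nat.card M : ℤ) * Nat.card M := by
    have h10 : ∀ g : G, (∑ x : M, kap g (x : G)) = if g ∈ M then (Fintype.card M : ℤ) else 0 := by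
      intro g
      rw [← h5]
      exact Finset.sum_congr rfl (fun x _ => kap_symm _ _)
    simp only [h10]
    rw [← Finset.sum_filter, Finset.sum_const, nsmul_eq_mul]
    have h8 : (Finset.univ.filter (fun x : G => x ∈ M)).card = Nat.card M := by
      rw [← Fintype.card_subtype, ← Nat.card_eq_fintype_card]
    rw [h8, Nat.card_eq_fintype_card]
  rw [Finset.sum_comm, h9] at h7
  rw [Nat.card_eq_fintype_card (α := G)]
  exact_mod_cast h7.symm

theorem exists_max_comm [Finite G] : ∃ M : Subgroup G, (∀ x ∈ M, ∀ y ∈ M, x * y = y * x) ∧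
    (∀ g, (∀ x ∈ M, g * x = x * g) → g ∈ M) := by
  classical
  obtain ⟨M, hM, hmax⟩ := Set.Finite.exists_maximalFor (fun M : Subgroup G => M) {M : Subgroup G | ∀ x ∈ M, ∀ y ∈ M, x * y = y * x}
    (Set.toFinite _) ⟨⊥, by
      intro x hx y hy
      rw [Subgroup.mem_bot] at hx hy
      rw [hx, hy]⟩
  refine ⟨M, hM, ?_⟩
  intro g hg
  have hcomm : ∀ x ∈ (M : Set G) ∪ {g}, ∀ y ∈ (M : Set G) ∪ {g}, x * y = y * x := by
    rintro x (hx | hx) y (hy | hy)
    · exact hM x hx y hy
    · rw [Set.mem_singleton_iff.1 hy]; exact (hg x hx).symm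
    · rw [Set.mem_singleton_iff.1 hx]; exact hg y hy
    · rw [Set.mem_singleton_iff.1 hx, Set.mem_singleton_iff.1 hy]
  have h1 := Subgroup.isMulCommutative_closure hcomm
  have h2 : Subgroup.closure ((M : Set G) ∪ {g}) ∈ {M : Subgroup G | ∀ x ∈ M, ∀ y ∈ M, x * y = y * x} := by
    intro x hx y hy
    exact congrArg Subtype.val (h1.is_comm.comm (⟨x, hx⟩ : Subgroup.closure ((M : Set G) ∪ {g})) ⟨y, hy⟩)
  have h3 : M ≤ Subgroup.closure ((M : Set G) ∪ {g}) := by
    intro x hx
    exact Subgroup.subset_closure (Or.inl hx)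
  exact hmax h2 h3 (Subgroup.subset_closure (Or.inr rfl))

end ext

end Cfsg.Agent.H5
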