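import Mathlib
import Cfsg.Agent.H5.FormClass
import Cfsg.Agent.H5.AltBasis

namespace Cfsg.Agent.H5

open Module Matrix TensorProduct

section
variable {F : Type*} [Field F] {U : Type*} [AddCommGroup U] [Module F U] [FiniteDimensional F U]
  {W : Type*} [AddCommGroup W] [Module F W] [FiniteDimensional F W]

omit [FiniteDimensional F U] [FiniteDimensional F W] in
theorem tmul_pure (B₁ : LinearMap.BilinForm F U) (B₂ : LinearMap.BilinForm F W) (a b : U) (c d : W) :
    (B₁.tmul B₂) (a ⊗ₜ c) (b ⊗ₜ d) = B₁ a b * B₂ c d := by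
  simp [mul_comm]

omit [FiniteDimensional F U] [FiniteDimensional F W] in
theorem tmul_comm_of (B₁ : LinearMap.BilinForm F U) (B₂ : LinearMap.BilinForm F W)
    (h : ∀ a b c d, B₁ a b * B₂ c d = B₁ b a * B₂ d c) (x y : U ⊗[F] W) :
    (B₁.tmul B₂) x y = (B₁.tmul B₂) y x := by
  induction x using TensorProduct.induction_on with
  | zero => rw [map_zero, map_zero, LinearMap.zero_apply]
  | add x x' hx hx' => rw [map_add, map_add, LinearMap.add_apply, hx, hx']
  | tmul a c =>
    induction y using TensorProduct.induction_on with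
    | zero => rw [map_zero, map_zero, LinearMap.zero_apply]
    | add y y' hy hy' => rw [map_add, map_add, LinearMap.add_apply, hy, hy']
    | tmul b d =>
      rw [tmul_pure, tmul_pure]
      exact h a b c d

omit [FiniteDimensional F U] [FiniteDimensional F W] in
theorem tmul_matrix {ι κ : Type*} [Fintype ι] [DecidableEq ι] [Fintype κ] [DecidableEq κ]
    (B₁ : LinearMap.BilinForm F U) (B₂ : LinearMap.BilinForm F W) (b : Module.Basis ι F U) (c : Module.Basis κ F W) :
    LinearMap.BilinForm.toMatrix (b.tensorProduct c) (B₁.tmul B₂) =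
      Matrix.kroneckerMap (fun x y => x * y) (LinearMap.BilinForm.toMatrix b B₁) (LinearMap.BilinForm.toMatrix c B₂) := by
  ext i j
  obtain ⟨i1, i2⟩ := i
  obtain ⟨j1, j2⟩ := j
  rw [LinearMap.BilinForm.toMatrix_apply, Matrix.kroneckerMap_apply, LinearMap.BilinForm.toMatrix_apply,
    LinearMap.BilinForm.toMatrix_apply, Module.Basis.tensorProduct_apply, Module.Basis.tensorProduct_apply, tmul_pure]

omit [FiniteDimensional F U] [FiniteDimensional F W] in
theorem tmul_det {ι κ : Type*} [Fintype ι] [DecidableEq ι] [Fintype κ] [DecidableEq κ]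
    (B₁ : LinearMap.BilinForm F U) (B₂ : LinearMap.BilinForm F W) (b : Module.Basis ι F U) (c : Module.Basis κ F W) :
    (LinearMap.BilinForm.toMatrix (b.tensorProduct c) (B₁.tmul B₂)).det =
      (LinearMap.BilinForm.toMatrix b B₁).det ^ Fintype.card κ * (LinearMap.BilinForm.toMatrix c B₂).det ^ Fintype.card ι := by
  rw [tmul_matrix]
  exact Matrix.det_kronecker _ _

theorem tmul_nondeg {B₁ : LinearMap.BilinForm F U} {B₂ : LinearMap.BilinForm F W} (h₁ : B₁.Nondegenerate)
    (h₂ : B₂.Nondegenerate) : (B₁.tmul B₂).Nondegenerate := by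
  apply (LinearMap.BilinForm.nondegenerate_iff_det_ne_zero ((Module.finBasis F U).tensorProduct (Module.finBasis F W))).mpr
  rw [tmul_det]
  exact mul_ne_zero (pow_ne_zero _ (disc_ne_zero h₁ _)) (pow_ne_zero _ (disc_ne_zero h₂ _))

theorem tmul_finrank : Module.finrank F (U ⊗[F] W) = Module.finrank F U * Module.finrank F W :=
  Module.finrank_tensorProduct

/-- Lagrangian of a symplectic space -/
theorem exists_lagrangian {B : LinearMap.BilinForm F U} (hA : B.IsAlt) (hN : B.Nondegenerate) {k : ℕ}
    (hU : Module.finrank F U = 2 * k) :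
    ∃ L : Submodule F U, Module.finrank F L = k ∧ ∀ x ∈ L, ∀ y ∈ L, B x y = 0 := by
  obtain ⟨m, l, b, hb1, hb2, hb3, hb4⟩ := alt_basis _ B hA rfl
  have hl : l = 0 := by
    by_contra h0
    have h1 := hN.1 (b (Sum.inr ⟨0, by omega⟩)) (fun v => hb4 _ v)
    exact b.ne_zero _ h1
  subst hl
  have hc : Module.finrank F U = m + m := by
    rw [Module.finrank_eq_card_basis b]; simp
  have hm : m = k := by omega
  subst hm
  have hli : LinearIndependent F (fun i : Fin m => b (Sum.inl (Sum.inl i))) :=
    b.linearIndependent.comp _ (fun i j h => by simpa using h)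
  refine ⟨Submodule.span F (Set.range (fun i : Fin m => b (Sum.inl (Sum.inl i)))), ?_, ?_⟩
  · rw [finrank_span_eq_card hli, Fintype.card_fin]
  · intro x hx y hy
    induction hx using Submodule.span_induction with
    | mem x hx =>
      obtain ⟨i, rfl⟩ := hx
      induction hy using Submodule.span_induction with
      | mem y hy =>
        obtain ⟨j, rfl⟩ := hy
        exact hb2 i j
      | zero => exact map_zero _
      | add y y' _ _ h h' => rw [map_add, h, h', add_zero]
      | smul a y _ h => rw [map_smul, h, smul_zero]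
    | zero => rw [map_zero, LinearMap.zero_apply]
    | add x x' _ _ h h' => rw [map_add, LinearMap.add_apply, h, h', add_zero]
    | smul a x _ h => rw [map_smul, LinearMap.smul_apply, h, smul_zero]

theorem tensor_lagrangian {B₁ : LinearMap.BilinForm F U} (B₂ : LinearMap.BilinForm F W) {L : Submodule F U}
    (hL : ∀ x ∈ L, ∀ y ∈ L, B₁ x y = 0) :
    ∃ X : Submodule F (U ⊗[F] W), Module.finrank F X = Module.finrank F L * Module.finrank F W ∧
      ∀ x ∈ X, ∀ y ∈ X, (B₁.tmul B₂) x y = 0 := by
  let f : (L ⊗[F] W) →ₗ[F] (U ⊗[F] W) := LinearMap.rTensor W L.subtype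
  have hf : Function.Injective f := Module.Flat.rTensor_preserves_injective_linearMap _ L.injective_subtype
  refine ⟨LinearMap.range f, ?_, ?_⟩
  · rw [LinearMap.finrank_range_of_inj hf, Module.finrank_tensorProduct]
  · rintro _ ⟨x, rfl⟩ _ ⟨y, rfl⟩
    induction x using TensorProduct.induction_on with
    | zero => rw [map_zero, map_zero, LinearMap.zero_apply]
    | add x x' hx hx' => rw [map_add, map_add, LinearMap.add_apply, hx, hx', add_zero]
    | tmul a c =>
      induction y using TensorProduct.induction_on with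
      | zero => rw [map_zero, map_zero]
      | add y y' hy hy' => rw [map_add, map_add, hy, hy', add_zero]
      | tmul b d =>
        simp only [f]
        rw [LinearMap.rTensor_tmul, LinearMap.rTensor_tmul, tmul_pure, Submodule.subtype_apply,
          Submodule.subtype_apply, hL _ a.2 _ b.2, zero_mul]

end

end Cfsg.Agent.H5
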