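import Mathlib
import Cfsg.Agent.H5.OmegaGen2
set_option autoImplicit false

/-! The subgroup generated by one class of reflections. -/

namespace Cfsg.Agent.H5

open Matrix Cfsg

section cls

variable {F V : Type*} [Field F] [AddCommGroup V] [Module F V]

/-- group generated by the reflections of one class -/
def KG (Q : QuadraticForm F V) (c : F) : Subgroup (OG Q) :=
  Subgroup.closure {g | ∃ (v : V) (hv : Q v ≠ 0) (t : F), t ≠ 0 ∧ Q v = c * t ^ 2 ∧ g = refl hv}

variable {Q : QuadraticForm F V} {c : F}

theorem kg_mem {v : V} (hv : Q v ≠ 0) {t : F} (ht : t ≠ 0) (h : Q v = c * t ^ 2) : refl hv ∈ KG Q c :=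
  Subgroup.subset_closure ⟨v, hv, t, ht, h, rfl⟩

instance kg_normal : (KG Q c).Normal := by
  refine ⟨fun x hx g => ?_⟩
  induction hx using Subgroup.closure_induction with
  | mem x hx =>
    obtain ⟨v, hv, t, ht, h, rfl⟩ := hx
    have hv' : Q (g v) ≠ 0 := by rw [og_q]; exact hv
    rw [refl_conj g hv hv']
    exact kg_mem hv' ht (by rw [og_q, h])
  | one => simp
  | mul x y _ _ hx hy =>
    have : g * (x * y) * g⁻¹ = (g * x * g⁻¹) * (g * y * g⁻¹) := by group
    rw [this]; exact mul_mem hx hy
  | inv x _ hx =>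
    have : g * x⁻¹ * g⁻¹ = (g * x * g⁻¹)⁻¹ := by group
    rw [this]; exact inv_mem hx

theorem kg_eich {u w : V} (hu : Q u = 0) (huw : pB Q u w = 0) {t : F} (hc : c ≠ 0) (ht : t ≠ 0) (h : Q w = c * t ^ 2) :
    eich hu huw ∈ KG Q c := by
  have hw : Q w ≠ 0 := by rw [h]; exact mul_ne_zero hc (pow_ne_zero _ ht)
  have hq : Q (w - Q w • u) = Q w := by
    rw [q_sub, q_smul, hu, pr_smul, pB_symm, huw]; ring
  have hne : Q (w - Q w • u) ≠ 0 := by rw [hq]; exact hw
  rw [eich_eq_refl hu huw hw hne]
  exact mul_mem (kg_mem hne ht (by rw [hq, h])) (kg_mem hw ht h)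

/-- the vectors whose Siegel transformations lie in the group -/
def kgS (c : F) {u : V} (hu : Q u = 0) : Submodule F V where
  carrier := {w | pB Q u w = 0 ∧ ∀ (s : F) (h : pB Q u (s • w) = 0), eich hu h ∈ KG Q c}
  add_mem' := by
    rintro a b ⟨ha, ha'⟩ ⟨hb, hb'⟩
    refine ⟨by rw [pr_add, ha, hb, add_zero], fun s h => ?_⟩
    have h1 : pB Q u (s • a) = 0 := by rw [pr_smul, ha, mul_zero]
    have h2 : pB Q u (s • b) = 0 := by rw [pr_smul, hb, mul_zero]
    have h3 : pB Q u (s • a + s • b) = 0 := by rw [pr_add, h1, h2, add_zero]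
    have h4 : eich hu h = eich hu h3 := by congr 1; rw [smul_add]
    rw [h4, ← eich_mul hu h1 h2 h3]
    exact mul_mem (ha' s h1) (hb' s h2)
  zero_mem' := by
    refine ⟨map_zero _, fun s h => ?_⟩
    have : eich hu h = 1 := by
      apply og_ext
      intro x
      rw [eich_apply, smul_zero, q_zero, og_one]; simp
    rw [this]; exact one_mem _
  smul_mem' := by
    rintro a b ⟨hb, hb'⟩
    refine ⟨by rw [pr_smul, hb, mul_zero], fun s h => ?_⟩
    have h1 : pB Q u ((s * a) • b) = 0 := by rw [pr_smul, hb, mul_zero]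
    have h4 : eich hu h = eich hu h1 := by congr 1; rw [smul_smul]
    rw [h4]
    exact hb' _ h1

theorem kgS_self {u : V} (hu : Q u = 0) : u ∈ kgS c hu := by
  have huu : pB Q u u = 0 := by rw [pB_self, hu, mul_zero]
  refine ⟨huu, fun s h => ?_⟩
  have : eich hu h = 1 := by
    apply og_ext
    intro x
    rw [eich_apply, q_smul, hu, og_one, pl_smul, smul_smul]
    module
  rw [this]; exact one_mem _

theorem kgS_cls {u w : V} (hu : Q u = 0) (huw : pB Q u w = 0) {t : F} (hc : c ≠ 0) (ht : t ≠ 0) (h : Q w = c * t ^ 2) :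
    w ∈ kgS c hu := by
  refine ⟨huw, fun s hs => ?_⟩
  by_cases h0 : s = 0
  · subst h0
    have : eich hu hs = 1 := by
      apply og_ext
      intro x
      rw [eich_apply, zero_smul, q_zero, og_one]; simp
    rw [this]; exact one_mem _
  · exact kg_eich hu hs hc (t := s * t) (mul_ne_zero h0 ht) (by rw [q_smul, h]; ring)

variable [Finite F] [FiniteDimensional F V]

theorem kgS_top (h2 : (2 : F) ≠ 0) (hnd : ND Q) (hn : 4 ≤ Module.finrank F V) (hc : c ≠ 0)
    (hex : Module.finrank F V = 4 → 5 ≤ Nat.card F) {u : V} (hu0 : u ≠ 0) (hu : Q u = 0) {w : V}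
    (huw : pB Q u w = 0) : w ∈ kgS c hu := by
  obtain ⟨v, hv, huv⟩ := exists_partner hnd hu0 hu
  have huu : pB Q u u = 0 := by rw [pB_self, hu, mul_zero]
  have hvu : pB Q v u = 1 := by rw [pB_symm, huv]
  have hW := (hyp_nds hu hv huv).oc hnd
  have hfr := finrank_oc hnd (Submodule.span F {u, v})
  rw [finrank_pair (indep_sing hu hv (by rw [huv]; exact one_ne_zero))] at hfr
  -- it suffices to treat the complement
  suffices h : ∀ z : ↥(oc Q (Submodule.span F {u, v})), (z : V) ∈ kgS c hu by
    have hw' : w - pB Q v w • u ∈ oc Q (Submodule.span F {u, v}) := by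
      rw [mem_oc_pair]
      constructor
      · rw [pr_sub, pr_smul, huw, huu]; ring
      · rw [pr_sub, pr_smul, hvu]; ring
    have h1 := h ⟨_, hw'⟩
    have h3 := add_mem h1 (Submodule.smul_mem _ (pB Q v w) (kgS_self (c := c) hu))
    simp only [sub_add_cancel] at h3
    exact h3
  have hperp : ∀ z : ↥(oc Q (Submodule.span F {u, v})), pB Q u (z : V) = 0 := fun z => (mem_oc_pair.mp z.2).1
  have hcls : ∀ z : ↥(oc Q (Submodule.span F {u, v})), resQ Q _ z = c → (z : V) ∈ kgS c hu := by
    intro z hz
    exact kgS_cls hu (hperp z) hc one_ne_zero (by rw [one_pow, mul_one]; exact hz)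
  by_cases h5 : 5 ≤ Module.finrank F V
  · -- complement of dimension at least three
    have hns : ∀ z : ↥(oc Q (Submodule.span F {u, v})), resQ Q _ z ≠ 0 → (z : V) ∈ kgS c hu := by
      intro z hz
      have h1 := (nds_span_iff h2 hz).oc hW.nd
      have hz0 : z ≠ 0 := by rintro rfl; exact hz (q_zero _)
      have h3 := finrank_oc hW.nd (Submodule.span F {z})
      rw [finrank_span_singleton hz0] at h3
      obtain ⟨y, hy⟩ := exists_val h2 h1.nd (by omega) (c - resQ Q _ z * 2⁻¹ * 2⁻¹)
      have hyz : pB (resQ Q (oc Q (Submodule.span F {u, v}))) z y = 0 :=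
        y.2 z (Submodule.mem_span_singleton_self z)
      have hy' : resQ Q (oc Q (Submodule.span F {u, v})) (y : ↥(oc Q (Submodule.span F {u, v}))) =
        c - resQ Q _ z * 2⁻¹ * 2⁻¹ := hy
      have h4 : ((2 : F)⁻¹ • z + (y : ↥(oc Q (Submodule.span F {u, v})))) ∈ Set.univ := trivial
      have e1 := hcls ((2 : F)⁻¹ • z + y) (by
        rw [q_add, q_smul, pl_smul, hyz, hy']; ring)
      have e2 := hcls ((-(2 : F)⁻¹) • z + y) (by
        rw [q_add, q_smul, pl_smul, hyz, hy']; ring)
      have e3 := sub_mem e1 e2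
      have e4 : ((((2 : F)⁻¹ • z + y : ↥(oc Q (Submodule.span F {u, v})))) : V) -
          (((-(2 : F)⁻¹) • z + y : ↥(oc Q (Submodule.span F {u, v})))) = (z : V) := by
        rw [← Submodule.coe_sub]
        congr 1
        have : ((2 : F)⁻¹ + 2⁻¹) = 1 := by rw [← two_mul, mul_inv_cancel₀ h2]
        calc ((2 : F)⁻¹ • z + (y : ↥(oc Q (Submodule.span F {u, v})))) - ((-(2 : F)⁻¹) • z + y) = ((2 : F)⁻¹ + 2⁻¹) • z := by module
          _ = z := by rw [this, one_smul]
      rwa [e4] at e3
    intro z
    by_cases hz : resQ Q _ z = 0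
    · obtain ⟨y, hy, hzy, _⟩ : ∃ y : ↥(oc Q (Submodule.span F {u, v})), resQ Q _ y ≠ 0 ∧
          pB (resQ Q (oc Q (Submodule.span F {u, v}))) z y = 0 ∧ True := by
        have h3 := finrank_oc hW.nd (Submodule.span F {z})
        have h4 : Module.finrank F (Submodule.span F {z}) ≤ 1 := by
          have := finrank_span_finset_le_card (R := F) ({z} : Finset ↥(oc Q (Submodule.span F {u, v})))
          rw [Finset.card_singleton, Finset.coe_singleton] at this
          exact this
        obtain ⟨y, hy, hy'⟩ := exists_ns hW.nd (W := oc (resQ Q _) (Submodule.span F {z})) (by omega)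
        exact ⟨y, hy', hy z (Submodule.mem_span_singleton_self z), trivial⟩
      have e1 := hns (z + y) (by rw [q_add, hz, hzy]; simpa using hy)
      have e2 := hns y hy
      have e3 := sub_mem e1 e2
      have e4 : (((z + y : ↥(oc Q (Submodule.span F {u, v}))) : V) - (y : V)) = (z : V) := by
        rw [← Submodule.coe_sub]
        congr 1
        abel
      rwa [e4] at e3
    · exact hns z hz
  · have hn4 : Module.finrank F V = 4 := by omega
    have hq5 := hex hn4
    intro z
    obtain ⟨w1, hw1⟩ := exists_val h2 hW.nd (by omega) c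
    have m1 := hcls w1 hw1
    -- vectors not orthogonal to w1
    have hkey : ∀ y : ↥(oc Q (Submodule.span F {u, v})), resQ Q _ y ≠ 0 →
        pB (resQ Q (oc Q (Submodule.span F {u, v}))) y w1 ≠ 0 → (y : V) ∈ kgS c hu := by
      intro y hy hyw
      have e1 := hcls (refl hy w1) (by rw [og_q, hw1])
      have e3 := sub_mem m1 e1
      have e4 : ((w1 : V) - ((refl hy w1 : ↥(oc Q (Submodule.span F {u, v}))) : V)) =
          ((resQ Q _ y)⁻¹ * pB (resQ Q (oc Q (Submodule.span F {u, v}))) y w1) • (y : V) := by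
        rw [← Submodule.coe_sub, refl_apply, ← Submodule.coe_smul]
        congr 1
        abel
      rw [e4] at e3
      have hne : (resQ Q _ y)⁻¹ * pB (resQ Q (oc Q (Submodule.span F {u, v}))) y w1 ≠ 0 :=
        mul_ne_zero (inv_ne_zero hy) hyw
      exact (Submodule.smul_mem_iff _ hne).mp e3
    obtain ⟨p, hp⟩ : ∃ p, p = pB (resQ Q (oc Q (Submodule.span F {u, v}))) z w1 := ⟨_, rfl⟩
    obtain ⟨a, ha⟩ : ∃ a, a = resQ Q (oc Q (Submodule.span F {u, v})) z := ⟨_, rfl⟩
    obtain ⟨t, ht⟩ : ∃ t : F, (Polynomial.eval t ((Polynomial.C (2 * c) * Polynomial.X + Polynomial.C p) *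
        (Polynomial.C c * Polynomial.X ^ 2 + Polynomial.C p * Polynomial.X + Polynomial.C a))) ≠ 0 := by
      have hne1 : (Polynomial.C (2 * c) * Polynomial.X + Polynomial.C p) ≠ 0 := by
        intro h
        have := congrArg (fun f => Polynomial.coeff f 1) h
        simp at this
        rcases this with h | h
        · exact h2 h
        · exact hc h
      have hne2 : (Polynomial.C c * Polynomial.X ^ 2 + Polynomial.C p * Polynomial.X + Polynomial.C a) ≠ 0 := by
        intro h
        have := congrArg (fun f => Polynomial.coeff f 2) h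
        simp [Polynomial.coeff_X, Polynomial.coeff_C] at this
        exact hc this
      apply Polynomial.exists_eval_ne_zero_of_natDegree_lt_card _ (mul_ne_zero hne1 hne2)
      have hd : ((Polynomial.C (2 * c) * Polynomial.X + Polynomial.C p) *
        (Polynomial.C c * Polynomial.X ^ 2 + Polynomial.C p * Polynomial.X + Polynomial.C a)).natDegree ≤ 3 := by
        compute_degree
      haveI := Fintype.ofFinite F
      rw [Cardinal.mk_fintype, ← Nat.card_eq_fintype_card]
      exact_mod_cast (by omega : _ < Nat.card F)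
    simp only [Polynomial.eval_mul, Polynomial.eval_add, Polynomial.eval_C, Polynomial.eval_X, Polynomial.eval_pow] at ht
    have ht1 := left_ne_zero_of_mul ht
    have ht2 := right_ne_zero_of_mul ht
    have e1 := hkey (z + t • w1) (by
      rw [q_add, q_smul, pr_smul, ← hp, hw1, ← ha]
      intro h; apply ht2; linear_combination h) (by
      rw [pl_add, pl_smul, ← hp, pB_self, hw1]
      intro h; apply ht1; linear_combination h)
    have e3 := sub_mem e1 (Submodule.smul_mem _ t m1)
    have e4 : (((z + t • w1 : ↥(oc Q (Submodule.span F {u, v}))) : V) - t • (w1 : V)) = (z : V) := by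
      rw [← Submodule.coe_smul, ← Submodule.coe_sub]
      congr 1
      abel
    rwa [e4] at e3

theorem eg_le_kg (h2 : (2 : F) ≠ 0) (hnd : ND Q) (hn : 4 ≤ Module.finrank F V) (hc : c ≠ 0)
    (hex : Module.finrank F V = 4 → 5 ≤ Nat.card F) : EG Q ≤ KG Q c := by
  rw [EG, Subgroup.closure_le]
  rintro _ ⟨u, w, hu, huw, rfl⟩
  by_cases hu0 : u = 0
  · subst hu0
    have : eich hu huw = 1 := by
      apply og_ext
      intro x
      rw [eich_apply, og_one]; simp
    rw [this]; exact one_mem _
  · have h1 := (kgS_top h2 hnd hn hc hex hu0 hu huw).2 1 (by rw [one_smul]; exact huw)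
    have h3 : ∀ h : pB Q u ((1 : F) • w) = 0, eich hu h = eich hu huw := fun h => by
      congr 1; rw [one_smul]
    rwa [h3] at h1

/-- two reflections of the other class -/
theorem pair_mem_big (h2 : (2 : F) ≠ 0) (hnd : ND Q) (hn : 4 ≤ Module.finrank F V) (hc : c ≠ 0)
    (hex : Module.finrank F V = 4 → 5 ≤ Nat.card F) {x y : V} (hx : Q x ≠ 0) (hy : Q y ≠ 0)
    (hxy : IsSquare (Q x * Q y)) : refl hx * refl hy ∈ KG Q c := by
  obtain ⟨e, he0, he⟩ := exists_sing hnd (by omega)
  obtain ⟨f, hf, hef⟩ := exists_partner hnd he0 he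
  have hW := (hyp_nds he hf hef).oc hnd
  have hfr := finrank_oc hnd (Submodule.span F {e, f})
  rw [finrank_pair (indep_sing he hf (by rw [hef]; exact one_ne_zero))] at hfr
  obtain ⟨w, hw⟩ := exists_ne_q hW.nd (by omega)
  obtain ⟨hew, hfw⟩ := mem_oc_pair.mp w.2
  have hrg : RG Q = ⊤ := by
    rw [eq_top_iff]
    intro g _
    exact rg_odd h2 hnd g
  have h1 := comm_le_eg hrg he hf hef hew hfw hw
  apply eg_le_kg h2 hnd hn hc hex
  apply h1
  rw [← Abelianization.ker_of, MonoidHom.mem_ker, map_mul, ab_refl_eq hnd hx hy hxy, ab_refl_sq]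

/-! dimension two -/

theorem dim2_invol (h2 : (2 : F) ≠ 0) (hnd : ND Q) (hn : Module.finrank F V = 2) {g : OG Q} (hg : g ∉ DG Q) :
    g * g = 1 := by
  -- g fixes a nonzero vector
  have hpar : Odd (Module.finrank F (fixS g) + Module.finrank F V) := by
    rcases rg_dg g (rg_odd h2 hnd g) with h | h
    · exact absurd h hg
    · obtain ⟨v, hv⟩ := exists_ne_q hnd (by omega)
      have h1 := dg_parity hnd (h v hv)
      have h3 := fixS_refl hnd hv g
      rw [Nat.even_iff] at h1
      rw [Nat.odd_iff]
      omega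
  have hpos : 0 < Module.finrank F (fixS g) := by
    rw [hn] at hpar
    obtain ⟨k, hk⟩ := hpar
    omega
  obtain ⟨⟨v, hv⟩, hv0⟩ := (Module.finrank_pos_iff_exists_ne_zero (R := F)).mp hpos
  have hv0' : v ≠ 0 := fun h => hv0 (Subtype.ext h)
  have hgv : g v = v := (mem_fixS g v).mp hv
  have hfix1 : g = 1 → False := by
    rintro rfl
    exact hg (one_mem _)
  by_cases hq : Q v = 0
  · exfalso
    apply hfix1
    obtain ⟨w, hw, hvw⟩ := exists_partner hnd hv0' hq
    have hvv : pB Q v v = 0 := by rw [pB_self, hq, mul_zero]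
    have hww : pB Q w w = 0 := by rw [pB_self, hw, mul_zero]
    have hspan : ∀ x : V, x = pB Q w x • v + pB Q v x • w := by
      intro x
      have hnds := hyp_nds hq hw hvw
      have h1 := finrank_oc hnd (Submodule.span F {v, w})
      rw [finrank_pair (indep_sing hq hw (by rw [hvw]; exact one_ne_zero)), hn] at h1
      have h3 : oc Q (Submodule.span F {v, w}) = ⊥ := Submodule.finrank_eq_zero.mp (by omega)
      have h4 : x - pB Q w x • v - pB Q v x • w ∈ oc Q (Submodule.span F {v, w}) := by
        rw [mem_oc_pair]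
        constructor
        · rw [pr_sub, pr_sub, pr_smul, pr_smul, hvv, hvw]; ring
        · rw [pr_sub, pr_sub, pr_smul, pr_smul, hww, pB_symm Q w v, hvw]; ring
      rw [h3, Submodule.mem_bot] at h4
      rw [← sub_eq_zero, ← h4]; abel
    have hgw : g w = w := by
      have h1 : pB Q v (g w) = 1 := by
        conv_lhs => rw [← hgv]
        rw [og_p, hvw]
      have h3 := og_q g w
      have h4 := hspan (g w)
      rw [h1, one_smul] at h4
      rw [hw, h4, q_add, q_smul, hq, hw, pl_smul, hvw] at h3
      have h5 : pB Q w (g w) = 0 := by linear_combination h3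
      rw [h4, h5, zero_smul, zero_add]
    apply og_ext
    intro x
    rw [hspan x, og_add, og_smul, og_smul, hgv, hgw, og_one]
  · obtain ⟨d, hd0, hd⟩ := exists_orth (Q := Q) (by omega : 2 ≤ Module.finrank F V) v
    have hgd : pB Q v (g d) = 0 := by
      conv_lhs => rw [← hgv]
      rw [og_p, hd]
    obtain ⟨t, ht⟩ := aniso_line hnd hn hv0' hd0 hd hgd
    have hspan : ∀ x : V, ∃ a b : F, x = a • v + b • d := by
      intro x
      have h1 : pB Q v (x - (pB Q v x * (2 * Q v)⁻¹) • v) = 0 := by
        rw [pr_sub, pr_smul, pB_self]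
        have : (2 : F) * Q v ≠ 0 := mul_ne_zero h2 hq
        field_simp; ring
      obtain ⟨b, hb⟩ := aniso_line hnd hn hv0' hd0 hd h1
      exact ⟨pB Q v x * (2 * Q v)⁻¹, b, by rw [← hb]; abel⟩
    have hQd : Q d ≠ 0 := by
      intro h
      apply hd0
      apply hnd
      intro y
      obtain ⟨a, b, rfl⟩ := hspan y
      rw [pr_add, pr_smul, pr_smul, pB_symm Q d v, hd, pB_self, h]; ring
    have htt : t * t = 1 := by
      have h1 := og_q g d
      rw [ht, q_smul] at h1
      have : (t * t - 1) * Q d = 0 := by linear_combination h1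
      have := (mul_eq_zero.mp this).resolve_right hQd
      linear_combination this
    apply og_ext
    intro x
    obtain ⟨a, b, rfl⟩ := hspan x
    rw [og_mul, og_add, og_smul, og_smul, hgv, ht, og_add, og_smul, og_smul, og_smul, hgv, ht, og_one,
      smul_smul t t, htt, one_smul]

theorem pair_mem_small (h2 : (2 : F) ≠ 0) (hnd : ND Q) (hn : Module.finrank F V = 2) (hc : c ≠ 0)
    {x y : V} (hx : Q x ≠ 0) (hy : Q y ≠ 0) (hxy : IsSquare (Q x * Q y)) : refl hx * refl hy ∈ KG Q c := by
  obtain ⟨w, hw⟩ := exists_val h2 hnd (by omega) c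
  have hw' : Q w ≠ 0 := by rw [hw]; exact hc
  -- squares of even elements
  have hsq : ∀ ρ : OG Q, ρ ∈ DG Q → ρ * ρ ∈ KG Q c := by
    intro ρ hρ
    have h1 : refl hw' * ρ ∉ DG Q := by
      intro h
      exact refl_notMem_dg hnd hw' (by
        have := mul_mem h (inv_mem hρ)
        rwa [mul_inv_cancel_right] at this)
    have h3 := dim2_invol h2 hnd hn h1
    have h4 : Q (ρ w) ≠ 0 := by rw [og_q]; exact hw'
    have h5 : ρ * ρ = refl h4 * refl hw' := by
      rw [← refl_conj ρ hw' h4]
      have h6 : ρ⁻¹ * refl hw' = refl hw' * ρ := by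
        have h7 : (refl hw' * ρ)⁻¹ = refl hw' * ρ := inv_eq_of_mul_eq_one_left h3
        rw [_root_.mul_inv_rev, refl_inv] at h7
        exact h7
      rw [mul_assoc, h6, mul_assoc, ← mul_assoc (refl hw'), refl_mul_self, one_mul]
    rw [h5]
    exact mul_mem (kg_mem h4 one_ne_zero (by rw [og_q, hw]; ring)) (kg_mem hw' one_ne_zero (by rw [hw]; ring))
  obtain ⟨g, hg⟩ := refl_conj_of_sq hnd hx hy hxy
  -- wlog g even
  have key : ∀ g : OG Q, g ∈ DG Q → refl hx = g * refl hy * g⁻¹ → refl hx * refl hy ∈ KG Q c := by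
    intro g hgD hg
    have h1 : refl hy * g ∉ DG Q := by
      intro h
      exact refl_notMem_dg hnd hy (by
        have := mul_mem h (inv_mem hgD)
        rwa [mul_inv_cancel_right] at this)
    have h3 := dim2_invol h2 hnd hn h1
    have h6 : g⁻¹ * refl hy = refl hy * g := by
      have h7 : (refl hy * g)⁻¹ = refl hy * g := inv_eq_of_mul_eq_one_left h3
      rw [_root_.mul_inv_rev, refl_inv] at h7
      exact h7
    have h5 : refl hx * refl hy = g * g := by
      rw [hg, mul_assoc, h6, mul_assoc, ← mul_assoc (refl hy), refl_mul_self, one_mul]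
    rw [h5]
    exact hsq g hgD
  rcases rg_dg g (rg_odd h2 hnd g) with h | h
  · exact key g h hg
  · have h1 : g * refl hy ∈ DG Q := by
      have h3 := h y hy
      -- (r g) ∈ DG and DG is normal
      have h4 : g * refl hy = (refl hy)⁻¹ * (refl hy * g) * refl hy := by group
      haveI := Subgroup.normal_of_index_eq_two (dg_index hnd (by
        rw [eq_top_iff]; intro g _; exact rg_odd h2 hnd g) hy)
      have h5 := this.conj_mem _ h3 (refl hy)⁻¹
      rw [inv_inv] at h5
      rwa [h4]
    apply key (g * refl hy) h1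
    rw [_root_.mul_inv_rev, refl_inv, hg]
    simp only [mul_assoc]
    rw [← mul_assoc (refl hy) (refl hy) g⁻¹, refl_mul_self, one_mul]

variable [Finite V]

theorem kg_index (h2 : (2 : F) ≠ 0) (hnd : ND Q) (hn : 2 ≤ Module.finrank F V) (hc : c ≠ 0)
    (hpair : ∀ {x y : V} (hx : Q x ≠ 0) (hy : Q y ≠ 0), IsSquare (Q x * Q y) → refl hx * refl hy ∈ KG Q c) :
    (KG Q c).index = 2 := by
  obtain ⟨d, hd⟩ := exists_nonsq (F := F) h2
  have hd0 : d ≠ 0 := by rintro rfl; exact hd IsSquare.zero
  obtain ⟨b, hb⟩ := exists_val h2 hnd hn (c * d)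
  have hb' : Q b ≠ 0 := by rw [hb]; exact mul_ne_zero hc hd0
  have hcd : ¬ IsSquare (c * (c * d)) := by
    rw [← mul_assoc]
    exact sq_mul_nonsq ⟨c, rfl⟩ (mul_ne_zero hc hc) hd
  -- character
  have hψb : psi Q (c * d) (refl hb') = -1 := (psi_refl h2 _ (mul_ne_zero hc hd0) hb').1 ⟨c * d, by rw [hb]⟩
  have hle : KG Q c ≤ (psi Q (c * d)).ker := by
    rw [KG, Subgroup.closure_le]
    rintro _ ⟨v, hv, t, ht, h, rfl⟩
    rw [SetLike.mem_coe, MonoidHom.mem_ker]
    apply (psi_refl h2 _ (mul_ne_zero hc hd0) hv).2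
    rintro ⟨s, hs⟩
    apply hcd
    refine ⟨s / t, ?_⟩
    rw [h] at hs
    field_simp
    linear_combination hs
  have hmain : ∀ g : OG Q, g ∈ KG Q c ∨ refl hb' * g ∈ KG Q c := by
    intro g
    have hstep : ∀ (x : V) (hx : Q x ≠ 0), refl hx ∈ KG Q c ∨ refl hb' * refl hx ∈ KG Q c := by
      intro x hx
      by_cases h : IsSquare (c * Q x)
      · left
        obtain ⟨s, hs⟩ := h
        have hs0 : s ≠ 0 := by
          rintro rfl
          rw [mul_zero] at hs
          exact (mul_ne_zero hc hx) hs
        exact kg_mem hx (t := s / c) (div_ne_zero hs0 hc) (by field_simp; linear_combination hs)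
      · right
        apply hpair hb' hx
        rw [hb]
        have h1 := nonsq_mul h2 hd h
        have h3 : c * d * Q x = d * (c * Q x) := by ring
        rwa [h3]
    have hg := rg_odd h2 hnd g
    have hbn : ∀ k : OG Q, k ∈ KG Q c → refl hb' * k * refl hb' ∈ KG Q c := by
      intro k hk
      have := kg_normal.conj_mem k hk (refl hb')
      rwa [refl_inv] at this
    induction hg using Subgroup.closure_induction_left with
    | one => left; exact one_mem _
    | mul_left x hx y hy ih =>
      obtain ⟨u, hu, rfl⟩ := hx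
      rcases hstep u hu with h | h <;> rcases ih with h' | h'
      · left; exact mul_mem h h'
      · right
        have : refl hb' * (refl hu * y) = (refl hb' * refl hu * refl hb') * (refl hb' * y) := by
          simp only [mul_assoc]
          rw [← mul_assoc (refl hb') (refl hb') y, refl_mul_self, one_mul]
        rw [this]; exact mul_mem (hbn _ h) h'
      · right
        rw [← mul_assoc]; exact mul_mem h h'
      · left
        have : refl hu * y = (refl hb' * (refl hb' * refl hu) * refl hb') * (refl hb' * y) := by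
          simp only [mul_assoc]
          rw [← mul_assoc (refl hb') (refl hb') y, refl_mul_self, one_mul, ← mul_assoc (refl hb') (refl hb'),
            refl_mul_self, one_mul]
        rw [this]; exact mul_mem (hbn _ h) h'
    | inv_mul_cancel x hx y hy ih =>
      obtain ⟨u, hu, rfl⟩ := hx
      rw [refl_inv]
      rcases hstep u hu with h | h <;> rcases ih with h' | h'
      · left; exact mul_mem h h'
      · right
        have : refl hb' * (refl hu * y) = (refl hb' * refl hu * refl hb') * (refl hb' * y) := by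
          simp only [mul_assoc]
          rw [← mul_assoc (refl hb') (refl hb') y, refl_mul_self, one_mul]
        rw [this]; exact mul_mem (hbn _ h) h'
      · right
        rw [← mul_assoc]; exact mul_mem h h'
      · left
        have : refl hu * y = (refl hb' * (refl hb' * refl hu) * refl hb') * (refl hb' * y) := by
          simp only [mul_assoc]
          rw [← mul_assoc (refl hb') (refl hb') y, refl_mul_self, one_mul, ← mul_assoc (refl hb') (refl hb'),
            refl_mul_self, one_mul]
        rw [this]; exact mul_mem (hbn _ h) h'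
  have heq : KG Q c = (psi Q (c * d)).ker := by
    apply le_antisymm hle
    intro g hg
    rcases hmain g with h | h
    · exact h
    · exfalso
      have h1 := hle h
      rw [MonoidHom.mem_ker, map_mul, hψb, (MonoidHom.mem_ker).mp hg] at h1
      exact absurd h1 (by decide)
  rw [heq, Subgroup.index_ker]
  have hsurj : Function.Surjective (psi Q (c * d)) := by
    intro x
    rcases Int.units_eq_one_or x with rfl | rfl
    · exact ⟨1, map_one _⟩
    · exact ⟨_, hψb⟩
  rw [MonoidHom.range_eq_top.mpr hsurj]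
  have : Nat.card (⊤ : Subgroup ℤˣ) = Nat.card ℤˣ := Subgroup.card_top
  rw [this, Nat.card_eq_fintype_card, Fintype.card_units_int]

end cls

end Cfsg.Agent.H5
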