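import Mathlib
import Cfsg.Agent.H5.PSU32
import Cfsg.Agent.H5.LinBasic

set_option autoImplicit false

/-! Elements of `PSL₃(4)`. -/

namespace Cfsg.Agent.H5

open Matrix Polynomial

section
variable {F : Type*} [Field F] [Fintype F]

local notation "SL₃" => Matrix.SpecialLinearGroup (Fin 3) F
local notation "M₃" => Matrix (Fin 3) (Fin 3) F
local notation "PG" => Matrix.ProjectiveSpecialLinearGroup (Fin 3) F

theorem multiset2 {K : Type*} {y z b c : K} (h : ({y, z} : Multiset K) = {b, c}) : (y = b ∧ z = c) ∨ (y = c ∧ z = b) := by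
  have hy : y ∈ ({b, c} : Multiset K) := by rw [← h]; simp
  simp only [Multiset.insert_eq_cons, Multiset.mem_cons, Multiset.mem_singleton] at hy
  rcases hy with rfl | rfl
  · left
    simp only [Multiset.insert_eq_cons, Multiset.cons_inj_right, Multiset.singleton_inj] at h
    exact ⟨rfl, h⟩
  · right
    rw [show ({b, y} : Multiset K) = {y, b} from Multiset.pair_comm b y] at h
    simp only [Multiset.insert_eq_cons, Multiset.cons_inj_right, Multiset.singleton_inj] at h
    exact ⟨rfl, h⟩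

theorem multiset3 {K : Type*} {x y z a b c : K} (h : ({x, y, z} : Multiset K) = {a, b, c}) :
    (x = a ∧ ((y = b ∧ z = c) ∨ (y = c ∧ z = b))) ∨ (x = b ∧ ((y = a ∧ z = c) ∨ (y = c ∧ z = a))) ∨
    (x = c ∧ ((y = a ∧ z = b) ∨ (y = b ∧ z = a))) := by
  have hx : x ∈ ({a, b, c} : Multiset K) := by rw [← h]; simp
  simp only [Multiset.insert_eq_cons, Multiset.mem_cons, Multiset.mem_singleton] at hx
  rcases hx with rfl | rfl | rfl
  · left
    simp only [Multiset.insert_eq_cons, Multiset.cons_inj_right] at h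
    exact ⟨rfl, multiset2 h⟩
  · right; left
    rw [show ({a, x, c} : Multiset K) = {x, a, c} by
      simp only [Multiset.insert_eq_cons]; exact Multiset.cons_swap _ _ _] at h
    simp only [Multiset.insert_eq_cons, Multiset.cons_inj_right] at h
    exact ⟨rfl, multiset2 h⟩
  · right; right
    rw [show ({a, b, x} : Multiset K) = {x, a, b} by
      rw [show ({a, b, x} : Multiset K) = {a, x, b} by
        simp only [Multiset.insert_eq_cons]; congr 1; exact Multiset.pair_comm b x]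
      simp only [Multiset.insert_eq_cons]; exact Multiset.cons_swap _ _ _] at h
    simp only [Multiset.insert_eq_cons, Multiset.cons_inj_right] at h
    exact ⟨rfl, multiset2 h⟩

theorem frob4 {K : Type*} [Field K] [CharP K 2] : ∃ φ : K →+* K, ∀ x, φ x = x ^ 4 := by
  haveI : Fact (Nat.Prime 2) := ⟨Nat.prime_two⟩
  refine ⟨iterateFrobenius K 2 2, fun x => ?_⟩
  rw [iterateFrobenius_def]
  norm_num

/-- eigenvalues in dimension three over the field with four elements -/
theorem eig3 (hF : Fintype.card F = 4) (T : SL₃) {K : Type*} [Field K] [IsAlgClosed K] (ι : F →+* K) :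
    ∃ (n : ℕ) (c : K), (n = 3 ∨ n = 5 ∨ n = 63) ∧ ∀ l ∈ ((T : M₃).map ι).charpoly.roots, l ^ n = c := by
  have h2 := two_eq_zero_of_card_four hF
  have h2K : (2 : K) = 0 := by
    have := congrArg ι h2
    rwa [map_ofNat, map_zero] at this
  haveI : CharP K 2 := CharTwo.of_one_ne_zero_of_two_eq_zero one_ne_zero h2K
  obtain ⟨φ, hφ⟩ := frob4 (K := K)
  set M := (T : M₃).map ι with hM
  have hdet : M.det = 1 := by
    have h1 : (ι.mapMatrix (T : M₃)).det = 1 := by rw [← RingHom.map_det, T.2, map_one]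
    exact h1
  have hchar : M.charpoly = (T : M₃).charpoly.map ι := by
    have := Matrix.charpoly_map (T : M₃) ι
    exact this
  have hsp : M.charpoly.Splits := IsAlgClosed.splits _
  have hcard : M.charpoly.roots.card = 3 := by
    rw [← hsp.natDegree_eq_card_roots, Matrix.charpoly_natDegree_eq_dim, Fintype.card_fin]
  obtain ⟨a, b, c, hr⟩ := Multiset.card_eq_three.1 hcard
  have hprod : a * b * c = 1 := by
    have h1 := Matrix.det_eq_prod_roots_charpoly M
    rw [hdet, hr] at h1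
    simp only [Multiset.insert_eq_cons, Multiset.prod_cons, Multiset.prod_singleton] at h1
    rw [mul_assoc]; exact h1.symm
  have hmapφ : M.charpoly.map φ = M.charpoly := by
    rw [hchar, Polynomial.map_map]
    congr 1
    ext x
    rw [RingHom.comp_apply, hφ, ← map_pow, ← hF, FiniteField.pow_card]
  have hroots : ({a ^ 4, b ^ 4, c ^ 4} : Multiset K) = {a, b, c} := by
    have h1 : (M.charpoly.map φ).roots = M.charpoly.roots.map φ := hsp.roots_map φ
    rw [hmapφ, hr] at h1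
    simp only [Multiset.insert_eq_cons, Multiset.map_cons, Multiset.map_singleton, hφ] at h1
    exact h1.symm
  rw [hr]
  have ha0 : a ≠ 0 := by rintro rfl; simp at hprod
  have hb0 : b ≠ 0 := by rintro rfl; simp at hprod
  have hc0 : c ≠ 0 := by rintro rfl; simp at hprod
  have hcube : ∀ x : K, x ≠ 0 → x ^ 4 = x → x ^ 3 = 1 := by
    intro x hx h
    apply mul_left_cancel₀ hx
    rw [mul_one]
    nth_rewrite 3 [← h]
    ring
  have h63 : ∀ x y z : K, x ≠ 0 → x ^ 4 = y → y ^ 4 = z → z ^ 4 = x → x ^ 63 = 1 := by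
    intro x y z hx h1 h2 h3
    apply mul_left_cancel₀ hx
    rw [mul_one]
    nth_rewrite 3 [← h3]
    rw [← h2, ← h1]
    ring
  have hmem : ∀ (n : ℕ) (d : K), a ^ n = d → b ^ n = d → c ^ n = d → ∀ l ∈ ({a, b, c} : Multiset K), l ^ n = d := by
    intro n d h1 h2 h3 l hl
    simp only [Multiset.insert_eq_cons, Multiset.mem_cons, Multiset.mem_singleton] at hl
    rcases hl with rfl | rfl | rfl
    · exact h1
    · exact h2
    · exact h3
  have h5 : ∀ x y z : K, x ≠ 0 → x ^ 4 = x → y ^ 4 = z → z ^ 4 = y → x * y * z = 1 → x ^ 5 = x ^ 2 ∧ y ^ 5 = x ^ 2 ∧ z ^ 5 = x ^ 2 := by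
    intro x y z hx h1 h2 h3 h4
    have hx3 := hcube x hx h1
    have hyz : y * z = x ^ 2 := by
      apply mul_left_cancel₀ hx
      linear_combination h4 - hx3
    refine ⟨by linear_combination x ^ 2 * hx3, ?_, ?_⟩
    · linear_combination y * h2 + hyz
    · linear_combination z * h3 + hyz
  rcases multiset3 hroots with ⟨e1, ⟨e2, e3⟩ | ⟨e2, e3⟩⟩ | ⟨e1, ⟨e2, e3⟩ | ⟨e2, e3⟩⟩ | ⟨e1, ⟨e2, e3⟩ | ⟨e2, e3⟩⟩
  · exact ⟨3, 1, Or.inl rfl, hmem 3 1 (hcube a ha0 e1) (hcube b hb0 e2) (hcube c hc0 e3)⟩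
  · obtain ⟨q1, q2, q3⟩ := h5 a b c ha0 e1 e2 e3 hprod
    exact ⟨5, a ^ 2, Or.inr (Or.inl rfl), hmem 5 _ q1 q2 q3⟩
  · obtain ⟨q1, q2, q3⟩ := h5 c a b hc0 e3 e1 e2 (by rw [← hprod]; ring)
    exact ⟨5, c ^ 2, Or.inr (Or.inl rfl), hmem 5 _ q2 q3 q1⟩
  · exact ⟨63, 1, Or.inr (Or.inr rfl), hmem 63 1 (h63 a b c ha0 e1 e2 e3) (h63 b c a hb0 e2 e3 e1) (h63 c a b hc0 e3 e1 e2)⟩
  · exact ⟨63, 1, Or.inr (Or.inr rfl), hmem 63 1 (h63 a c b ha0 e1 e3 e2) (h63 b a c hb0 e2 e1 e3) (h63 c b a hc0 e3 e2 e1)⟩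
  · obtain ⟨q1, q2, q3⟩ := h5 b a c hb0 e2 e1 e3 (by rw [← hprod]; ring)
    exact ⟨5, b ^ 2, Or.inr (Or.inl rfl), hmem 5 _ q2 q1 q3⟩

/-- consequence for powers -/
theorem pow_scalar_of_eig {K : Type*} [Field K] [IsAlgClosed K] [CharP K 2] (M : Matrix (Fin 3) (Fin 3) K) {n : ℕ} {c : K}
    (h : ∀ l ∈ M.charpoly.roots, l ^ n = c) : M ^ (n * 4) = (c ^ 4) • (1 : Matrix (Fin 3) (Fin 3) K) := by
  haveI : Fact (Nat.Prime 2) := ⟨Nat.prime_two⟩
  have hsp : M.charpoly.Splits := IsAlgClosed.splits _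
  have hcard : M.charpoly.roots.card = 3 := by
    rw [← hsp.natDegree_eq_card_roots, Matrix.charpoly_natDegree_eq_dim, Fintype.card_fin]
  have hprod : M.charpoly = (M.charpoly.roots.map (fun l => X - C l)).prod :=
    hsp.eq_prod_roots_of_monic (Matrix.charpoly_monic M)
  have hdvd : M.charpoly ∣ (X ^ n - C c) ^ 3 := by
    rw [hprod]
    have h1 : (M.charpoly.roots.map (fun l => X - C l)).prod ∣ (M.charpoly.roots.map (fun _ => X ^ n - C c)).prod := by
      apply Multiset.prod_dvd_prod_of_dvd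
      intro l hl
      rw [Polynomial.dvd_iff_isRoot]
      simp [Polynomial.IsRoot.def, h l hl]
    rw [Multiset.map_const', Multiset.prod_replicate, hcard] at h1
    exact h1
  have h0 : (M ^ n - c • (1 : Matrix (Fin 3) (Fin 3) K)) ^ 3 = 0 := by
    obtain ⟨r, hr⟩ := hdvd
    have h1 := congrArg (Polynomial.aeval M) hr
    rw [map_mul, Matrix.aeval_self_charpoly, zero_mul, map_pow, map_sub, map_pow, Polynomial.aeval_X, Polynomial.aeval_C,
      Algebra.algebraMap_eq_smul_one] at h1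
    exact h1
  have h4 : (M ^ n - c • (1 : Matrix (Fin 3) (Fin 3) K)) ^ (2 ^ 2) = 0 := by
    rw [show (2 ^ 2 : ℕ) = 3 + 1 by norm_num, pow_add, h0, zero_mul]
  haveI : CharP (Matrix (Fin 3) (Fin 3) K) 2 := inferInstance
  rw [sub_pow_char_pow_of_commute _ _ ((Commute.one_right (M ^ n)).smul_right c)] at h4
  rw [sub_eq_zero] at h4
  rw [pow_mul]
  rw [_root_.smul_pow, one_pow] at h4
  exact h4

theorem psl34_pow (hF : Fintype.card F = 4) (g : PG) : ∃ n, (n = 3 ∨ n = 5 ∨ n = 63) ∧ g ^ (n * 4) = 1 := by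
  obtain ⟨T, rfl⟩ := QuotientGroup.mk_surjective g
  let ι := algebraMap F (AlgebraicClosure F)
  have h2 := two_eq_zero_of_card_four hF
  have h2K : (2 : AlgebraicClosure F) = 0 := by
    have := congrArg ι h2
    rwa [map_ofNat, map_zero] at this
  haveI : CharP (AlgebraicClosure F) 2 := CharTwo.of_one_ne_zero_of_two_eq_zero one_ne_zero h2K
  obtain ⟨n, c, hn, hc⟩ := eig3 hF T ι
  refine ⟨n, hn, ?_⟩
  have h := pow_scalar_of_eig _ hc
  have hmap : ((T ^ (n * 4) : SL₃) : M₃).map ι = (c ^ 4) • (1 : Matrix (Fin 3) (Fin 3) (AlgebraicClosure F)) := by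
    rw [← h, Matrix.SpecialLinearGroup.coe_pow]
    exact map_pow ι.mapMatrix (T : M₃) (n * 4)
  have hoff : ∀ i j, i ≠ j → ((T ^ (n * 4) : SL₃) : M₃) i j = 0 := by
    intro i j hij
    apply ι.injective
    have h1 := congrFun (congrFun hmap i) j
    rw [Matrix.map_apply, Matrix.smul_apply, Matrix.one_apply_ne hij, smul_zero] at h1
    rw [h1, map_zero]
  have hdiag : ∀ i, ((T ^ (n * 4) : SL₃) : M₃) i i = ((T ^ (n * 4) : SL₃) : M₃) 0 0 := by
    intro i
    apply ι.injective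
    have h1 := congrFun (congrFun hmap i) i
    have h2 := congrFun (congrFun hmap 0) 0
    rw [Matrix.map_apply, Matrix.smul_apply, Matrix.one_apply_eq] at h1 h2
    rw [h1, h2]
  show (QuotientGroup.mk (T ^ (n * 4)) : PG) = 1
  rw [QuotientGroup.eq_one_iff, Subgroup.mem_center_iff]
  intro S
  apply SL_ext
  have hsc : ((T ^ (n * 4) : SL₃) : M₃) = (((T ^ (n * 4) : SL₃) : M₃) 0 0) • (1 : M₃) := by
    ext i j
    by_cases hij : i = j
    · subst hij; rw [Matrix.smul_apply, Matrix.one_apply_eq, smul_eq_mul, mul_one, hdiag]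
    · rw [Matrix.smul_apply, Matrix.one_apply_ne hij, smul_zero, hoff i j hij]
  rw [Matrix.SpecialLinearGroup.coe_mul, Matrix.SpecialLinearGroup.coe_mul, hsc, Matrix.mul_smul, Matrix.smul_mul,
    Matrix.mul_one, Matrix.one_mul]

end

end Cfsg.Agent.H5
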