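import Mathlib
import Cfsg.Agent.H5.PSL34

set_option autoImplicit false

/-! Involutions of `PSL₃(4)`. -/

namespace Cfsg.Agent.H5

open Matrix

section
variable {F : Type*} [Field F]

local notation "SL₃" => Matrix.SpecialLinearGroup (Fin 3) F
local notation "M₃" => Matrix (Fin 3) (Fin 3) F

theorem exists_ker3 (N : M₃) (hN : N * N = 0) (u : Fin 3 → F) (hu : u ≠ 0) :
    ∃ w : Fin 3 → F, N *ᵥ w = 0 ∧ ∀ a : F, a • u ≠ w := by
  by_contra hcon
  push Not at hcon
  have hle : LinearMap.range (Matrix.mulVecLin N) ≤ LinearMap.ker (Matrix.mulVecLin N) := by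
    rintro _ ⟨x, rfl⟩
    rw [LinearMap.mem_ker, Matrix.mulVecLin_apply, Matrix.mulVecLin_apply, Matrix.mulVec_mulVec, hN, Matrix.zero_mulVec]
  have h1 := (Matrix.mulVecLin N).finrank_range_add_finrank_ker
  have h2 : Module.finrank F (LinearMap.range (Matrix.mulVecLin N)) ≤ Module.finrank F (LinearMap.ker (Matrix.mulVecLin N)) :=
    Submodule.finrank_mono hle
  have h3 : LinearMap.ker (Matrix.mulVecLin N) ≤ Submodule.span F {u} := by
    intro w hw
    rw [LinearMap.mem_ker, Matrix.mulVecLin_apply] at hw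
    obtain ⟨a, ha⟩ := hcon w hw
    rw [Submodule.mem_span_singleton]
    exact ⟨a, ha⟩
  have h4 : Module.finrank F (LinearMap.ker (Matrix.mulVecLin N)) ≤ 1 := by
    refine (Submodule.finrank_mono h3).trans ?_
    rw [finrank_span_singleton hu]
  rw [Module.finrank_fin_fun] at h1
  omega

/-- the elementary matrix -/
def E3 (F : Type*) [Field F] : Matrix.SpecialLinearGroup (Fin 3) F :=
  ⟨!![1, 0, 1; 0, 1, 0; 0, 0, 1], by simp [Matrix.det_fin_three]⟩

theorem exists_conj_E3 (h2 : (2 : F) = 0) (A : SL₃) (hA : A * A = 1) (hne : A ≠ 1) : ∃ P : SL₃, A * P = P * E3 F := by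
  let N : M₃ := (A : M₃) - 1
  have hN : N * N = 0 := by
    have h1 : (A : M₃) * (A : M₃) = 1 := by rw [← Matrix.SpecialLinearGroup.coe_mul, hA, Matrix.SpecialLinearGroup.coe_one]
    have h3 : N * N = (A : M₃) * (A : M₃) + 1 - (2 : F) • (A : M₃) := by
      show ((A : M₃) - 1) * ((A : M₃) - 1) = _
      rw [two_smul]
      noncomm_ring
    rw [h3, h1, h2, zero_smul, sub_zero]
    have h4 : (1 : M₃) + 1 = (2 : F) • 1 := by rw [two_smul]
    rw [h4, h2, zero_smul]
  have hN0 : N ≠ 0 := by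
    intro h
    apply hne
    apply Subtype.ext
    rw [Matrix.SpecialLinearGroup.coe_one]
    exact sub_eq_zero.1 h
  obtain ⟨v, hv⟩ : ∃ v : Fin 3 → F, N *ᵥ v ≠ 0 := by
    by_contra hcon
    push Not at hcon
    apply hN0
    ext i j
    have h3 := congrFun (hcon (Pi.single j 1)) i
    rw [Matrix.mulVec_single_one] at h3
    exact h3
  obtain ⟨u, hu⟩ : ∃ u : Fin 3 → F, u = N *ᵥ v := ⟨_, rfl⟩
  have hNu : N *ᵥ u = 0 := by rw [hu, Matrix.mulVec_mulVec, hN, Matrix.zero_mulVec]
  have hu0 : u ≠ 0 := by rw [hu]; exact hv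
  obtain ⟨w, hw, hwu⟩ := exists_ker3 N hN u hu0
  have hli : LinearIndependent F ![u, w, v] := by
    rw [Fintype.linearIndependent_iff]
    intro g hg
    rw [Fin.sum_univ_three] at hg
    simp only [Matrix.cons_val_zero, Matrix.cons_val_one, Matrix.cons_val] at hg
    have h3 := congrArg (fun x => N *ᵥ x) hg
    simp only [Matrix.mulVec_add, Matrix.mulVec_smul, hNu, hw, smul_zero, zero_add, Matrix.mulVec_zero, ← hu] at h3
    have hg2 : g 2 = 0 := (smul_eq_zero.1 h3).resolve_right hu0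
    rw [hg2, zero_smul, add_zero] at hg
    have hg1 : g 1 = 0 := by
      by_contra h
      apply hwu (-(g 1)⁻¹ * g 0)
      have h4 : g 0 • u = - (g 1 • w) := eq_neg_of_add_eq_zero_left hg
      rw [mul_smul, h4, neg_smul, smul_neg, neg_neg, smul_smul, inv_mul_cancel₀ h, one_smul]
    rw [hg1, zero_smul, add_zero] at hg
    have hg0 : g 0 = 0 := (smul_eq_zero.1 hg).resolve_right hu0
    intro i
    fin_cases i
    · exact hg0
    · exact hg1
    · exact hg2
  have hdet : (Matrix.of ![u, w, v] : M₃).det ≠ 0 := by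
    have h3 : IsUnit (Matrix.of ![u, w, v] : M₃) := Matrix.linearIndependent_rows_iff_isUnit.1 hli
    exact ((Matrix.isUnit_iff_isUnit_det _).1 h3).ne_zero
  obtain ⟨d, hd⟩ : ∃ d, d = (Matrix.of ![u, w, v] : M₃).det := ⟨_, rfl⟩
  rw [← hd] at hdet
  have hAu : (A : M₃) *ᵥ u = u := by
    have h3 : (A : M₃) = N + 1 := by show (A : M₃) = (A : M₃) - 1 + 1; rw [sub_add_cancel]
    rw [h3, Matrix.add_mulVec, hNu, Matrix.one_mulVec, zero_add]
  have hAw : (A : M₃) *ᵥ w = w := by
    have h3 : (A : M₃) = N + 1 := by show (A : M₃) = (A : M₃) - 1 + 1; rw [sub_add_cancel]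
    rw [h3, Matrix.add_mulVec, hw, Matrix.one_mulVec, zero_add]
  have hAv : (A : M₃) *ᵥ v = u + v := by
    have h3 : (A : M₃) = N + 1 := by show (A : M₃) = (A : M₃) - 1 + 1; rw [sub_add_cancel]
    rw [h3, Matrix.add_mulVec, Matrix.one_mulVec, ← hu]
  let P : SL₃ := ⟨(Matrix.of ![u, d⁻¹ • w, v])ᵀ, by
    rw [Matrix.det_transpose]
    have h3 : (Matrix.of ![u, d⁻¹ • w, v] : M₃).det = d⁻¹ * (Matrix.of ![u, w, v] : M₃).det := by
      simp only [Matrix.det_fin_three, Matrix.of_apply, Matrix.cons_val_zero, Matrix.cons_val_one, Matrix.cons_val,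
        Pi.smul_apply, smul_eq_mul]
      ring
    rw [h3, ← hd, inv_mul_cancel₀ hdet]⟩
  refine ⟨P, ?_⟩
  apply Subtype.ext
  rw [Matrix.SpecialLinearGroup.coe_mul, Matrix.SpecialLinearGroup.coe_mul]
  have e1 : ∀ i, (A : M₃) i 0 * u 0 + (A : M₃) i 1 * u 1 + (A : M₃) i 2 * u 2 = u i := by
    intro i
    have h3 := congrFun hAu i
    simp only [Matrix.mulVec, dotProduct, Fin.sum_univ_three] at h3
    exact h3
  have e2 : ∀ i, (A : M₃) i 0 * w 0 + (A : M₃) i 1 * w 1 + (A : M₃) i 2 * w 2 = w i := by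
    intro i
    have h3 := congrFun hAw i
    simp only [Matrix.mulVec, dotProduct, Fin.sum_univ_three] at h3
    exact h3
  have e3 : ∀ i, (A : M₃) i 0 * v 0 + (A : M₃) i 1 * v 1 + (A : M₃) i 2 * v 2 = u i + v i := by
    intro i
    have h3 := congrFun hAv i
    simp only [Matrix.mulVec, dotProduct, Fin.sum_univ_three] at h3
    exact h3
  have hP : (P : M₃) = (Matrix.of ![u, d⁻¹ • w, v])ᵀ := rfl
  have hE : (E3 F : M₃) = !![1, 0, 1; 0, 1, 0; 0, 0, 1] := rfl
  ext i j
  rw [Matrix.mul_apply, Matrix.mul_apply, Fin.sum_univ_three, Fin.sum_univ_three, hP, hE]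
  fin_cases j
  · simp
    exact e1 i
  · simp
    linear_combination d⁻¹ * e2 i
  · simp
    exact e3 i

theorem psl34_inv [Fintype F] (hF : Fintype.card F = 4) (x : Matrix.ProjectiveSpecialLinearGroup (Fin 3) F) (hx : orderOf x = 2) :
    IsConj (QuotientGroup.mk (E3 F) : Matrix.ProjectiveSpecialLinearGroup (Fin 3) F) x := by
  have h2 := two_eq_zero_of_card_four hF
  obtain ⟨A, rfl⟩ := QuotientGroup.mk_surjective x
  have hx1 : (QuotientGroup.mk A : Matrix.ProjectiveSpecialLinearGroup (Fin 3) F) ≠ 1 := by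
    intro h; rw [h, orderOf_one] at hx; omega
  have hxx : (QuotientGroup.mk A : Matrix.ProjectiveSpecialLinearGroup (Fin 3) F) * QuotientGroup.mk A = 1 := by
    have := pow_orderOf_eq_one (QuotientGroup.mk A : Matrix.ProjectiveSpecialLinearGroup (Fin 3) F)
    rwa [hx, pow_two] at this
  have hc : A * A ∈ Subgroup.center SL₃ := (QuotientGroup.eq_one_iff _).1 hxx
  -- central elements have order dividing three
  have hc3 : (A * A) ^ 3 = 1 := by
    rw [Matrix.SpecialLinearGroup.mem_center_iff] at hc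
    obtain ⟨r, hr, hs⟩ := hc
    apply Subtype.ext
    rw [Matrix.SpecialLinearGroup.coe_pow, ← hs, Matrix.SpecialLinearGroup.coe_one, ← map_pow]
    rw [Fintype.card_fin] at hr
    rw [hr, map_one]
  -- replace A by A * (A*A)
  let B : SL₃ := A * (A * A)
  have hB : (QuotientGroup.mk A : Matrix.ProjectiveSpecialLinearGroup (Fin 3) F) = QuotientGroup.mk B := by
    rw [QuotientGroup.eq]
    show A⁻¹ * (A * (A * A)) ∈ _
    rwa [inv_mul_cancel_left]
  have hB2 : B * B = 1 := by
    rw [← hc3]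
    show A * (A * A) * (A * (A * A)) = (A * A) ^ 3
    simp only [pow_succ, pow_zero, one_mul, mul_assoc]
  have hB1 : B ≠ 1 := by
    intro h
    apply hx1
    rw [hB, h]
    rfl
  obtain ⟨P, hP⟩ := exists_conj_E3 h2 B hB2 hB1
  rw [hB, isConj_iff]
  refine ⟨QuotientGroup.mk P, ?_⟩
  rw [← QuotientGroup.mk_mul, ← QuotientGroup.mk_inv, ← QuotientGroup.mk_mul, ← hP, mul_inv_cancel_right]

end

end Cfsg.Agent.H5
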