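import Mathlib
import Cfsg.Agent.H5.Rank2B
import Cfsg.Agent.H5.Rank2E
import Cfsg.Agent.H5.ExtCount
import Cfsg.Agent.S0286

set_option autoImplicit false

/-! `2`-rank of `PSp`. -/

namespace Cfsg.Agent.H5

open Matrix Cfsg

section lin

variable {F V : Type*} [Field F] [AddCommGroup V] [Module F V] [FiniteDimensional F V]

theorem sum_sg_zero (h2 : (2 : F) ≠ 0) {N : ℕ} (b : Module.Basis (Fin N) F V) (T : V →ₗ[F] V)
    (hb : ∀ k, T (b k) = b k ∨ T (b k) = - b k) (g : V ≃ₗ[F] V) (hg : ∀ v, g (T v) = - T (g v)) :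
    ∑ k, ((sg b T k : ℤˣ) : ℤ) = 0 := by
  classical
  let Vp : Submodule F V := LinearMap.ker (T - LinearMap.id)
  let Vm : Submodule F V := LinearMap.ker (T + LinearMap.id)
  have hVp : ∀ v, v ∈ Vp ↔ T v = v := by
    intro v
    rw [LinearMap.mem_ker, LinearMap.sub_apply, LinearMap.id_apply, sub_eq_zero]
  have hVm : ∀ v, v ∈ Vm ↔ T v = -v := by
    intro v
    rw [LinearMap.mem_ker, LinearMap.add_apply, LinearMap.id_apply, add_eq_zero_iff_eq_neg]
  have hdis : Disjoint Vp Vm := by
    rw [Submodule.disjoint_def]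
    intro v h1 h3
    rw [hVp] at h1
    rw [hVm, h1] at h3
    have h4 : (2 : F) • v = 0 := by rw [two_smul]; nth_rewrite 1 [h3]; exact neg_add_cancel v
    exact (smul_eq_zero.1 h4).resolve_left h2
  have hfr : Module.finrank F Vp = Module.finrank F Vm := by
    apply le_antisymm
    · have h1 : Vp.map (g : V →ₗ[F] V) ≤ Vm := by
        rintro _ ⟨v, hv, rfl⟩
        rw [hVm]
        have h3 := hg v
        rw [(hVp v).1 hv] at h3
        show T (g v) = - g v
        have h4 := congrArg Neg.neg h3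
        rw [neg_neg] at h4
        exact h4.symm
      calc Module.finrank F Vp = Module.finrank F (Vp.map (g : V →ₗ[F] V)) := (LinearEquiv.finrank_map_eq g Vp).symm
        _ ≤ Module.finrank F Vm := Submodule.finrank_mono h1
    · have h1 : Vm.map (g : V →ₗ[F] V) ≤ Vp := by
        rintro _ ⟨v, hv, rfl⟩
        rw [hVp]
        have h3 := hg v
        rw [(hVm v).1 hv, map_neg] at h3
        show T (g v) = g v
        exact (neg_injective h3).symm
      calc Module.finrank F Vm = Module.finrank F (Vm.map (g : V →ₗ[F] V)) := (LinearEquiv.finrank_map_eq g Vm).symm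
        _ ≤ Module.finrank F Vp := Submodule.finrank_mono h1
  have hsum : Module.finrank F Vp + Module.finrank F Vm ≤ N := by
    have h1 := Submodule.finrank_add_finrank_le_of_disjoint hdis
    have h3 : Module.finrank F V = N := by rw [Module.finrank_eq_card_basis b, Fintype.card_fin]
    omega
  have hP : (Finset.univ.filter (fun k => T (b k) = b k)).card ≤ Module.finrank F Vp := by
    have hli : LinearIndependent F (fun k : {k // T (b k) = b k} => (⟨b k.1, (hVp _).2 k.2⟩ : Vp)) := by
      apply LinearIndependent.of_comp Vp.subtype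
      exact b.linearIndependent.comp (fun k : {k // T (b k) = b k} => k.1) Subtype.val_injective
    have h1 := hli.fintype_card_le_finrank
    rwa [Fintype.card_subtype] at h1
  have hM : (Finset.univ.filter (fun k => ¬ T (b k) = b k)).card ≤ Module.finrank F Vm := by
    have hli : LinearIndependent F (fun k : {k // ¬ T (b k) = b k} => (⟨b k.1, (hVm _).2 ((hb k.1).resolve_left k.2)⟩ : Vm)) := by
      apply LinearIndependent.of_comp Vm.subtype
      exact b.linearIndependent.comp (fun k : {k // ¬ T (b k) = b k} => k.1) Subtype.val_injective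
    have h1 := hli.fintype_card_le_finrank
    rwa [Fintype.card_subtype] at h1
  have htot := Finset.card_filter_add_card_filter_not (s := (Finset.univ : Finset (Fin N))) (fun k => T (b k) = b k)
  rw [Finset.card_univ, Fintype.card_fin] at htot
  have hval : ∀ k, ((sg b T k : ℤˣ) : ℤ) = if T (b k) = b k then 1 else -1 := by
    intro k
    unfold sg
    by_cases h : T (b k) = b k
    · rw [if_pos h, if_pos h]; rfl
    · rw [if_neg h, if_neg h]; rfl
  simp only [hval]
  rw [Finset.sum_ite, Finset.sum_const, Finset.sum_const]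
  simp only [nsmul_eq_mul, mul_one, mul_neg]
  omega

theorem sg_mul (h2 : (2 : F) ≠ 0) {κ : Type*} (b : Module.Basis κ F V) (T T' : V →ₗ[F] V)
    (h : ∀ k, T (b k) = b k ∨ T (b k) = - b k) (h' : ∀ k, T' (b k) = b k ∨ T' (b k) = - b k) (k : κ) :
    sg b (T ∘ₗ T') k = sg b T k * sg b T' k := by
  have h1 : (T ∘ₗ T') (b k) = b k ∨ (T ∘ₗ T') (b k) = - b k := by
    rw [LinearMap.comp_apply]
    rcases h' k with e | e <;> rcases h k with e' | e'
    · left; rw [e, e']
    · right; rw [e, e']
    · right; rw [e, map_neg, e']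
    · left; rw [e, map_neg, e', neg_neg]
  have h3 := sg_apply b (T ∘ₗ T') k h1
  rw [LinearMap.comp_apply, sg_apply b T' k (h' k), map_smul, sg_apply b T k (h k), smul_smul] at h3
  have h4 : (((sg b T' k : ℤˣ) : ℤ) : F) * (((sg b T k : ℤˣ) : ℤ) : F) = (((sg b (T ∘ₗ T') k : ℤˣ) : ℤ) : F) := by
    have h5 : ((((sg b T' k : ℤˣ) : ℤ) : F) * (((sg b T k : ℤˣ) : ℤ) : F) - (((sg b (T ∘ₗ T') k : ℤˣ) : ℤ) : F)) • b k = 0 := by
      rw [sub_smul, h3, sub_self]
    exact sub_eq_zero.1 ((smul_eq_zero.1 h5).resolve_right (b.ne_zero k))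
  have h6 : (((sg b T k * sg b T' k * sg b (T ∘ₗ T') k : ℤˣ) : ℤ) : F) = 1 := by
    have h7 := cast_sq (F := F) (sg b (T ∘ₗ T') k)
    rw [← h7]
    push_cast
    rw [← h4]
    ring
  have h8 := units_cast_inj h2 h6
  have h9 : sg b (T ∘ₗ T') k * sg b (T ∘ₗ T') k = 1 := Int.units_mul_self _
  rw [← h9] at h8
  exact (mul_right_cancel h8).symm

/-- the refined bound -/
theorem alt_bound2 (h2 : (2 : F) ≠ 0) {A : Type*} [Group A] [Finite A] (ρ : A →* (V →ₗ[F] V)) (hinj : Function.Injective ρ)
    (hc : ∀ x y : A, x * y = y * x) (hi : ∀ x : A, x * x = 1)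
    (B : LinearMap.BilinForm F V) (hB : ∀ x, (∀ y, B x y = 0) → x = 0) (hA : ∀ x, B x x = 0)
    (hiso : ∀ i x y, B (ρ i x) (ρ i y) = B x y) {n : ℕ} (hn : Module.finrank F V = 2 * n) (hn1 : 1 ≤ n)
    (z : A) (hz : ∀ v, ρ z v = - v)
    (hconj : ∀ x : A, x ≠ 1 → x ≠ z → ∃ g : V ≃ₗ[F] V, ∀ v, g (ρ x v) = - ρ x (g v)) : Nat.card A ≤ 2 * n := by
  classical
  haveI := Fintype.ofFinite A
  obtain ⟨b, hb⟩ := eig_basis h2 (fun x : A => ρ x) (by
    intro i j v
    have h1 := congrArg (fun x => ρ x v) (hc i j)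
    simp only [map_mul] at h1
    exact h1) (by
    intro i v
    have h1 := congrArg (fun x => ρ x v) (hi i)
    simp only [map_mul, map_one] at h1
    exact h1)
  let χ : Fin (Module.finrank F V) → (A →* ℤ) := fun k =>
    { toFun := fun x => ((sg b (ρ x) k : ℤˣ) : ℤ)
      map_one' := by
        have : sg b (ρ 1) k = 1 := by
          unfold sg
          rw [map_one]
          exact if_pos rfl
        rw [this]; rfl
      map_mul' := fun x y => by
        have h1 : ρ (x * y) = (ρ x) ∘ₗ (ρ y) := by rw [map_mul]; rfl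
        rw [h1, sg_mul h2 b _ _ (hb x) (hb y), Units.val_mul] }
  have hχ : ∀ k x, χ k x = ((sg b (ρ x) k : ℤˣ) : ℤ) := fun k x => rfl
  have hfib : ∀ k, ∃ l, l ≠ k ∧ χ l = χ k := by
    intro k
    have h1 : b k ≠ 0 := b.ne_zero k
    obtain ⟨l, hl⟩ : ∃ l, B (b k) (b l) ≠ 0 := by
      by_contra hcon
      push Not at hcon
      apply h1
      apply hB
      intro y
      have : (B (b k) : V →ₗ[F] F) = 0 := b.ext (fun l => by rw [hcon l]; rfl)
      rw [this]; rfl
    refine ⟨l, ?_, ?_⟩
    · rintro rfl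
      exact hl (hA _)
    · ext i
      rw [hχ, hχ]
      congr 1
      have h3 := hiso i (b k) (b l)
      rw [sg_apply b (ρ i) k (hb i k), sg_apply b (ρ i) l (hb i l), map_smul, map_smul, LinearMap.smul_apply, smul_smul, smul_eq_mul] at h3
      have h4 : ((((sg b (ρ i) l * sg b (ρ i) k : ℤˣ)) : ℤ) : F) = 1 := by
        apply mul_right_cancel₀ hl
        rw [one_mul]
        refine Eq.trans ?_ h3
        push_cast
        ring
      have h5 := units_cast_inj h2 h4
      have h6 : sg b (ρ i) k * sg b (ρ i) k = 1 := Int.units_mul_self _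
      rw [← h6] at h5
      exact mul_right_cancel h5
  have hsq : ∀ k x, χ k x * χ k x = 1 := by
    intro k x
    rw [hχ, ← Units.val_mul, Int.units_mul_self]; rfl
  have hpos : 0 < Module.finrank F V := by omega
  let k0 : Fin (Module.finrank F V) := ⟨0, hpos⟩
  have hS1 : (∑ x : A, χ k0 x * ∑ k, χ k x) = (Fintype.card A : ℤ) * (Finset.univ.filter (fun k => χ k = χ k0)).card := by
    have h1 : (∑ x : A, χ k0 x * ∑ k, χ k x) = ∑ k, ∑ x : A, (χ k0 * χ k) x := by
      rw [Finset.sum_comm]
      apply Finset.sum_congr rfl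
      intro x _
      rw [Finset.mul_sum]
      rfl
    rw [h1]
    have h3 : ∀ k, (∑ x : A, (χ k0 * χ k) x) = if χ k = χ k0 then (Fintype.card A : ℤ) else 0 := by
      intro k
      rw [sum_hom_units]
      by_cases h : χ k = χ k0
      · rw [if_pos h, if_pos]
        ext x
        rw [MonoidHom.mul_apply, h, hsq]
        rfl
      · rw [if_neg h, if_neg]
        · rfl
        · intro h4
          apply h
          ext x
          have h5 := DFunLike.congr_fun h4 x
          rw [MonoidHom.mul_apply, MonoidHom.one_apply] at h5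
          calc χ k x = (χ k0 x * χ k0 x) * χ k x := by rw [hsq, one_mul]
            _ = χ k0 x * (χ k0 x * χ k x) := by ring
            _ = χ k0 x := by rw [h5, mul_one]
    simp only [h3]
    rw [← Finset.sum_filter, Finset.sum_const, nsmul_eq_mul, mul_comm]
  have hz1 : z ≠ 1 := by
    intro h
    have h1 := hz (b k0)
    rw [h, map_one] at h1
    have h3 : (2 : F) • b k0 = 0 := by
      rw [two_smul]
      nth_rewrite 1 [show b k0 = - b k0 from h1]
      exact neg_add_cancel _
    exact (b.ne_zero k0) ((smul_eq_zero.1 h3).resolve_left h2)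
  have hχz : ∀ k, χ k z = -1 := by
    intro k
    rw [hχ]
    have : sg b (ρ z) k = -1 := by
      unfold sg
      rw [if_neg]
      rw [hz]
      intro h1
      have h3 : (2 : F) • b k = 0 := by
        rw [two_smul]
        nth_rewrite 1 [← h1]
        exact neg_add_cancel _
      exact (b.ne_zero k) ((smul_eq_zero.1 h3).resolve_left h2)
    rw [this]; rfl
  have ht : ∀ x, x ≠ 1 → x ≠ z → ∑ k, χ k x = 0 := by
    intro x h1 h3
    obtain ⟨g, hg⟩ := hconj x h1 h3
    exact sum_sg_zero h2 b (ρ x) (hb x) g hg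
  have hS2 : (∑ x : A, χ k0 x * ∑ k, χ k x) = 4 * n := by
    rw [← Finset.add_sum_erase _ _ (Finset.mem_univ (1 : A)), ← Finset.add_sum_erase _ _ (Finset.mem_erase.2 ⟨hz1, Finset.mem_univ z⟩)]
    have h1 : (∑ x ∈ (Finset.univ.erase (1 : A)).erase z, χ k0 x * ∑ k, χ k x) = 0 := by
      apply Finset.sum_eq_zero
      intro x hx
      rw [Finset.mem_erase, Finset.mem_erase] at hx
      rw [ht x hx.2.1 hx.1, mul_zero]
    rw [h1]
    simp only [map_one, hχz, Finset.sum_const, Finset.card_univ, Fintype.card_fin, nsmul_eq_mul, hn]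
    push_cast
    ring
  have hfc : 2 ≤ (Finset.univ.filter (fun k => χ k = χ k0)).card := by
    obtain ⟨l, hl1, hl2⟩ := hfib k0
    have h1 : ({k0, l} : Finset (Fin (Module.finrank F V))) ⊆ Finset.univ.filter (fun k => χ k = χ k0) := by
      intro x hx
      rw [Finset.mem_insert, Finset.mem_singleton] at hx
      rw [Finset.mem_filter]
      rcases hx with rfl | rfl
      · exact ⟨Finset.mem_univ _, rfl⟩
      · exact ⟨Finset.mem_univ _, hl2⟩
    have h3 := Finset.card_le_card h1
    rwa [Finset.card_pair (Ne.symm hl1)] at h3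
  rw [hS2] at hS1
  have h1 : 4 * n = Fintype.card A * (Finset.univ.filter (fun k => χ k = χ k0)).card := by exact_mod_cast hS1
  rw [Nat.card_eq_fintype_card]
  nlinarith

end lin

end Cfsg.Agent.H5
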