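import Mathlib
import Cfsg.Agent.H5.PSpRank
import Cfsg.Agent.S0292
import Cfsg.Agent.H2.Basic

set_option autoImplicit false

/-! `2`-rank of `PSp`; comparison with `PΩ`. -/

namespace Cfsg.Agent.H5

open Matrix Cfsg

theorem four_sq_lt (m : ℕ) (hm : 3 ≤ m) : 4 * m ^ 2 < 2 ^ (2 * m) := by
  induction m, hm using Nat.le_induction with
  | base => norm_num
  | succ k hk ih =>
    have h1 : 2 ^ (2 * (k + 1)) = 4 * 2 ^ (2 * k) := by rw [mul_add, pow_add]; ring
    rw [h1]
    nlinarith

section main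

variable {F : Type*} [Field F] [Finite F]

theorem psp_not_rank (h2 : (2 : F) ≠ 0) (m : ℕ) (hm : 3 ≤ m) : ¬ PRankAtLeast 2 (2 * m) (PSp m F) := by
  classical
  rintro ⟨E, hE, hE2, hE3⟩
  let S := Matrix.symplecticGroup (Fin m) F
  haveI : Finite S := Finite.of_injective (fun g : S => (g : Matrix (Fin m ⊕ Fin m) (Fin m ⊕ Fin m) F)) Subtype.val_injective
  let π : S →* PSp m F := QuotientGroup.mk' (Subgroup.center S)
  let z0 : S := spScalar (-1) (by ring)
  have hz0 : z0 ∈ Subgroup.center S := sp_mem_center_of_scalar (c := -1) rfl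
  have hz0m : (z0 : Matrix (Fin m ⊕ Fin m) (Fin m ⊕ Fin m) F) = (-1 : F) • 1 := rfl
  have hzz0 : z0 * z0 = 1 := by
    apply Subtype.ext
    show ((-1 : F) • (1 : Matrix (Fin m ⊕ Fin m) (Fin m ⊕ Fin m) F)) * ((-1 : F) • 1) = 1
    rw [Matrix.smul_mul, Matrix.mul_smul, smul_smul, Matrix.mul_one]
    norm_num
  have hz01 : z0 ≠ 1 := by
    intro h
    have h1 : ((-1 : F) • (1 : Matrix (Fin m ⊕ Fin m) (Fin m ⊕ Fin m) F)) = 1 := congrArg Subtype.val h
    have h3 := congrFun (congrFun h1 (Sum.inl ⟨0, by omega⟩)) (Sum.inl ⟨0, by omega⟩)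
    rw [Matrix.smul_apply, Matrix.one_apply_eq, smul_eq_mul, mul_one] at h3
    apply h2
    linear_combination -h3
  have hcen : ∀ g : S, g ∈ Subgroup.center S → g = 1 ∨ g = z0 := by
    intro g hg
    obtain ⟨c, hc, hgc⟩ := sp_center_scalar (by omega) hg
    rcases mul_self_eq_one_iff.1 hc with rfl | rfl
    · left; apply Subtype.ext; rw [hgc, one_smul]; rfl
    · right; apply Subtype.ext; rw [hgc, hz0m]
  let G : Subgroup S := E.comap π
  have hccen : Nat.card (Subgroup.center S) = 2 := by
    rw [Nat.card_eq_two_iff]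
    refine ⟨1, ⟨z0, hz0⟩, ?_, ?_⟩
    · intro h; exact hz01 (congrArg Subtype.val h).symm
    · ext x
      simp only [Set.mem_insert_iff, Set.mem_singleton_iff, Set.mem_univ, iff_true]
      rcases hcen x.1 x.2 with h | h
      · left; exact Subtype.ext h
      · right; exact Subtype.ext h
  have hGcard : Nat.card G = 2 * Nat.card E := by
    have h1 : Nat.card G = _ := Cfsg.Agent.H2.card_comap_mk' (Subgroup.center S) E
    rw [h1, hccen, mul_comm]
  have hz0G : z0 ∈ G := by
    show π z0 ∈ E
    have : π z0 = 1 := (QuotientGroup.eq_one_iff _).2 hz0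
    rw [this]
    exact E.one_mem
  let z : G := ⟨z0, hz0G⟩
  have hz : ∀ g : G, z * g = g * z := fun g => Subtype.ext (Subgroup.mem_center_iff.1 hz0 g.1).symm
  have hz1 : z ≠ 1 := fun h => hz01 (congrArg Subtype.val h)
  have hzz : z * z = 1 := Subtype.ext hzz0
  have hc : ∀ g h : G, g * h = h * g ∨ g * h = z * (h * g) := by
    intro g h
    have h1 : π (g.1 * h.1) = π (h.1 * g.1) := by
      rw [map_mul, map_mul]
      exact congrArg Subtype.val (hE.is_comm.comm (⟨π g.1, g.2⟩ : E) ⟨π h.1, h.2⟩)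
    have h3 : (h.1 * g.1)⁻¹ * (g.1 * h.1) ∈ Subgroup.center S := by
      rw [← QuotientGroup.eq]; exact h1.symm
    rcases hcen _ h3 with h4 | h4
    · left
      apply Subtype.ext
      rw [inv_mul_eq_one] at h4
      exact h4.symm
    · right
      apply Subtype.ext
      show g.1 * h.1 = z0 * (h.1 * g.1)
      rw [inv_mul_eq_iff_eq_mul] at h4
      rw [h4, Subgroup.mem_center_iff.1 hz0]
  have hsq : ∀ g : G, g * g = 1 ∨ g * g = z := by
    intro g
    have h1 : g.1 * g.1 ∈ Subgroup.center S := by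
      rw [← QuotientGroup.eq_one_iff]
      have h3 := hE2 (π g.1) g.2
      rw [pow_two, ← map_mul] at h3
      exact h3
    rcases hcen _ h1 with h | h
    · left; exact Subtype.ext h
    · right; exact Subtype.ext h
  obtain ⟨M, hM, hmax⟩ := exists_max_comm (G := G)
  have hcount := ext_count hz hz1 hzz hc M hM hmax
  -- involutions of M
  let A : Subgroup G :=
    { carrier := {x | x ∈ M ∧ x * x = 1}
      mul_mem' := by
        rintro x y ⟨hx, hx2⟩ ⟨hy, hy2⟩
        refine ⟨M.mul_mem hx hy, ?_⟩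
        calc x * y * (x * y) = x * (y * x) * y := by simp only [mul_assoc]
          _ = x * (x * y) * y := by rw [hM x hx y hy]
          _ = (x * x) * (y * y) := by simp only [mul_assoc]
          _ = 1 := by rw [hx2, hy2, one_mul]
      one_mem' := ⟨M.one_mem, one_mul 1⟩
      inv_mem' := by
        rintro x ⟨hx, hx2⟩
        refine ⟨M.inv_mem hx, ?_⟩
        rw [← _root_.mul_inv_rev, hx2, inv_one] }
  have hA : ∀ x, x ∈ A ↔ x ∈ M ∧ x * x = 1 := fun x => Iff.rfl
  have hMA : Nat.card M ≤ 2 * Nat.card A := by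
    by_cases h : ∃ t ∈ M, t ∉ A
    · obtain ⟨t, ht, htA⟩ := h
      have ht2 : t * t = z := (hsq t).resolve_left (fun h => htA ⟨ht, h⟩)
      have hf : ∀ x : M, x.1 ∉ A → x.1 * t⁻¹ ∈ A := by
        intro x hx
        have hx2 : x.1 * x.1 = z := (hsq x.1).resolve_left (fun h => hx ⟨x.2, h⟩)
        refine ⟨M.mul_mem x.2 (M.inv_mem ht), ?_⟩
        calc x.1 * t⁻¹ * (x.1 * t⁻¹) = x.1 * (t⁻¹ * x.1) * t⁻¹ := by simp only [mul_assoc]
          _ = x.1 * (x.1 * t⁻¹) * t⁻¹ := by rw [hM t⁻¹ (M.inv_mem ht) x.1 x.2]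
          _ = (x.1 * x.1) * (t * t)⁻¹ := by rw [_root_.mul_inv_rev]; simp only [mul_assoc]
          _ = 1 := by rw [hx2, ht2, mul_inv_cancel]
      let f : M → A × Bool := fun x => if hx : x.1 ∈ A then (⟨x.1, hx⟩, false) else (⟨x.1 * t⁻¹, hf x hx⟩, true)
      have hfi : Function.Injective f := by
        intro x y hxy
        simp only [f] at hxy
        by_cases hx : x.1 ∈ A
        · rw [dif_pos hx] at hxy
          by_cases hy : y.1 ∈ A
          · rw [dif_pos hy, Prod.mk.injEq] at hxy
            exact Subtype.ext (congrArg (fun a : A => (a : G)) hxy.1)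
          · rw [dif_neg hy, Prod.mk.injEq] at hxy
            exact absurd hxy.2 (by decide)
        · rw [dif_neg hx] at hxy
          by_cases hy : y.1 ∈ A
          · rw [dif_pos hy, Prod.mk.injEq] at hxy
            exact absurd hxy.2 (by decide)
          · rw [dif_neg hy, Prod.mk.injEq] at hxy
            exact Subtype.ext (mul_right_cancel (congrArg Subtype.val hxy.1))
      have h1 := Nat.card_le_card_of_injective f hfi
      rw [Nat.card_prod, Nat.card_eq_fintype_card (α := Bool), Fintype.card_bool] at h1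
      omega
    · push Not at h
      have h1 : Nat.card M ≤ Nat.card A := Nat.card_le_card_of_injective (fun x : M => (⟨x.1, h x.1 x.2⟩ : A))
        (fun x y hxy => Subtype.ext (congrArg (fun a : A => (a : G)) hxy))
      omega
  -- the action
  let W := Fin m ⊕ Fin m → F
  let ρ : A →* (W →ₗ[F] W) :=
    { toFun := fun x => Matrix.mulVecLin (x.1.1 : Matrix (Fin m ⊕ Fin m) (Fin m ⊕ Fin m) F)
      map_one' := by
        apply LinearMap.ext
        intro v
        exact Matrix.one_mulVec v
      map_mul' := fun x y => by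
        apply LinearMap.ext
        intro v
        exact (Matrix.mulVec_mulVec v _ _).symm }
  have hρ : ∀ (x : A) v, ρ x v = Matrix.mulVec (x.1.1 : Matrix (Fin m ⊕ Fin m) (Fin m ⊕ Fin m) F) v := fun x v => rfl
  have hρinj : Function.Injective ρ := by
    intro x y h
    have h4 : Matrix.toLin' (x.1.1 : Matrix (Fin m ⊕ Fin m) (Fin m ⊕ Fin m) F) = Matrix.toLin' (y.1.1 : Matrix (Fin m ⊕ Fin m) (Fin m ⊕ Fin m) F) := by
      rw [Matrix.toLin'_apply', Matrix.toLin'_apply']; exact h
    exact Subtype.ext (Subtype.ext (Subtype.ext (Matrix.toLin'.injective h4)))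
  have hAc : ∀ x y : A, x * y = y * x := fun x y => Subtype.ext (hM x.1 x.2.1 y.1 y.2.1)
  have hAi : ∀ x : A, x * x = 1 := fun x => Subtype.ext x.2.2
  have hiso : ∀ (i : A) x y, sympB m F (ρ i x) (ρ i y) = sympB m F x y := fun i x y => (mem_Sp_iff.mp i.1.1.2) x y
  have hfr : Module.finrank F W = 2 * m := by
    rw [Module.finrank_fintype_fun_eq_card]
    simp
    ring
  have hb1 : Nat.card A ≤ 2 ^ m := by
    refine alt_bound h2 (fun x : A => ρ x) hρinj ?_ ?_ (sympB m F) sympB_nondegenerate.1 sympB_isAlt hiso hfr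
    · intro i j v
      have h1 := congrArg (fun x => ρ x v) (hAc i j)
      simp only [map_mul] at h1
      exact h1
    · intro i v
      have h1 := congrArg (fun x => ρ x v) (hAi i)
      simp only [map_mul, map_one] at h1
      exact h1
  have hzM : z ∈ M := hmax z (fun x _ => hz x)
  have hzA : z ∈ A := ⟨hzM, hzz⟩
  have hzcen : z ∈ Subgroup.center G := by rw [Subgroup.mem_center_iff]; exact fun g => (hz g).symm
  by_cases hZ : ∃ x ∈ Subgroup.center G, x ≠ 1 ∧ x ≠ z
  · -- large centre
    obtain ⟨x, hx, hx1, hxz⟩ := hZ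
    have h4 : 4 ≤ Nat.card (Subgroup.center G) := by
      let f : Fin 4 → Subgroup.center G := ![1, ⟨z, hzcen⟩, ⟨x, hx⟩, ⟨z * x, Subgroup.mul_mem _ hzcen hx⟩]
      have hf : Function.Injective f := by
        have e01 : f 0 ≠ f 1 := fun h => hz1 (congrArg Subtype.val h).symm
        have e02 : f 0 ≠ f 2 := fun h => hx1 (congrArg Subtype.val h).symm
        have e03 : f 0 ≠ f 3 := fun h => by
          have h1 : (1 : G) = z * x := congrArg Subtype.val h
          apply hxz
          calc x = z * z * x := by rw [hzz, one_mul]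
            _ = z * (z * x) := by rw [mul_assoc]
            _ = z := by rw [← h1, mul_one]
        have e12 : f 1 ≠ f 2 := fun h => hxz (congrArg Subtype.val h).symm
        have e13 : f 1 ≠ f 3 := fun h => by
          have h1 : z = z * x := congrArg Subtype.val h
          exact hx1 (mul_eq_left.1 h1.symm)
        have e23 : f 2 ≠ f 3 := fun h => by
          have h1 : x = z * x := congrArg Subtype.val h
          exact hz1 (mul_eq_right.1 h1.symm)
        intro i j hij
        fin_cases i <;> fin_cases j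
        · rfl
        · exact absurd hij e01
        · exact absurd hij e02
        · exact absurd hij e03
        · exact absurd hij.symm e01
        · rfl
        · exact absurd hij e12
        · exact absurd hij e13
        · exact absurd hij.symm e02
        · exact absurd hij.symm e12
        · rfl
        · exact absurd hij e23
        · exact absurd hij.symm e03
        · exact absurd hij.symm e13
        · exact absurd hij.symm e23
        · rfl
      have h5 := Nat.card_le_card_of_injective f hf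
      rwa [Nat.card_eq_fintype_card, Fintype.card_fin] at h5
    have h5 : Nat.card G * 4 ≤ (2 * 2 ^ m) * (2 * 2 ^ m) := by
      calc Nat.card G * 4 ≤ Nat.card G * Nat.card (Subgroup.center G) := Nat.mul_le_mul_left _ h4
        _ = Nat.card M * Nat.card M := hcount
        _ ≤ (2 * 2 ^ m) * (2 * 2 ^ m) := Nat.mul_le_mul (hMA.trans (Nat.mul_le_mul_left _ hb1)) (hMA.trans (Nat.mul_le_mul_left _ hb1))
    rw [hGcard] at h5
    have h6 : 2 ^ (2 * m) = 2 ^ m * 2 ^ m := by rw [two_mul, pow_add]
    have h7 : 0 < 2 ^ m := by positivity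
    rw [h6] at hE3
    have h8 : 0 < 2 ^ m * 2 ^ m := by positivity
    nlinarith
  · -- small centre
    push Not at hZ
    have hb2 : Nat.card A ≤ 2 * m := by
      refine alt_bound2 h2 ρ hρinj hAc hAi (sympB m F) sympB_nondegenerate.1 sympB_isAlt hiso hfr (by omega) ⟨z, hzA⟩ ?_ ?_
      · intro v
        rw [hρ]
        show Matrix.mulVec ((-1 : F) • (1 : Matrix (Fin m ⊕ Fin m) (Fin m ⊕ Fin m) F)) v = -v
        rw [Matrix.smul_mulVec, Matrix.one_mulVec, neg_one_smul]
      · intro x hx1 hxz
        have hxc : x.1 ∉ Subgroup.center G := by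
          intro h
          exact hxz (Subtype.ext (hZ x.1 h (fun h' => hx1 (Subtype.ext h'))))
        obtain ⟨g, hg⟩ : ∃ g : G, g * x.1 ≠ x.1 * g := by
          by_contra hcon
          push Not at hcon
          exact hxc (Subgroup.mem_center_iff.2 hcon)
        have hg' : g * x.1 = z * (x.1 * g) := (hc g x.1).resolve_left hg
        have hgm : (g.1 : Matrix (Fin m ⊕ Fin m) (Fin m ⊕ Fin m) F) * (x.1.1 : Matrix (Fin m ⊕ Fin m) (Fin m ⊕ Fin m) F) =
            ((-1 : F) • (1 : Matrix (Fin m ⊕ Fin m) (Fin m ⊕ Fin m) F)) *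
              ((x.1.1 : Matrix (Fin m ⊕ Fin m) (Fin m ⊕ Fin m) F) * (g.1 : Matrix (Fin m ⊕ Fin m) (Fin m ⊕ Fin m) F)) :=
          congrArg (fun y : G => (y.1 : Matrix (Fin m ⊕ Fin m) (Fin m ⊕ Fin m) F)) hg'
        have hginv1 : ∀ v, Matrix.mulVec (g.1 : Matrix (Fin m ⊕ Fin m) (Fin m ⊕ Fin m) F)
            (Matrix.mulVec ((g⁻¹).1 : Matrix (Fin m ⊕ Fin m) (Fin m ⊕ Fin m) F) v) = v := by
          intro v
          rw [Matrix.mulVec_mulVec]
          have h1 : (g.1 : Matrix (Fin m ⊕ Fin m) (Fin m ⊕ Fin m) F) * ((g⁻¹).1 : Matrix (Fin m ⊕ Fin m) (Fin m ⊕ Fin m) F) = 1 :=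
            congrArg (fun y : G => (y.1 : Matrix (Fin m ⊕ Fin m) (Fin m ⊕ Fin m) F)) (mul_inv_cancel g)
          rw [h1, Matrix.one_mulVec]
        have hginv2 : ∀ v, Matrix.mulVec ((g⁻¹).1 : Matrix (Fin m ⊕ Fin m) (Fin m ⊕ Fin m) F)
            (Matrix.mulVec (g.1 : Matrix (Fin m ⊕ Fin m) (Fin m ⊕ Fin m) F) v) = v := by
          intro v
          rw [Matrix.mulVec_mulVec]
          have h1 : ((g⁻¹).1 : Matrix (Fin m ⊕ Fin m) (Fin m ⊕ Fin m) F) * (g.1 : Matrix (Fin m ⊕ Fin m) (Fin m ⊕ Fin m) F) = 1 :=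
            congrArg (fun y : G => (y.1 : Matrix (Fin m ⊕ Fin m) (Fin m ⊕ Fin m) F)) (inv_mul_cancel g)
          rw [h1, Matrix.one_mulVec]
        refine ⟨LinearEquiv.ofLinear (Matrix.mulVecLin (g.1 : Matrix (Fin m ⊕ Fin m) (Fin m ⊕ Fin m) F))
          (Matrix.mulVecLin ((g⁻¹).1 : Matrix (Fin m ⊕ Fin m) (Fin m ⊕ Fin m) F)) (LinearMap.ext hginv1) (LinearMap.ext hginv2), ?_⟩
        intro v
        show Matrix.mulVec (g.1 : Matrix (Fin m ⊕ Fin m) (Fin m ⊕ Fin m) F) (Matrix.mulVec (x.1.1 : Matrix (Fin m ⊕ Fin m) (Fin m ⊕ Fin m) F) v) =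
          - Matrix.mulVec (x.1.1 : Matrix (Fin m ⊕ Fin m) (Fin m ⊕ Fin m) F) (Matrix.mulVec (g.1 : Matrix (Fin m ⊕ Fin m) (Fin m ⊕ Fin m) F) v)
        rw [Matrix.mulVec_mulVec, Matrix.mulVec_mulVec, hgm, Matrix.smul_mul, Matrix.one_mul, Matrix.smul_mulVec, neg_one_smul]
    have hcc : 2 ≤ Nat.card (Subgroup.center G) := by
      have h5 : Function.Injective (![1, ⟨z, hzcen⟩] : Fin 2 → Subgroup.center G) := by
        intro i j hij
        fin_cases i <;> fin_cases j
        · rfl
        · exact absurd (congrArg Subtype.val hij).symm hz1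
        · exact absurd (congrArg Subtype.val hij) hz1
        · rfl
      have h6 := Nat.card_le_card_of_injective _ h5
      rwa [Nat.card_eq_fintype_card, Fintype.card_fin] at h6
    have h5 : Nat.card G * 2 ≤ (2 * (2 * m)) * (2 * (2 * m)) := by
      calc Nat.card G * 2 ≤ Nat.card G * Nat.card (Subgroup.center G) := Nat.mul_le_mul_left _ hcc
        _ = Nat.card M * Nat.card M := hcount
        _ ≤ (2 * (2 * m)) * (2 * (2 * m)) := Nat.mul_le_mul (hMA.trans (Nat.mul_le_mul_left _ hb2)) (hMA.trans (Nat.mul_le_mul_left _ hb2))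
    rw [hGcard] at h5
    have h6 := four_sq_lt m hm
    nlinarith

end main

section cmp

variable {F : Type*} [Field F] [Fintype F]

theorem pom_odd_rank (hodd : Odd (Fintype.card F)) (m : ℕ) (hm : 3 ≤ m) : PRankAtLeast 2 (2 * m) (POmega F (quadFormOdd m F)) := by
  have h1 := (row_odd hodd m (by omega)).1
  have hcard : Nat.card (Subgroup.center (Omega F (quadFormOdd m F))) = 1 := by
    have h2 := Cfsg.Agent.S0292.result (F := F) rfl hodd m hm
    have h3 := Cfsg.Agent.S0286.result (F := F) rfl hodd m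
    have h4 : Nat.card (Omega F (quadFormOdd m F)) * (commutator (isometryGroup F (quadFormOdd m F))).index =
      Nat.card (isometryGroup F (quadFormOdd m F)) := Subgroup.card_mul_index _
    have h2' := odd_iff_two_ne hodd
    have h5 : (commutator (isometryGroup F (quadFormOdd m F))).index = 4 := by
      rw [← qOdd_coe, comm_index_equiv (ogEquiv (qOdd m F))]
      exact comm_index_odd h2' (nd_odd h2') (by rw [Module.finrank_fintype_fun_eq_card]; simp; omega)
    have h6 : Nat.card (Omega F (quadFormOdd m F)) = Nat.card (POmega F (quadFormOdd m F)) * Nat.card (Subgroup.center (Omega F (quadFormOdd m F))) :=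
      Subgroup.card_eq_card_quotient_mul_card_subgroup _
    rw [h5, h6, h3] at h4
    have h7 : 0 < Nat.card (POmega F (quadFormOdd m F)) := by
      rcases Nat.eq_zero_or_pos (Nat.card (POmega F (quadFormOdd m F))) with h | h
      · exfalso
        rw [h, mul_zero] at h2
        have h8 : 0 < Nat.card (isometryGroup F (quadFormOdd m F)) := Nat.card_pos
        rw [h3, mul_assoc, ← h2] at h8
        omega
      · exact h
    have h8 : 2 * Nat.card (POmega F (quadFormOdd m F)) * 2 * Nat.card (Subgroup.center (Omega F (quadFormOdd m F))) =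
        2 * Nat.card (POmega F (quadFormOdd m F)) * 2 := by
      have h9 : 2 * (2 * Nat.card (POmega F (quadFormOdd m F))) =
        2 * Fintype.card F ^ (m ^ 2) * ∏ i ∈ Finset.range m, (Fintype.card F ^ (2 * (i + 1)) - 1) := by rw [h2]; ring
      rw [← h9] at h4
      linarith
    exact Nat.eq_of_mul_eq_mul_left (by positivity) (h8.trans (mul_one _).symm)
  have hbot : Subgroup.center (Omega F (quadFormOdd m F)) = ⊥ := Subgroup.card_eq_one.1 hcard
  exact pRankAtLeast_congr ((QuotientGroup.quotientBot (G := Omega F (quadFormOdd m F))).symm.trans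
    (QuotientGroup.quotientMulEquivOfEq hbot.symm)) h1

theorem psp_not_iso (hodd : Odd (Fintype.card F)) (m : ℕ) (hm : 3 ≤ m) : IsEmpty (PSp m F ≃* POmega F (quadFormOdd m F)) :=
  ⟨fun e => psp_not_rank (odd_iff_two_ne hodd) m hm (pRankAtLeast_congr e.symm (pom_odd_rank hodd m hm))⟩

end cmp

end Cfsg.Agent.H5
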