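import Mathlib
import Cfsg.Agent.H5.GLStab

set_option autoImplicit false

/-! Sharp 3-transitivity on the projective line. -/

namespace Cfsg.Agent.H5

open Matrix Projectivization
open scoped LinearAlgebra.Projectivization

variable {F : Type*} [Field F]

theorem pair_indep {v w : Fin 2 → F} (hv : v ≠ 0) (hw : w ≠ 0) (h : Projectivization.mk F v hv ≠ Projectivization.mk F w hw) :
    LinearIndependent F ![v, w] := by
  rw [LinearIndependent.pair_iff' hv]
  intro a ha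
  apply h
  rw [Projectivization.mk_eq_mk_iff']
  have ha0 : a ≠ 0 := by rintro rfl; rw [zero_smul] at ha; exact hw ha.symm
  exact ⟨a⁻¹, by rw [← ha, smul_smul, inv_mul_cancel₀ ha0, one_smul]⟩

theorem pair_span {v w : Fin 2 → F} (h : LinearIndependent F ![v, w]) (u : Fin 2 → F) :
    ∃ a b : F, u = a • v + b • w := by
  let b := basisOfLinearIndependentOfCardEqFinrank h (by simp)
  have hb : ∀ i, b i = ![v, w] i := by
    intro i; simp [b]
  refine ⟨b.repr u 0, b.repr u 1, ?_⟩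
  have h1 := b.sum_repr u
  rw [Fin.sum_univ_two, hb, hb] at h1
  exact h1.symm

theorem exists_frame3 (x : Fin 3 ↪ ℙ F (Fin 2 → F)) : ∃ (v w : Fin 2 → F) (hv : v ≠ 0) (hw : w ≠ 0) (hvw : v + w ≠ 0),
    LinearIndependent F ![v, w] ∧ x 0 = Projectivization.mk F v hv ∧ x 1 = Projectivization.mk F w hw ∧
      x 2 = Projectivization.mk F (v + w) hvw := by
  obtain ⟨v₀, hv₀, h0⟩ : ∃ (v : Fin 2 → F) (hv : v ≠ 0), x 0 = Projectivization.mk F v hv :=
    ⟨(x 0).rep, (x 0).rep_nonzero, (x 0).mk_rep.symm⟩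
  obtain ⟨w₀, hw₀, h1⟩ : ∃ (v : Fin 2 → F) (hv : v ≠ 0), x 1 = Projectivization.mk F v hv :=
    ⟨(x 1).rep, (x 1).rep_nonzero, (x 1).mk_rep.symm⟩
  obtain ⟨u, hu, h2⟩ : ∃ (v : Fin 2 → F) (hv : v ≠ 0), x 2 = Projectivization.mk F v hv :=
    ⟨(x 2).rep, (x 2).rep_nonzero, (x 2).mk_rep.symm⟩
  have h01 : x 0 ≠ x 1 := fun h => absurd (x.injective h) (by decide)
  have h02 : x 0 ≠ x 2 := fun h => absurd (x.injective h) (by decide)
  have h12 : x 1 ≠ x 2 := fun h => absurd (x.injective h) (by decide)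
  have hli := pair_indep hv₀ hw₀ (by rw [← h0, ← h1]; exact h01)
  obtain ⟨a, b, hab⟩ := pair_span hli u
  have ha : a ≠ 0 := by
    rintro rfl
    rw [zero_smul, zero_add] at hab
    apply h12
    rw [h1, h2, eq_comm, Projectivization.mk_eq_mk_iff']
    exact ⟨b, hab.symm⟩
  have hb : b ≠ 0 := by
    rintro rfl
    rw [zero_smul, add_zero] at hab
    apply h02
    rw [h0, h2, eq_comm, Projectivization.mk_eq_mk_iff']
    exact ⟨a, hab.symm⟩
  refine ⟨a • v₀, b • w₀, smul_ne_zero ha hv₀, smul_ne_zero hb hw₀, by rw [← hab]; exact hu, ?_, ?_, ?_, ?_⟩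
  · rw [LinearIndependent.pair_iff] at hli ⊢
    intro s t hst
    rw [smul_smul, smul_smul] at hst
    obtain ⟨h3, h4⟩ := hli _ _ hst
    exact ⟨(mul_eq_zero.1 h3).resolve_right ha, (mul_eq_zero.1 h4).resolve_right hb⟩
  · rw [h0, eq_comm, Projectivization.mk_eq_mk_iff']
    exact ⟨a, rfl⟩
  · rw [h1, eq_comm, Projectivization.mk_eq_mk_iff']
    exact ⟨b, rfl⟩
  · rw [h2]
    congr 1

theorem gl_three_trans (x y : Fin 3 ↪ ℙ F (Fin 2 → F)) : ∃ g : GL (Fin 2) F, g • x = y := by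
  obtain ⟨v, w, hv, hw, hvw, hli, x0, x1, x2⟩ := exists_frame3 x
  obtain ⟨v', w', hv', hw', hvw', hli', y0, y1, y2⟩ := exists_frame3 y
  obtain ⟨e, he⟩ := exists_equiv_of_indep hli hli'
  have e0 : e v = v' := he 0
  have e1 : e w = w' := he 1
  refine ⟨mkGL e, ?_⟩
  have hg : ∀ u : Fin 2 → F, (mkGL e : GL (Fin 2) F) • u = e u := fun u => mkGL_mulVec e u
  ext i
  fin_cases i
  · show (mkGL e : GL (Fin 2) F) • x 0 = y 0
    rw [x0, y0, Projectivization.smul_mk]
    congr 1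
    rw [hg, e0]
  · show (mkGL e : GL (Fin 2) F) • x 1 = y 1
    rw [x1, y1, Projectivization.smul_mk]
    congr 1
    rw [hg, e1]
  · show (mkGL e : GL (Fin 2) F) • x 2 = y 2
    rw [x2, y2, Projectivization.smul_mk]
    congr 1
    rw [hg, map_add, e0, e1]

theorem gl_fix_three (g : GL (Fin 2) F) (x : Fin 3 ↪ ℙ F (Fin 2 → F)) (h : ∀ i, g • x i = x i) :
    ∃ c : F, ∀ u : Fin 2 → F, (g : Matrix (Fin 2) (Fin 2) F).mulVec u = c • u := by
  obtain ⟨v, w, hv, hw, hvw, hli, x0, x1, x2⟩ := exists_frame3 x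
  have h0 := h 0
  have h1 := h 1
  have h2 := h 2
  rw [x0, Projectivization.smul_mk, Projectivization.mk_eq_mk_iff'] at h0
  rw [x1, Projectivization.smul_mk, Projectivization.mk_eq_mk_iff'] at h1
  rw [x2, Projectivization.smul_mk, Projectivization.mk_eq_mk_iff'] at h2
  obtain ⟨a, ha⟩ := h0
  obtain ⟨b, hb⟩ := h1
  obtain ⟨c, hc⟩ := h2
  have ga : (g : Matrix (Fin 2) (Fin 2) F).mulVec v = a • v := ha.symm
  have gb : (g : Matrix (Fin 2) (Fin 2) F).mulVec w = b • w := hb.symm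
  have gc : (g : Matrix (Fin 2) (Fin 2) F).mulVec (v + w) = c • (v + w) := hc.symm
  rw [Matrix.mulVec_add, ga, gb, smul_add] at gc
  have h3 : (a - c) • v + (b - c) • w = 0 := by
    rw [sub_smul, sub_smul]
    have : a • v - c • v + (b • w - c • w) = (a • v + b • w) - (c • v + c • w) := by abel
    rw [this, gc, sub_self]
  rw [LinearIndependent.pair_iff] at hli
  obtain ⟨h4, h5⟩ := hli _ _ h3
  have e1 : a = c := sub_eq_zero.1 h4
  have e2 : b = c := sub_eq_zero.1 h5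
  refine ⟨c, fun u => ?_⟩
  obtain ⟨s, t, rfl⟩ := pair_span (by rw [LinearIndependent.pair_iff]; exact hli) u
  rw [Matrix.mulVec_add, Matrix.mulVec_smul, Matrix.mulVec_smul, ga, gb, e1, e2, smul_add, smul_comm s c, smul_comm t c]

end Cfsg.Agent.H5
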