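import Mathlib
import Cfsg.Prelude.Def_ClassicalGeometry
import Cfsg.Agent.H5.O6plus2
import Cfsg.Agent.S0286

set_option autoImplicit false

/-! `SO₃(3) ≅ S₄`. -/

namespace Cfsg.Agent.H5

open Cfsg

/-- sum-zero vectors -/
def S0v (F : Type*) [Field F] (n : ℕ) : Submodule F (Fin n → F) where
  carrier := {v | ∑ i, v i = 0}
  add_mem' := fun {a b} ha hb => by
    show ∑ i, (a i + b i) = 0
    rw [Finset.sum_add_distrib, show ∑ i, a i = 0 from ha, show ∑ i, b i = 0 from hb, add_zero]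
  zero_mem' := by show ∑ i : Fin n, (0 : F) = 0; simp
  smul_mem' := fun c v hv => by
    show ∑ i, c * v i = 0
    rw [← Finset.mul_sum, show ∑ i, v i = 0 from hv, mul_zero]

theorem finrank_S0v {F : Type*} [Field F] {n : ℕ} : Module.finrank F (S0v F (n + 1)) = n := by
  let T : (Fin (n + 1) → F) →ₗ[F] F := ∑ i, LinearMap.proj i
  have hT : ∀ v, T v = ∑ i, v i := by
    intro v
    simp [T, LinearMap.sum_apply]
  have hker : LinearMap.ker T = S0v F (n + 1) := by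
    ext v
    rw [LinearMap.mem_ker, hT]
    rfl
  have hsurj : LinearMap.range T = ⊤ := by
    rw [LinearMap.range_eq_top]
    intro a
    exact ⟨Pi.single 0 a, by rw [hT]; simp⟩
  have h := LinearMap.finrank_range_add_finrank_ker T
  rw [hsurj, hker, finrank_top, Module.finrank_self, Module.finrank_fin_fun] at h
  omega

/-- permutation action -/
def pact0 {F : Type*} [Field F] {n : ℕ} (σ : Equiv.Perm (Fin n)) : S0v F n →ₗ[F] S0v F n where
  toFun v := ⟨fun i => (v : Fin n → F) (σ⁻¹ i), by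
    show ∑ i, (v : Fin n → F) (σ⁻¹ i) = 0
    rw [Equiv.sum_comp σ⁻¹ (fun i => (v : Fin n → F) i)]
    exact v.2⟩
  map_add' v w := rfl
  map_smul' c v := rfl

theorem pact0_apply {F : Type*} [Field F] {n : ℕ} (σ : Equiv.Perm (Fin n)) (v : S0v F n) (i : Fin n) :
    (pact0 σ v : Fin n → F) i = (v : Fin n → F) (σ⁻¹ i) := rfl

def prep0 (F : Type*) [Field F] (n : ℕ) : Equiv.Perm (Fin n) →* (S0v F n ≃ₗ[F] S0v F n) where
  toFun σ :=
    { pact0 σ with
      invFun := pact0 σ⁻¹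
      left_inv := fun v => by
        apply Subtype.ext; funext i
        show (v : Fin n → F) (σ⁻¹ (σ⁻¹⁻¹ i)) = _
        simp
      right_inv := fun v => by
        apply Subtype.ext; funext i
        show (v : Fin n → F) (σ⁻¹⁻¹ (σ⁻¹ i)) = _
        simp }
  map_one' := LinearEquiv.ext (fun v => rfl)
  map_mul' σ τ := LinearEquiv.ext (fun v => by
    apply Subtype.ext; funext i
    show (v : Fin n → F) ((σ * τ)⁻¹ i) = (v : Fin n → F) (τ⁻¹ (σ⁻¹ i))
    rw [_root_.mul_inv_rev]; rfl)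

theorem prep0_apply {F : Type*} [Field F] {n : ℕ} (σ : Equiv.Perm (Fin n)) (v : S0v F n) (i : Fin n) :
    ((prep0 F n σ v : S0v F n) : Fin n → F) i = (v : Fin n → F) (σ⁻¹ i) := rfl

/-- coordinates -/
def e33 {F : Type*} [Field F] (h3 : (3 : F) = 0) : (Unit ⊕ (Fin 1 ⊕ Fin 1) → F) ≃ₗ[F] S0v F 4 where
  toFun x := ⟨![x (.inl ()) + x (.inr (.inl 0)) - x (.inr (.inr 0)), -x (.inl ()) + x (.inr (.inl 0)) - x (.inr (.inr 0)),
      x (.inr (.inl 0)), -x (.inr (.inr 0))], by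
    show ∑ i : Fin 4, _ = _
    rw [Fin.sum_univ_four]
    show (x (.inl ()) + x (.inr (.inl 0)) - x (.inr (.inr 0))) + (-x (.inl ()) + x (.inr (.inl 0)) - x (.inr (.inr 0))) +
      x (.inr (.inl 0)) + -x (.inr (.inr 0)) = 0
    linear_combination (x (.inr (.inl 0)) - x (.inr (.inr 0))) * h3⟩
  map_add' x y := by
    apply Subtype.ext
    funext i
    fin_cases i
    · show (x (.inl ()) + y (.inl ())) + (x (.inr (.inl 0)) + y (.inr (.inl 0))) - (x (.inr (.inr 0)) + y (.inr (.inr 0))) =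
        (x (.inl ()) + x (.inr (.inl 0)) - x (.inr (.inr 0))) + (y (.inl ()) + y (.inr (.inl 0)) - y (.inr (.inr 0)))
      ring
    · show -(x (.inl ()) + y (.inl ())) + (x (.inr (.inl 0)) + y (.inr (.inl 0))) - (x (.inr (.inr 0)) + y (.inr (.inr 0))) =
        (-x (.inl ()) + x (.inr (.inl 0)) - x (.inr (.inr 0))) + (-y (.inl ()) + y (.inr (.inl 0)) - y (.inr (.inr 0)))
      ring
    · rfl
    · show -(x (.inr (.inr 0)) + y (.inr (.inr 0))) = -x (.inr (.inr 0)) + -y (.inr (.inr 0))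
      ring
  map_smul' c x := by
    apply Subtype.ext
    funext i
    fin_cases i
    · show c * x (.inl ()) + c * x (.inr (.inl 0)) - c * x (.inr (.inr 0)) = c * (x (.inl ()) + x (.inr (.inl 0)) - x (.inr (.inr 0)))
      ring
    · show -(c * x (.inl ())) + c * x (.inr (.inl 0)) - c * x (.inr (.inr 0)) = c * (-x (.inl ()) + x (.inr (.inl 0)) - x (.inr (.inr 0)))
      ring
    · rfl
    · show -(c * x (.inr (.inr 0))) = c * (-x (.inr (.inr 0)))
      ring
  invFun v := fun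
    | .inl _ => (v : Fin 4 → F) 0 - (v : Fin 4 → F) 2 - (v : Fin 4 → F) 3
    | .inr (.inl _) => (v : Fin 4 → F) 2
    | .inr (.inr _) => -(v : Fin 4 → F) 3
  left_inv x := by
    funext k
    rcases k with k | k | k
    · show (x (.inl ()) + x (.inr (.inl 0)) - x (.inr (.inr 0))) - x (.inr (.inl 0)) - (-x (.inr (.inr 0))) = x (.inl k)
      cases k; ring
    · fin_cases k; rfl
    · fin_cases k
      show - -x (.inr (.inr 0)) = x (.inr (.inr 0))
      ring
  right_inv v := by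
    have hs : (v : Fin 4 → F) 0 + (v : Fin 4 → F) 1 + (v : Fin 4 → F) 2 + (v : Fin 4 → F) 3 = 0 := by
      have := v.2
      have h : ∑ i, (v : Fin 4 → F) i = 0 := this
      rwa [Fin.sum_univ_four] at h
    apply Subtype.ext
    funext i
    fin_cases i
    · show ((v : Fin 4 → F) 0 - (v : Fin 4 → F) 2 - (v : Fin 4 → F) 3) + (v : Fin 4 → F) 2 - (-(v : Fin 4 → F) 3) = (v : Fin 4 → F) 0
      ring
    · show -((v : Fin 4 → F) 0 - (v : Fin 4 → F) 2 - (v : Fin 4 → F) 3) + (v : Fin 4 → F) 2 - (-(v : Fin 4 → F) 3) = (v : Fin 4 → F) 1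
      linear_combination -hs + ((v : Fin 4 → F) 2 + (v : Fin 4 → F) 3) * h3
    · rfl
    · show -(-(v : Fin 4 → F) 3) = (v : Fin 4 → F) 3
      ring

theorem e33_form {F : Type*} [Field F] (h3 : (3 : F) = 0) (x : Unit ⊕ (Fin 1 ⊕ Fin 1) → F) :
    -∑ i, ((e33 h3 x : S0v F 4) : Fin 4 → F) i * ((e33 h3 x : S0v F 4) : Fin 4 → F) i = quadFormOdd 1 F x := by
  rw [Fin.sum_univ_four]
  show -((x (.inl ()) + x (.inr (.inl 0)) - x (.inr (.inr 0))) * (x (.inl ()) + x (.inr (.inl 0)) - x (.inr (.inr 0))) +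
    (-x (.inl ()) + x (.inr (.inl 0)) - x (.inr (.inr 0))) * (-x (.inl ()) + x (.inr (.inl 0)) - x (.inr (.inr 0))) +
    x (.inr (.inl 0)) * x (.inr (.inl 0)) + (-x (.inr (.inr 0))) * (-x (.inr (.inr 0)))) = _
  simp only [quadFormOdd, Fin.sum_univ_one]
  linear_combination (-(x (.inl ()) ^ 2 + x (.inr (.inl 0)) ^ 2 + x (.inr (.inr 0)) ^ 2 - x (.inr (.inl 0)) * x (.inr (.inr 0)))) * h3

/-- `SO₃(3) ≅ S₄` -/
theorem so33 {F : Type*} [Field F] [Fintype F] (hF : Fintype.card F = 3) :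
    Nonempty (↥(specialIsometryGroup F (quadFormOdd 1 F)) ≃* Equiv.Perm (Fin 4)) := by
  classical
  have h3 : (3 : F) = 0 := by
    have h1 : ((Fintype.card F : ℕ) : F) = 0 := by simp
    rw [hF] at h1
    exact_mod_cast h1
  have h2 : (2 : F) ≠ 0 := by
    intro h; apply one_ne_zero (α := F); linear_combination h3 - h
  have hu : ∀ u : Fˣ, u * u = 1 := by
    intro u
    have h1 := FiniteField.pow_card_sub_one_eq_one (u : F) u.ne_zero
    rw [hF] at h1
    apply Units.ext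
    rw [Units.val_mul, Units.val_one, ← pow_two]
    exact h1
  set Q := quadFormOdd 1 F with hQ
  have hQs : ∀ (u : Fˣ) (x : Unit ⊕ (Fin 1 ⊕ Fin 1) → F), Q ((u : F) • x) = Q x := by
    intro u x
    have h1 : (u : F) * u = 1 := by
      rw [← Units.val_mul, hu, Units.val_one]
    simp only [hQ, quadFormOdd, Fin.sum_univ_one, Pi.smul_apply, smul_eq_mul]
    linear_combination (x (.inl ()) ^ 2 + x (.inr (.inl 0)) * x (.inr (.inr 0))) * h1
  let e := e33 h3
  have hρ : ∀ (g : Equiv.Perm (Fin 4)) (x : Unit ⊕ (Fin 1 ⊕ Fin 1) → F),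
      Q (e.symm (prep0 F 4 g (e x))) = Q x := by
    intro g x
    rw [hQ, ← e33_form h3, ← e33_form h3]
    have h4 : e33 h3 (e.symm (prep0 F 4 g (e x))) = prep0 F 4 g (e x) := e.apply_symm_apply _
    rw [h4]
    congr 1
    exact Equiv.sum_comp g⁻¹ (fun i => ((e x : S0v F 4) : Fin 4 → F) i * ((e x : S0v F 4) : Fin 4 → F) i)
  let f := isomHom Q e (prep0 F 4) hρ
  have hfm : ∀ g x, ((f g : Matrix.GeneralLinearGroup (Unit ⊕ (Fin 1 ⊕ Fin 1)) F) : Matrix (Unit ⊕ (Fin 1 ⊕ Fin 1)) (Unit ⊕ (Fin 1 ⊕ Fin 1)) F).mulVec x = e.symm (prep0 F 4 g (e x)) := by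
    intro g x
    show ((mkGL ((e.trans (prep0 F 4 g)).trans e.symm) : Matrix.GeneralLinearGroup (Unit ⊕ (Fin 1 ⊕ Fin 1)) F) : Matrix (Unit ⊕ (Fin 1 ⊕ Fin 1)) (Unit ⊕ (Fin 1 ⊕ Fin 1)) F).mulVec x = _
    rw [mkGL_mulVec]
    rfl
  -- the twist
  let sc : Fˣ →* isometryGroup F Q :=
    { toFun := fun u => ⟨Matrix.GeneralLinearGroup.scalar _ u, fun x _ => by
        show Q (((Matrix.GeneralLinearGroup.scalar (Unit ⊕ (Fin 1 ⊕ Fin 1)) u : Matrix.GeneralLinearGroup (Unit ⊕ (Fin 1 ⊕ Fin 1)) F) : Matrix (Unit ⊕ (Fin 1 ⊕ Fin 1)) (Unit ⊕ (Fin 1 ⊕ Fin 1)) F).mulVec x) = Q x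
        rw [Matrix.GeneralLinearGroup.coe_scalar]
        have : (Matrix.scalar (Unit ⊕ (Fin 1 ⊕ Fin 1)) (u : F)).mulVec x = (u : F) • x := by
          rw [Matrix.scalar_apply, ← Matrix.smul_one_eq_diagonal, Matrix.smul_mulVec, Matrix.one_mulVec]
        rw [this, hQs]⟩
      map_one' := Subtype.ext (map_one _)
      map_mul' := fun a b => Subtype.ext (map_mul _ _ _) }
  have hscm : ∀ (u : Fˣ) (x : Unit ⊕ (Fin 1 ⊕ Fin 1) → F), ((sc u : Matrix.GeneralLinearGroup (Unit ⊕ (Fin 1 ⊕ Fin 1)) F) : Matrix (Unit ⊕ (Fin 1 ⊕ Fin 1)) (Unit ⊕ (Fin 1 ⊕ Fin 1)) F).mulVec x = (u : F) • x := by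
    intro u x
    show (((Matrix.GeneralLinearGroup.scalar (Unit ⊕ (Fin 1 ⊕ Fin 1)) u : Matrix.GeneralLinearGroup (Unit ⊕ (Fin 1 ⊕ Fin 1)) F) : Matrix (Unit ⊕ (Fin 1 ⊕ Fin 1)) (Unit ⊕ (Fin 1 ⊕ Fin 1)) F).mulVec x) = _
    rw [Matrix.GeneralLinearGroup.coe_scalar, Matrix.scalar_apply, ← Matrix.smul_one_eq_diagonal, Matrix.smul_mulVec, Matrix.one_mulVec]
  have hscc : ∀ (u : Fˣ) (g : isometryGroup F Q), sc u * g = g * sc u := by
    intro u g
    apply Subtype.ext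
    apply gl_ext_mulVec
    intro x
    show (((sc u : Matrix.GeneralLinearGroup (Unit ⊕ (Fin 1 ⊕ Fin 1)) F) : Matrix (Unit ⊕ (Fin 1 ⊕ Fin 1)) (Unit ⊕ (Fin 1 ⊕ Fin 1)) F) * ((g : Matrix.GeneralLinearGroup (Unit ⊕ (Fin 1 ⊕ Fin 1)) F) : Matrix (Unit ⊕ (Fin 1 ⊕ Fin 1)) (Unit ⊕ (Fin 1 ⊕ Fin 1)) F)).mulVec x =
      (((g : Matrix.GeneralLinearGroup (Unit ⊕ (Fin 1 ⊕ Fin 1)) F) : Matrix (Unit ⊕ (Fin 1 ⊕ Fin 1)) (Unit ⊕ (Fin 1 ⊕ Fin 1)) F) * ((sc u : Matrix.GeneralLinearGroup (Unit ⊕ (Fin 1 ⊕ Fin 1)) F) : Matrix (Unit ⊕ (Fin 1 ⊕ Fin 1)) (Unit ⊕ (Fin 1 ⊕ Fin 1)) F)).mulVec x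
    rw [← Matrix.mulVec_mulVec, ← Matrix.mulVec_mulVec, hscm, hscm, Matrix.mulVec_smul]
  let dt : isometryGroup F Q →* Fˣ := Matrix.GeneralLinearGroup.det.comp (isometryGroup F Q).subtype
  have hdsc : ∀ u, dt (sc u) = u := by
    intro u
    apply Units.ext
    show (Matrix.scalar (Unit ⊕ (Fin 1 ⊕ Fin 1)) (u : F)).det = u
    rw [Matrix.scalar_apply, Matrix.det_diagonal, Finset.prod_const]
    have h5 : (Finset.univ : Finset (Unit ⊕ (Fin 1 ⊕ Fin 1))).card = 3 := by decide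
    rw [h5, pow_succ, pow_two]
    have h1 : (u : F) * u = 1 := by
      rw [← Units.val_mul, hu, Units.val_one]
    rw [h1, one_mul]
  let tw : isometryGroup F Q →* isometryGroup F Q :=
    { toFun := fun g => sc (dt g) * g
      map_one' := by rw [map_one, map_one, mul_one]
      map_mul' := fun a b => by
        rw [map_mul, map_mul]
        calc sc (dt a) * sc (dt b) * (a * b) = sc (dt a) * (sc (dt b) * a) * b := by group
          _ = sc (dt a) * (a * sc (dt b)) * b := by rw [hscc (dt b) a]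
          _ = _ := by group }
  have htw : ∀ g, tw g ∈ specialIsometryGroup F Q := by
    intro g
    show dt (sc (dt g) * g) = 1
    rw [map_mul, hdsc, hu]
  let f' : Equiv.Perm (Fin 4) →* specialIsometryGroup F Q := (tw.comp f).codRestrict _ (fun g => htw (f g))
  have hf' : Function.Injective f' := by
    rw [injective_iff_map_eq_one]
    intro σ hσ
    have h1 : sc (dt (f σ)) * f σ = 1 := congrArg Subtype.val hσ
    have h4 : ∀ v : S0v F 4, ((dt (f σ) : Fˣ) : F) • prep0 F 4 σ v = v := by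
      intro v
      have h5 : (((sc (dt (f σ)) : Matrix.GeneralLinearGroup (Unit ⊕ (Fin 1 ⊕ Fin 1)) F) : Matrix (Unit ⊕ (Fin 1 ⊕ Fin 1)) (Unit ⊕ (Fin 1 ⊕ Fin 1)) F) *
        ((f σ : Matrix.GeneralLinearGroup (Unit ⊕ (Fin 1 ⊕ Fin 1)) F) : Matrix (Unit ⊕ (Fin 1 ⊕ Fin 1)) (Unit ⊕ (Fin 1 ⊕ Fin 1)) F)).mulVec (e.symm v) = e.symm v := by
        have h6 := congrArg (fun g : isometryGroup F Q => ((g : Matrix.GeneralLinearGroup (Unit ⊕ (Fin 1 ⊕ Fin 1)) F) : Matrix (Unit ⊕ (Fin 1 ⊕ Fin 1)) (Unit ⊕ (Fin 1 ⊕ Fin 1)) F).mulVec (e.symm v)) h1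
        have h7 : (1 : Matrix (Unit ⊕ (Fin 1 ⊕ Fin 1)) (Unit ⊕ (Fin 1 ⊕ Fin 1)) F).mulVec (e.symm v) = e.symm v := Matrix.one_mulVec _
        exact h6.trans h7
      rw [← Matrix.mulVec_mulVec, hscm, hfm, e.apply_symm_apply, ← map_smul] at h5
      exact e.symm.injective h5
    have hc0 : ((dt (f σ) : Fˣ) : F) ≠ 0 := Units.ne_zero _
    have hinv : σ⁻¹ = 1 := by
      apply Equiv.ext
      intro x
      by_contra hne
      rw [Equiv.Perm.one_apply] at hne
      obtain ⟨w, hw⟩ : ∃ w, w ∉ ({x, σ⁻¹ x} : Finset (Fin 4)) := by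
        by_contra hcon
        push Not at hcon
        have h8 : Fintype.card (Fin 4) ≤ ({x, σ⁻¹ x} : Finset (Fin 4)).card := Finset.card_le_card (fun y _ => hcon y)
        have h9 : ({x, σ⁻¹ x} : Finset (Fin 4)).card ≤ 2 := Finset.card_le_two
        rw [Fintype.card_fin] at h8
        omega
      simp only [Finset.mem_insert, Finset.mem_singleton, not_or] at hw
      let v : S0v F 4 := ⟨Pi.single x 1 - Pi.single w 1, by
        show ∑ i, (Pi.single x 1 - Pi.single w 1 : Fin 4 → F) i = 0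
        simp⟩
      have hv : ∀ k, (v : Fin 4 → F) k = (if k = x then 1 else 0) - (if k = w then 1 else 0) := by
        intro k
        show (Pi.single x 1 - Pi.single w 1 : Fin 4 → F) k = _
        rw [Pi.sub_apply, Pi.single_apply, Pi.single_apply]
      have h8 := congrArg (fun y : S0v F 4 => (y : Fin 4 → F) x) (h4 v)
      have h9 : ((dt (f σ) : Fˣ) : F) * (v : Fin 4 → F) (σ⁻¹ x) = (v : Fin 4 → F) x := h8
      rw [hv, hv, if_neg hne, if_neg (Ne.symm hw.2), if_pos rfl, if_neg (Ne.symm hw.1), sub_zero, mul_zero, sub_zero] at h9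
      exact zero_ne_one h9
    rw [← inv_inv σ, hinv, inv_one]
  have hcardO : Nat.card (isometryGroup F Q) = 48 := by
    rw [hQ, Cfsg.Agent.S0286.result hF (by decide) 1]
    simp
  haveI : Finite (isometryGroup F Q) := Nat.finite_of_card_ne_zero (by rw [hcardO]; norm_num)
  have hidx : (specialIsometryGroup F Q).index = 2 := by
    have h1 : (specialIsometryGroup F Q).index = Nat.card dt.range := Subgroup.index_ker dt
    rw [h1]
    have h4 : dt.range = ⊤ := by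
      rw [MonoidHom.range_eq_top]
      intro u
      exact ⟨sc u, hdsc u⟩
    rw [h4, Subgroup.card_top, Nat.card_units, Nat.card_eq_fintype_card, hF]
  have hcard : Nat.card (specialIsometryGroup F Q) = 24 := by
    have := (specialIsometryGroup F Q).card_mul_index
    rw [hidx, hcardO] at this
    omega
  have hbij : Function.Bijective f' := by
    rw [Nat.bijective_iff_injective_and_card]
    refine ⟨hf', ?_⟩
    rw [hcard, Nat.card_perm, Nat.card_fin]
    rfl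
  exact ⟨(MulEquiv.ofBijective f' hbij).symm⟩

end Cfsg.Agent.H5
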