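import Mathlib
import Cfsg.Agent.H5.ChD4d
import Cfsg.Agent.H6.TwAut
import Cfsg.Agent.H6.TwTab
import Cfsg.Agent.H6.ChevExtTab
set_option autoImplicit false

/-! Triality of `PΩ₈⁺(F)` with its action on root elements. -/

namespace Cfsg.Agent.H5
open Cfsg.Lie Matrix Cfsg

/-- the permutation of the roots -/
def tauD4 (r : ℕ) : ℕ := [0,1,6,2,7,10,3,8,4,9,11,5,18,12,14,19,15,20,13,16,21,17,22,23].getD r 0

/-- the signs -/
def epsD4 (r : ℕ) : ℤ := if r ∈ [2,4,6,8,15,17,19,21] then -1 else 1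

theorem tau_eq : ∀ r < 24, Cfsg.Agent.H6.sP Cfsg.Agent.H6.WD4a.RT r = tauD4 r := by decide +kernel
theorem eps_eq : ∀ r < 24, Cfsg.Agent.H6.epF Cfsg.Agent.H6.WD4a.ET r = epsD4 r := by decide +kernel
theorem tau_lt : ∀ r < 24, tauD4 r < 24 := by decide +kernel
theorem tau3 : ∀ r < 24, tauD4 (tauD4 (tauD4 r)) = r := by decide +kernel
theorem eps3 : ∀ r < 24, epsD4 r * epsD4 (tauD4 r) * epsD4 (tauD4 (tauD4 r)) = 1 := by decide +kernel
theorem tau_neg : ∀ r < 24, tauD4 (23 - r) = 23 - tauD4 r := by decide +kernel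
theorem eps_neg : ∀ r < 24, epsD4 (23 - r) = epsD4 r := by decide +kernel

theorem mulAut_cube {G : Type*} [Group G] (ρ : MulAut G) (x : G) : (ρ ^ 3) x = ρ (ρ (ρ x)) := rfl

theorem cube_one_of {G : Type*} [Group G] (ρ : MulAut G) (S : Set G) (hS : Subgroup.closure S = ⊤) (h : ∀ x ∈ S, ρ (ρ (ρ x)) = x) :
    ρ ^ 3 = 1 := by
  apply MulEquiv.ext
  intro x
  rw [mulAut_cube, MulAut.one_apply]
  have hx : x ∈ Subgroup.closure S := by rw [hS]; trivial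
  induction hx using Subgroup.closure_induction with
  | mem y hy => exact h y hy
  | one => rw [map_one, map_one, map_one]
  | mul a b _ _ ha hb => rw [map_mul, map_mul, map_mul, ha, hb]
  | inv a _ ha => rw [map_inv, map_inv, map_inv, ha]

theorem transport_aut {A B : Type*} [Group A] [Group B] (e : A ≃* B) (σ : MulAut A) :
    ∃ ρ : MulAut B, (∀ x, ρ (e x) = e (σ x)) ∧ (σ ^ 3 = 1 → ρ ^ 3 = 1) := by
  refine ⟨(e.symm.trans σ).trans e, fun x => ?_, fun h => ?_⟩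
  · show e (σ (e.symm (e x))) = _
    rw [e.symm_apply_apply]
  · apply MulEquiv.ext
    intro x
    rw [mulAut_cube]
    show e (σ (e.symm (e (σ (e.symm (e (σ (e.symm x)))))))) = x
    rw [e.symm_apply_apply, e.symm_apply_apply, ← mulAut_cube, h, MulAut.one_apply, e.apply_symm_apply]

theorem closure_surj_top {G H : Type*} [Group G] [Group H] (e : G →* H) (he : Function.Surjective e) {S : Set G}
    (h : Subgroup.closure S = ⊤) : Subgroup.closure (e '' S) = ⊤ := by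
  rw [← MonoidHom.map_closure, h, ← MonoidHom.range_eq_map, MonoidHom.range_eq_top.2 he]

section
variable {F : Type*} [Field F]

/-- the graph automorphism of the Chevalley group on all root elements -/
theorem d4_graph (F : Type*) [Field F] : ∃ σ : ↥(chevD4.group F) ≃* ↥(chevD4.group F), ∀ (r : ℕ) (_ : r < 24) (t : F) (g : ↥(chevD4.group F)),
    ((g : GL chevD4.Idx F) : Matrix chevD4.Idx chevD4.Idx F) = chevD4.x F r t →
      ((σ g : GL chevD4.Idx F) : Matrix chevD4.Idx chevD4.Idx F) = chevD4.x F (tauD4 r) ((epsD4 r : ℤ) * t) := by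
  have hz : ((0 : ℕ) : F) = 0 := Nat.cast_zero
  have hl : ∀ r, Cfsg.Agent.H6.lamF 0 Cfsg.Agent.H6.WD4a.LT r = 1 := by
    intro r; simp [Cfsg.Agent.H6.lamF, Cfsg.Agent.H6.WD4a.LT]
  have hadd : ∀ r < chevD4.nroots, ∀ t u : F, (t + u) ^ (Cfsg.Agent.H6.lamF 0 Cfsg.Agent.H6.WD4a.LT r * 1) =
      t ^ (Cfsg.Agent.H6.lamF 0 Cfsg.Agent.H6.WD4a.LT r * 1) + u ^ (Cfsg.Agent.H6.lamF 0 Cfsg.Agent.H6.WD4a.LT r * 1) := by
    intro r _ t u
    rw [hl r]; simp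
  have hsurj : ∀ r < chevD4.nroots, Function.Surjective fun t : F => t ^ (Cfsg.Agent.H6.lamF 0 Cfsg.Agent.H6.WD4a.LT r * 1) := by
    intro r _ t
    rw [hl r]; exact ⟨t, by simp⟩
  obtain ⟨σ, hS⟩ := Cfsg.Agent.H6.WD4a.tw.exists_endo Cfsg.Agent.H6.TD4.good Cfsg.Agent.H6.TD4.ext hz hadd hsurj
  have hb := hS.bijective Cfsg.Agent.H6.WD4a.tw Cfsg.Agent.H6.TD4.ext hz hadd hsurj
  refine ⟨MulEquiv.ofBijective σ hb, ?_⟩
  intro r hr t g h
  show ((σ g : GL chevD4.Idx F) : Matrix chevD4.Idx chevD4.Idx F) = _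
  rw [Cfsg.Agent.H6.TD4.good.eq_xg_iff] at h ⊢
  have h1 := hS.x r hr t
  have h2 : g = ⟨Cfsg.Agent.H6.xg chevD4 F r t, Cfsg.Agent.H6.TD4.good.xg_mem_group r t⟩ := Subtype.ext h
  rw [h2]
  rw [Cfsg.Agent.H6.sgf_of (Cfsg.Agent.H6.TD4.good.xg_mem_group r t)] at h1
  rw [h1]
  unfold Cfsg.Agent.H6.tX
  rw [hl, tau_eq r hr, eps_eq r hr, one_mul, pow_one]

/-- the root elements generate -/
theorem og_gen : Subgroup.closure {g : OG (qPlus 4 F) | ∃ r < 24, ∃ t, g = xr F r t} = commutator (OG (qPlus 4 F)) := by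
  have hrange : (psiD4 F).range = commutator (OG (qPlus 4 F)) := le_antisymm (range_le_comm d4_perf) comm_le_range
  rw [← hrange, MonoidHom.range_eq_map, ← PresentedGroup.closure_range_of, MonoidHom.map_closure]
  congr 1
  ext g
  constructor
  · rintro ⟨r, hr, t, rfl⟩
    refine ⟨PresentedGroup.of (⟨r, hr⟩, t), ⟨_, rfl⟩, ?_⟩
    exact PresentedGroup.toGroup.of _
  · rintro ⟨_, ⟨⟨r, t⟩, rfl⟩, rfl⟩
    refine ⟨r.1, r.2, t, ?_⟩
    exact PresentedGroup.toGroup.of _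

/-- the class of a root element -/
noncomputable def xq (F : Type*) [Field F] (r : ℕ) (t : F) :
    commutator (OG (qPlus 4 F)) ⧸ Subgroup.center (commutator (OG (qPlus 4 F))) :=
  if hr : r < 24 then QuotientGroup.mk ⟨xr F r t, xr_mem_comm r hr t⟩ else 1

theorem xq_of {r : ℕ} (hr : r < 24) (t : F) : xq F r t = QuotientGroup.mk ⟨xr F r t, xr_mem_comm r hr t⟩ := by
  unfold xq; rw [dif_pos hr]

theorem xq_gen : Subgroup.closure {g : commutator (OG (qPlus 4 F)) ⧸ Subgroup.center (commutator (OG (qPlus 4 F))) |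
    ∃ r < 24, ∃ t, g = xq F r t} = ⊤ := by
  have h1 : Subgroup.closure {g : commutator (OG (qPlus 4 F)) | ∃ (r : ℕ) (hr : r < 24) (t : F), g = ⟨xr F r t, xr_mem_comm r hr t⟩} = ⊤ := by
    apply Subgroup.map_injective (commutator (OG (qPlus 4 F))).subtype_injective
    rw [MonoidHom.map_closure, ← MonoidHom.range_eq_map, Subgroup.range_subtype]
    refine Eq.trans ?_ og_gen
    congr 1
    ext g
    constructor
    · rintro ⟨_, ⟨r, hr, t, rfl⟩, rfl⟩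
      exact ⟨r, hr, t, rfl⟩
    · rintro ⟨r, hr, t, rfl⟩
      exact ⟨_, ⟨r, hr, t, rfl⟩, rfl⟩
  have h2 := closure_surj_top (QuotientGroup.mk' (Subgroup.center (commutator (OG (qPlus 4 F))))) (QuotientGroup.mk'_surjective _) h1
  rw [← h2]
  congr 1
  ext g
  constructor
  · rintro ⟨r, hr, t, rfl⟩
    exact ⟨_, ⟨r, hr, t, rfl⟩, (xq_of hr t).symm⟩
  · rintro ⟨_, ⟨r, hr, t, rfl⟩, rfl⟩
    exact ⟨r, hr, t, (xq_of hr t).symm⟩

/-- triality on the central quotient of the commutator group -/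
theorem triality_q (F : Type*) [Field F] :
    ∃ ρ : MulAut (commutator (OG (qPlus 4 F)) ⧸ Subgroup.center (commutator (OG (qPlus 4 F)))),
      (∀ r < 24, ∀ t : F, ρ (xq F r t) = xq F (tauD4 r) ((epsD4 r : ℤ) * t)) ∧ ρ ^ 3 = 1 := by
  obtain ⟨f, hf⟩ := d4_iso F
  obtain ⟨σ, hσ⟩ := d4_graph F
  obtain ⟨ρ, hρ, -⟩ := transport_aut f σ
  have h1 : ∀ r < 24, ∀ t : F, ρ (xq F r t) = xq F (tauD4 r) ((epsD4 r : ℤ) * t) := by
    intro r hr t
    let g : ↥(chevD4.group F) := ⟨Cfsg.Agent.H6.xg chevD4 F r t, Cfsg.Agent.H6.TD4.good.xg_mem_group r t⟩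
    have hg : ((g : GL chevD4.Idx F) : Matrix chevD4.Idx chevD4.Idx F) = chevD4.x F r t :=
      Cfsg.Agent.H6.TD4.good.eq_xg_iff.2 rfl
    have h2 := hf r hr t g hg
    have h3 := hf (tauD4 r) (tau_lt r hr) ((epsD4 r : ℤ) * t) (σ g) (hσ r hr t g hg)
    have h2' : xq F r t = f g := (xq_of hr t).trans h2.symm
    have h3' : xq F (tauD4 r) ((epsD4 r : ℤ) * t) = f (σ g) := (xq_of (tau_lt r hr) _).trans h3.symm
    exact (congrArg ρ h2').trans ((hρ g).trans h3'.symm)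
  refine ⟨ρ, h1, ?_⟩
  have h4 : ∀ r < 24, ∀ t : F, ρ (ρ (ρ (xq F r t))) = xq F r t := by
    intro r hr t
    have a1 := h1 r hr t
    have a2 := h1 (tauD4 r) (tau_lt r hr) ((epsD4 r : ℤ) * t)
    have a3 := h1 (tauD4 (tauD4 r)) (tau_lt _ (tau_lt r hr)) ((epsD4 (tauD4 r) : ℤ) * ((epsD4 r : ℤ) * t))
    have h5 : ((epsD4 (tauD4 (tauD4 r)) : ℤ) : F) * (((epsD4 (tauD4 r) : ℤ) : F) * (((epsD4 r : ℤ) : F) * t)) = t := by
      have h6 : ((epsD4 (tauD4 (tauD4 r)) : ℤ) : F) * (((epsD4 (tauD4 r) : ℤ) : F) * (((epsD4 r : ℤ) : F) * t)) =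
        ((epsD4 r * epsD4 (tauD4 r) * epsD4 (tauD4 (tauD4 r)) : ℤ) : F) * t := by push_cast; ring
      rw [h6, eps3 r hr, Int.cast_one, one_mul]
    rw [h5, tau3 r hr] at a3
    exact (congrArg ρ (congrArg ρ a1)).trans ((congrArg ρ a2).trans a3)
  apply cube_one_of ρ _ xq_gen
  rintro _ ⟨r, hr, t, rfl⟩
  exact h4 r hr t

/-- the class of a root element in `PΩ` -/
noncomputable def xp (F : Type*) [Field F] (r : ℕ) (t : F) : POmega F ⇑(qPlus 4 F) := (pomOG (qPlus 4 F)).symm (xq F r t)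

theorem xp_gen : Subgroup.closure {g : POmega F ⇑(qPlus 4 F) | ∃ r < 24, ∃ t, g = xp F r t} = ⊤ := by
  have h2 := closure_surj_top (pomOG (qPlus 4 F)).symm.toMonoidHom (pomOG (qPlus 4 F)).symm.surjective (xq_gen (F := F))
  rw [← h2]
  congr 1
  ext g
  constructor
  · rintro ⟨r, hr, t, rfl⟩
    exact ⟨_, ⟨r, hr, t, rfl⟩, rfl⟩
  · rintro ⟨_, ⟨r, hr, t, rfl⟩, rfl⟩
    exact ⟨r, hr, t, rfl⟩

/-- triality on `PΩ₈⁺(F)` -/
theorem triality (F : Type*) [Field F] : ∃ ρ : MulAut (POmega F ⇑(qPlus 4 F)),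
      (∀ r < 24, ∀ t : F, ρ (xp F r t) = xp F (tauD4 r) ((epsD4 r : ℤ) * t)) ∧ ρ ^ 3 = 1 := by
  obtain ⟨ρ, h1, h2⟩ := triality_q F
  obtain ⟨ρ', hρ, h3⟩ := transport_aut (pomOG (qPlus 4 F)).symm ρ
  refine ⟨ρ', ?_, h3 h2⟩
  intro r hr t
  have h4 := hρ (xq F r t)
  rw [h1 r hr t] at h4
  exact h4

end

end Cfsg.Agent.H5
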