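import Mathlib
import Cfsg.Agent.H5.SpStab
set_option autoImplicit false

/-! The torus normaliser of `Sp_2m`. -/

namespace Cfsg.Agent.H5

open Matrix Cfsg Module

section perm

/-- the pairing involution -/
def star' (m : ℕ) : Equiv.Perm (Fin m ⊕ Fin m) := Equiv.sumComm (Fin m) (Fin m)

theorem star_inl {m : ℕ} (i : Fin m) : star' m (Sum.inl i) = Sum.inr i := rfl
theorem star_inr {m : ℕ} (i : Fin m) : star' m (Sum.inr i) = Sum.inl i := rfl
theorem star_star {m : ℕ} (i : Fin m ⊕ Fin m) : star' m (star' m i) = i := by rcases i with i | i <;> rfl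
theorem star_ne {m : ℕ} (i : Fin m ⊕ Fin m) : star' m i ≠ i := by
  rcases i with i | i
  · rw [star_inl]; exact Sum.inr_ne_inl
  · rw [star_inr]; exact Sum.inl_ne_inr

theorem card_weyl (m : ℕ) : Nat.card (Subgroup.centralizer {star' m}) = 2 ^ m * Nat.factorial m := by
  classical
  rcases Nat.eq_zero_or_pos m with rfl | hm
  · have : Subsingleton (Subgroup.centralizer {star' 0}) := ⟨fun x y => Subtype.ext (Subsingleton.elim _ _)⟩
    rw [Nat.card_eq_one_iff_unique.mpr ⟨this, inferInstance⟩]
    rfl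
  · have hord : orderOf (star' m) = 2 := by
      apply orderOf_eq_prime
      · ext i; rw [pow_two, Equiv.Perm.mul_apply, star_star]; rfl
      · intro h
        exact star_ne (Sum.inl ⟨0, hm⟩) (by rw [h]; rfl)
    obtain ⟨k, hk⟩ := Equiv.Perm.cycleType_prime_order (σ := star' m) (by rw [hord]; exact Nat.prime_two)
    rw [hord] at hk
    have hsupp : (star' m).support = Finset.univ := by
      rw [Finset.eq_univ_iff_forall]
      intro i
      rw [Equiv.Perm.mem_support]
      exact star_ne i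
    have hsum := Equiv.Perm.sum_cycleType (star' m)
    rw [hk, hsupp, Finset.card_univ, Fintype.card_sum, Fintype.card_fin, Multiset.sum_replicate, smul_eq_mul] at hsum
    have hkm : k + 1 = m := by omega
    rw [Equiv.Perm.nat_card_centralizer, hk, hkm, Multiset.sum_replicate, Multiset.prod_replicate, smul_eq_mul,
      Fintype.card_sum, Fintype.card_fin, Multiset.toFinset_replicate, if_neg (by omega), Finset.prod_singleton,
      Multiset.count_replicate_self, show m + m - m * 2 = 0 by omega, Nat.factorial_zero, one_mul]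

end perm

section weyl

variable {F : Type*} [Field F] {m : ℕ}

theorem J_star (i j : Fin m ⊕ Fin m) : Matrix.J (Fin m) F i j ≠ 0 ↔ j = star' m i := by
  rcases i with i | i <;> rcases j with j | j
  · simp [Matrix.J, star_inl]
  · rw [star_inl, Sum.inr.injEq]
    simp only [Matrix.J, Matrix.fromBlocks_apply₁₂, Matrix.neg_apply, Matrix.one_apply, ne_eq, neg_eq_zero]
    by_cases h : i = j
    · subst h; simp
    · rw [if_neg h]; simp [Ne.symm h]
  · rw [star_inr, Sum.inl.injEq]
    simp only [Matrix.J, Matrix.fromBlocks_apply₂₁, Matrix.one_apply, ne_eq]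
    by_cases h : i = j
    · subst h; simp
    · rw [if_neg h]; simp [Ne.symm h]
  · simp [Matrix.J, star_inr]

theorem J_anti (i j : Fin m ⊕ Fin m) : Matrix.J (Fin m) F i j = - Matrix.J (Fin m) F j i := by
  rw [← sympB_single, ← sympB_single, sympB_neg]

/-- extended scalars -/
noncomputable def cext (π : Equiv.Perm (Fin m ⊕ Fin m)) (c : Fin m → Fˣ) : Fin m ⊕ Fin m → F
  | Sum.inl i => (c i : F)
  | Sum.inr i => Matrix.J (Fin m) F (Sum.inl i) (Sum.inr i) /
      ((c i : F) * Matrix.J (Fin m) F (π (Sum.inl i)) (π (Sum.inr i)))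

theorem cext_mul {π : Equiv.Perm (Fin m ⊕ Fin m)} (hπ : ∀ i, π (star' m i) = star' m (π i)) (c : Fin m → Fˣ)
    (i : Fin m ⊕ Fin m) : cext π c i * cext π c (star' m i) * Matrix.J (Fin m) F (π i) (π (star' m i)) =
      Matrix.J (Fin m) F i (star' m i) := by
  have key : ∀ i : Fin m, (c i : F) * (Matrix.J (Fin m) F (Sum.inl i) (Sum.inr i) /
      ((c i : F) * Matrix.J (Fin m) F (π (Sum.inl i)) (π (Sum.inr i)))) *
      Matrix.J (Fin m) F (π (Sum.inl i)) (π (Sum.inr i)) = Matrix.J (Fin m) F (Sum.inl i) (Sum.inr i) := by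
    intro i
    have h1 : Matrix.J (Fin m) F (π (Sum.inl i)) (π (Sum.inr i)) ≠ 0 := by
      rw [J_star, ← hπ]; rfl
    have h2 : (c i : F) ≠ 0 := (c i).ne_zero
    field_simp
  rcases i with i | i
  · rw [star_inl]; exact key i
  · rw [star_inr, J_anti (π _), J_anti (Sum.inr i)]
    have := key i
    show (Matrix.J (Fin m) F (Sum.inl i) (Sum.inr i) /
      ((c i : F) * Matrix.J (Fin m) F (π (Sum.inl i)) (π (Sum.inr i)))) * (c i : F) * _ = _
    linear_combination -this

/-- monomial matrix -/
noncomputable def monoMat (π : Equiv.Perm (Fin m ⊕ Fin m)) (d : Fin m ⊕ Fin m → F) :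
    Matrix (Fin m ⊕ Fin m) (Fin m ⊕ Fin m) F := Matrix.of fun k i => if k = π i then d i else 0

theorem monoMat_single (π : Equiv.Perm (Fin m ⊕ Fin m)) (d : Fin m ⊕ Fin m → F) (i : Fin m ⊕ Fin m) :
    (monoMat π d).mulVec (Pi.single i 1) = d i • Pi.single (π i) 1 := by
  rw [Matrix.mulVec_single_one]
  funext k
  show (if k = π i then d i else 0) = d i * (Pi.single (π i) (1 : F) : Fin m ⊕ Fin m → F) k
  by_cases h : k = π i
  · rw [if_pos h, h, Pi.single_eq_same, mul_one]
  · rw [if_neg h, Pi.single_eq_of_ne h, mul_zero]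

theorem monoMat_mem {π : Equiv.Perm (Fin m ⊕ Fin m)} (hπ : ∀ i, π (star' m i) = star' m (π i)) (c : Fin m → Fˣ) :
    monoMat π (cext π c) ∈ Matrix.symplecticGroup (Fin m) F := by
  rw [mem_Sp_iff_cols]
  intro i j
  rw [monoMat_single, monoMat_single, map_smul, map_smul, LinearMap.smul_apply, sympB_single, sympB_single,
    smul_eq_mul, smul_eq_mul]
  by_cases h : j = star' m i
  · subst h
    rw [← cext_mul hπ c i]; ring
  · have h1 : Matrix.J (Fin m) F i j = 0 := by
      by_contra h'; exact h ((J_star i j).mp h')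
    have h2 : Matrix.J (Fin m) F (π i) (π j) = 0 := by
      by_contra h'
      have := (J_star (π i) (π j)).mp h'
      rw [← hπ] at this
      exact h (π.injective this)
    rw [h1, h2, mul_zero, mul_zero]

/-- data of a monomial symplectic matrix -/
theorem mono_data {g : Matrix.symplecticGroup (Fin m) F} {π : Equiv.Perm (Fin m ⊕ Fin m)} {d : Fin m ⊕ Fin m → F}
    (h : ∀ i, (g : Matrix (Fin m ⊕ Fin m) (Fin m ⊕ Fin m) F).mulVec (Pi.single i 1) = d i • Pi.single (π i) 1) :
    (∀ i, d i ≠ 0) ∧ (∀ i, π (star' m i) = star' m (π i)) ∧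
      ∀ i, d i * d (star' m i) * Matrix.J (Fin m) F (π i) (π (star' m i)) = Matrix.J (Fin m) F i (star' m i) := by
  have hd : ∀ i, d i ≠ 0 := by
    intro i h0
    have h1 := h i
    rw [h0, zero_smul] at h1
    have h2 : (Pi.single i (1 : F) : Fin m ⊕ Fin m → F) = 0 := (spEhom m F g).injective (by rw [spEhom_apply, h1, map_zero])
    have := congrFun h2 i
    rw [Pi.single_eq_same] at this
    exact one_ne_zero this
  have hform : ∀ i j, d i * d j * Matrix.J (Fin m) F (π i) (π j) = Matrix.J (Fin m) F i j := by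
    intro i j
    have h1 := mem_Sp_iff_cols.mp g.2 i j
    rw [h, h, map_smul, map_smul, LinearMap.smul_apply, sympB_single, sympB_single, smul_eq_mul, smul_eq_mul] at h1
    rw [← h1]; ring
  refine ⟨hd, fun i => ?_, fun i => hform _ _⟩
  rw [← J_star (F := F)]
  intro h0
  have h1 := hform i (star' m i)
  rw [h0, mul_zero] at h1
  exact ((J_star (F := F) i (star' m i)).mpr rfl) h1.symm

/-- monomial elements -/
def IsMono (g : Matrix.symplecticGroup (Fin m) F) : Prop :=
  ∃ (π : Equiv.Perm (Fin m ⊕ Fin m)) (d : Fin m ⊕ Fin m → F),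
    ∀ i, (g : Matrix (Fin m ⊕ Fin m) (Fin m ⊕ Fin m) F).mulVec (Pi.single i 1) = d i • Pi.single (π i) 1

theorem card_mono [Fintype F] {q : ℕ} (hF : Fintype.card F = q) :
    Nat.card {g : Matrix.symplecticGroup (Fin m) F // IsMono g} = 2 ^ m * Nat.factorial m * (q - 1) ^ m := by
  classical
  have hcent : ∀ π : Equiv.Perm (Fin m ⊕ Fin m), π ∈ Subgroup.centralizer {star' m} ↔
      ∀ i, π (star' m i) = star' m (π i) := by
    intro π
    rw [Subgroup.mem_centralizer_singleton_iff]
    constructor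
    · intro h i
      exact congrFun (congrArg DFunLike.coe h) i
    · intro h
      ext i; rw [Equiv.Perm.mul_apply, Equiv.Perm.mul_apply, h]
  let f : (Subgroup.centralizer {star' m}) × (Fin m → Fˣ) → {g : Matrix.symplecticGroup (Fin m) F // IsMono g} :=
    fun p => ⟨⟨monoMat p.1.1 (cext p.1.1 p.2), monoMat_mem ((hcent _).mp p.1.2) p.2⟩, p.1.1, cext p.1.1 p.2,
      monoMat_single _ _⟩
  have hf : Function.Bijective f := by
    constructor
    · rintro ⟨⟨π, hπ⟩, c⟩ ⟨⟨π', hπ'⟩, c'⟩ h
      have h1 : monoMat π (cext π c) = monoMat π' (cext π' c') := congrArg (fun x => x.1.1) h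
      have h2 : ∀ i, cext π c i • (Pi.single (π i) (1 : F) : Fin m ⊕ Fin m → F) = cext π' c' i • Pi.single (π' i) 1 := by
        intro i
        rw [← monoMat_single, h1, monoMat_single]
      have hne : ∀ i, cext π c i ≠ 0 := (mono_data (g := ⟨monoMat π (cext π c), monoMat_mem ((hcent _).mp hπ) c⟩)
        (monoMat_single _ _)).1
      have hpi : π = π' := by
        ext i
        by_contra hne'
        have h3 := congrFun (h2 i) (π i)
        rw [Pi.smul_apply, Pi.smul_apply, Pi.single_eq_same, Pi.single_eq_of_ne hne', smul_zero, smul_eq_mul, mul_one] at h3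
        exact hne i h3
      subst hpi
      have hc : c = c' := by
        funext i
        apply Units.ext
        have h3 := congrFun (h2 (Sum.inl i)) (π (Sum.inl i))
        rw [Pi.smul_apply, Pi.smul_apply, Pi.single_eq_same, smul_eq_mul, mul_one, smul_eq_mul, mul_one] at h3
        exact h3
      subst hc
      rfl
    · rintro ⟨g, π, d, h⟩
      obtain ⟨hd, hπ, hJ⟩ := mono_data h
      refine ⟨(⟨π, (hcent π).mpr hπ⟩, fun i => Units.mk0 (d (Sum.inl i)) (hd _)), ?_⟩
      apply Subtype.ext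
      apply Subtype.ext
      apply Matrix.ext_of_mulVec_single
      intro i
      show (monoMat π (cext π (fun i => Units.mk0 (d (Sum.inl i)) (hd _)))).mulVec (Pi.single i 1) = _
      rw [monoMat_single, h]
      congr 1
      rcases i with i | i
      · rfl
      · show Matrix.J (Fin m) F (Sum.inl i) (Sum.inr i) /
          (d (Sum.inl i) * Matrix.J (Fin m) F (π (Sum.inl i)) (π (Sum.inr i))) = d (Sum.inr i)
        have h1 := hJ (Sum.inl i)
        rw [star_inl] at h1
        have h2 : Matrix.J (Fin m) F (π (Sum.inl i)) (π (Sum.inr i)) ≠ 0 := by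
          rw [J_star, ← hπ]; rfl
        rw [div_eq_iff (mul_ne_zero (hd _) h2), ← h1]
        ring
  rw [← Nat.card_congr (Equiv.ofBijective f hf), Nat.card_prod, card_weyl, Nat.card_pi]
  simp only [Finset.prod_const, Finset.card_univ, Fintype.card_fin]
  rw [Nat.card_eq_fintype_card, Fintype.card_units, hF]

/-- the torus -/
def torus (m : ℕ) (F : Type*) [Field F] : Subgroup (Matrix.symplecticGroup (Fin m) F) :=
  ⨅ i : Fin m ⊕ Fin m, stabilizing (spToMat m F) ((Submodule.span F {(Pi.single i (1 : F) : Fin m ⊕ Fin m → F)} :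
    Submodule F (Fin m ⊕ Fin m → F)) : Set (Fin m ⊕ Fin m → F))

theorem mem_torus {g : Matrix.symplecticGroup (Fin m) F} : g ∈ torus m F ↔
    ∃ d : Fin m ⊕ Fin m → F, ∀ i, (g : Matrix (Fin m ⊕ Fin m) (Fin m ⊕ Fin m) F).mulVec (Pi.single i 1) = d i • Pi.single i 1 := by
  unfold torus
  rw [Subgroup.mem_iInf]
  constructor
  · intro h
    have h1 : ∀ i, ∃ a : F, a • (Pi.single i (1 : F) : Fin m ⊕ Fin m → F) =
        (g : Matrix (Fin m ⊕ Fin m) (Fin m ⊕ Fin m) F).mulVec (Pi.single i 1) := by
      intro i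
      have := (h i (Pi.single i 1)).mp (Submodule.mem_span_singleton_self _)
      exact Submodule.mem_span_singleton.mp this
    choose d hd using h1
    exact ⟨d, fun i => (hd i).symm⟩
  · rintro ⟨d, hd⟩ i
    have hne := (mono_data (g := g) (π := 1) (d := d) hd).1
    intro v
    show v ∈ Submodule.span F {(Pi.single i (1 : F) : Fin m ⊕ Fin m → F)} ↔
      (g : Matrix (Fin m ⊕ Fin m) (Fin m ⊕ Fin m) F).mulVec v ∈ Submodule.span F {(Pi.single i (1 : F) : Fin m ⊕ Fin m → F)}
    rw [Submodule.mem_span_singleton, Submodule.mem_span_singleton]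
    constructor
    · rintro ⟨a, rfl⟩
      exact ⟨a * d i, by rw [Matrix.mulVec_smul, hd, smul_smul]⟩
    · rintro ⟨a, ha⟩
      refine ⟨a / d i, (spEhom m F g).injective ?_⟩
      rw [map_smul, spEhom_apply, spEhom_apply, hd, smul_smul, div_mul_cancel₀ _ (hne i), ha]

theorem mulVec_coord (M : Matrix (Fin m ⊕ Fin m) (Fin m ⊕ Fin m) F) (i k : Fin m ⊕ Fin m) :
    (M.mulVec (Pi.single i 1)) k = M k i := by
  rw [Matrix.mulVec_single_one]; rfl

/-- normaliser of the torus -/
theorem mem_normalizer_torus {a : F} (ha0 : a ≠ 0) (ha1 : a * a ≠ 1) {g : Matrix.symplecticGroup (Fin m) F} :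
    g ∈ Subgroup.normalizer (torus m F : Set (Matrix.symplecticGroup (Fin m) F)) ↔ IsMono g := by
  classical
  have hginv : ∀ (g : Matrix.symplecticGroup (Fin m) F) (x : Fin m ⊕ Fin m → F),
      ((g⁻¹ : Matrix.symplecticGroup (Fin m) F) : Matrix (Fin m ⊕ Fin m) (Fin m ⊕ Fin m) F).mulVec
        ((g : Matrix (Fin m ⊕ Fin m) (Fin m ⊕ Fin m) F).mulVec x) = x := by
    intro g x
    rw [Matrix.mulVec_mulVec, ← Submonoid.coe_mul, inv_mul_cancel, Submonoid.coe_one, Matrix.one_mulVec]
  rw [Subgroup.mem_normalizer_iff]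
  constructor
  · intro hg
    -- each column has exactly one nonzero entry
    have hcol : ∀ i, ∃ j, ∀ k, k ≠ j → (g : Matrix (Fin m ⊕ Fin m) (Fin m ⊕ Fin m) F) k i = 0 := by
      intro i
      by_contra hcon
      push Not at hcon
      obtain ⟨j, hj1, hj⟩ := hcon i
      obtain ⟨k, hk1, hk⟩ := hcon j
      -- torus element with value a at j, a⁻¹ at star j
      let c : Fin m → Fˣ := fun l => if Sum.inl l = j then Units.mk0 a ha0 else
        if Sum.inr l = j then (Units.mk0 a ha0)⁻¹ else 1
      let s : Matrix.symplecticGroup (Fin m) F := ⟨monoMat 1 (cext 1 c), monoMat_mem (π := 1) (fun _ => rfl) c⟩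
      have hs : ∀ l, (s : Matrix (Fin m ⊕ Fin m) (Fin m ⊕ Fin m) F).mulVec (Pi.single l 1) =
          cext (1 : Equiv.Perm (Fin m ⊕ Fin m)) c l • Pi.single l 1 := fun l => monoMat_single 1 _ l
      have hsT : s ∈ torus m F := mem_torus.mpr ⟨_, hs⟩
      have h1 : g⁻¹ * s * g ∈ torus m F := by
        rw [hg]
        have : g * (g⁻¹ * s * g) * g⁻¹ = s := by group
        rw [this]; exact hsT
      obtain ⟨t, ht⟩ := mem_torus.mp h1
      have h2 : ∀ l, cext (1 : Equiv.Perm (Fin m ⊕ Fin m)) c l * (g : Matrix (Fin m ⊕ Fin m) (Fin m ⊕ Fin m) F) l i =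
          t i * (g : Matrix (Fin m ⊕ Fin m) (Fin m ⊕ Fin m) F) l i := by
        intro l
        have h3 := congrArg (fun x => (g : Matrix (Fin m ⊕ Fin m) (Fin m ⊕ Fin m) F).mulVec x) (ht i)
        have h4 : (g : Matrix (Fin m ⊕ Fin m) (Fin m ⊕ Fin m) F).mulVec
            (((g⁻¹ * s * g : Matrix.symplecticGroup (Fin m) F) : Matrix (Fin m ⊕ Fin m) (Fin m ⊕ Fin m) F).mulVec (Pi.single i 1)) =
            (s : Matrix (Fin m ⊕ Fin m) (Fin m ⊕ Fin m) F).mulVec ((g : Matrix (Fin m ⊕ Fin m) (Fin m ⊕ Fin m) F).mulVec (Pi.single i 1)) := by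
          rw [Matrix.mulVec_mulVec, Matrix.mulVec_mulVec, ← Submonoid.coe_mul, ← Submonoid.coe_mul]
          congr 2
          group
        rw [h4, Matrix.mulVec_smul] at h3
        have h5 := congrFun h3 l
        rw [Pi.smul_apply, mulVec_coord, smul_eq_mul] at h5
        rw [← h5]
        have h6 : (g : Matrix (Fin m ⊕ Fin m) (Fin m ⊕ Fin m) F).mulVec (Pi.single i 1) =
            ∑ r, (g : Matrix (Fin m ⊕ Fin m) (Fin m ⊕ Fin m) F) r i • (Pi.single r (1 : F) : Fin m ⊕ Fin m → F) := by
          funext r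
          rw [mulVec_coord]
          simp [Finset.sum_apply, Pi.single_apply]
        rw [h6, Matrix.mulVec_sum, Finset.sum_apply, Finset.sum_eq_single l]
        · rw [Matrix.mulVec_smul, hs, Pi.smul_apply, Pi.smul_apply, Pi.single_eq_same, smul_eq_mul, smul_eq_mul]
          ring
        · intro r _ hr
          rw [Matrix.mulVec_smul, hs, Pi.smul_apply, Pi.smul_apply, Pi.single_eq_of_ne (Ne.symm hr), smul_zero, smul_zero]
        · intro h; exact absurd (Finset.mem_univ l) h
      have h7 : cext (1 : Equiv.Perm (Fin m ⊕ Fin m)) c j = t i := mul_right_cancel₀ hj (h2 j)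
      have h8 : cext (1 : Equiv.Perm (Fin m ⊕ Fin m)) c k = t i := mul_right_cancel₀ hk (h2 k)
      have h9 : cext (1 : Equiv.Perm (Fin m ⊕ Fin m)) c k = cext (1 : Equiv.Perm (Fin m ⊕ Fin m)) c j := by rw [h7, h8]
      have hJne : ∀ l : Fin m, Matrix.J (Fin m) F (Sum.inl l) (Sum.inr l) ≠ 0 := fun l => (J_star _ _).mpr rfl
      have hcr : ∀ l : Fin m, cext (1 : Equiv.Perm (Fin m ⊕ Fin m)) c (Sum.inr l) = ((c l : F))⁻¹ := by
        intro l
        show Matrix.J (Fin m) F (Sum.inl l) (Sum.inr l) / ((c l : F) * Matrix.J (Fin m) F (Sum.inl l) (Sum.inr l)) = _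
        have := hJne l
        have := (c l).ne_zero
        field_simp
      have hcl : ∀ l : Fin m, cext (1 : Equiv.Perm (Fin m ⊕ Fin m)) c (Sum.inl l) = (c l : F) := fun l => rfl
      have hcj : cext (1 : Equiv.Perm (Fin m ⊕ Fin m)) c j = a := by
        rcases j with j | j
        · rw [hcl]; simp [c]
        · rw [hcr]; simp [c]
      have hck : cext (1 : Equiv.Perm (Fin m ⊕ Fin m)) c k = 1 ∨ cext (1 : Equiv.Perm (Fin m ⊕ Fin m)) c k = a⁻¹ := by
        rcases k with k | k
        · rw [hcl]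
          simp only [c]
          rw [if_neg hk1]
          split_ifs
          · right; simp
          · left; simp
        · rw [hcr]
          simp only [c]
          rw [if_neg hk1]
          split_ifs
          · right; simp
          · left; simp
      rw [hcj] at h9
      rcases hck with h | h
      · rw [h] at h9; apply ha1; rw [← h9, one_mul]
      · rw [h] at h9; apply ha1
        calc a * a = a⁻¹ * a := by rw [h9]
          _ = 1 := inv_mul_cancel₀ ha0
    choose π hπ using hcol
    have hmul : ∀ i, (g : Matrix (Fin m ⊕ Fin m) (Fin m ⊕ Fin m) F).mulVec (Pi.single i 1) =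
        (g : Matrix (Fin m ⊕ Fin m) (Fin m ⊕ Fin m) F) (π i) i • Pi.single (π i) 1 := by
      intro i
      funext k
      rw [mulVec_coord, Pi.smul_apply, smul_eq_mul]
      by_cases hk : k = π i
      · rw [hk, Pi.single_eq_same, mul_one]
      · rw [hπ i k hk, Pi.single_eq_of_ne hk, mul_zero]
    have hne : ∀ i, (g : Matrix (Fin m ⊕ Fin m) (Fin m ⊕ Fin m) F) (π i) i ≠ 0 := by
      intro i h0
      have h1 := hmul i
      rw [h0, zero_smul] at h1
      have h2 : (Pi.single i (1 : F) : Fin m ⊕ Fin m → F) = 0 := (spEhom m F g).injective (by rw [spEhom_apply, h1, map_zero])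
      have := congrFun h2 i
      rw [Pi.single_eq_same] at this
      exact one_ne_zero this
    have hinj : Function.Injective π := by
      intro i i' h
      by_contra hii
      have h1 : (g : Matrix (Fin m ⊕ Fin m) (Fin m ⊕ Fin m) F).mulVec
          ((g : Matrix (Fin m ⊕ Fin m) (Fin m ⊕ Fin m) F) (π i') i' • Pi.single i 1) =
          (g : Matrix (Fin m ⊕ Fin m) (Fin m ⊕ Fin m) F).mulVec
          ((g : Matrix (Fin m ⊕ Fin m) (Fin m ⊕ Fin m) F) (π i) i • Pi.single i' 1) := by
        rw [Matrix.mulVec_smul, Matrix.mulVec_smul, hmul, hmul, smul_smul, smul_smul, h, mul_comm]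
      have h2 := (spEhom m F g).injective h1
      have h3 := congrFun h2 i
      rw [Pi.smul_apply, Pi.smul_apply, Pi.single_eq_same, Pi.single_eq_of_ne hii, smul_zero, smul_eq_mul, mul_one] at h3
      exact hne i' h3
    exact ⟨Equiv.ofBijective π (Finite.injective_iff_bijective.mp hinj), _, hmul⟩
  · rintro ⟨π, d, hd⟩
    have hne := (mono_data hd).1
    have hinv : ∀ i, ((g⁻¹ : Matrix.symplecticGroup (Fin m) F) : Matrix (Fin m ⊕ Fin m) (Fin m ⊕ Fin m) F).mulVec
        (Pi.single (π i) 1) = (d i)⁻¹ • Pi.single i 1 := by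
      intro i
      have h1 : (Pi.single (π i) (1 : F) : Fin m ⊕ Fin m → F) = (g : Matrix (Fin m ⊕ Fin m) (Fin m ⊕ Fin m) F).mulVec
          ((d i)⁻¹ • Pi.single i 1) := by
        rw [Matrix.mulVec_smul, hd, smul_smul, inv_mul_cancel₀ (hne i), one_smul]
      rw [h1, hginv]
    intro h
    constructor
    · intro hh
      obtain ⟨t, ht⟩ := mem_torus.mp hh
      refine mem_torus.mpr ⟨fun j => t (π.symm j), fun j => ?_⟩
      obtain ⟨i, rfl⟩ := π.surjective j
      show _ = t (π.symm (π i)) • _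
      rw [Submonoid.coe_mul, Submonoid.coe_mul, ← Matrix.mulVec_mulVec, ← Matrix.mulVec_mulVec, hinv, Matrix.mulVec_smul,
        ht, Matrix.mulVec_smul, Matrix.mulVec_smul, hd, Equiv.symm_apply_apply, smul_smul, smul_smul]
      congr 1
      have := hne i
      field_simp
    · intro hh
      obtain ⟨t, ht⟩ := mem_torus.mp hh
      refine mem_torus.mpr ⟨fun i => t (π i), fun i => ?_⟩
      have h1 : (h : Matrix (Fin m ⊕ Fin m) (Fin m ⊕ Fin m) F) =
          ((g⁻¹ : Matrix.symplecticGroup (Fin m) F) : Matrix (Fin m ⊕ Fin m) (Fin m ⊕ Fin m) F) *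
          ((g * h * g⁻¹ : Matrix.symplecticGroup (Fin m) F) : Matrix (Fin m ⊕ Fin m) (Fin m ⊕ Fin m) F) *
          (g : Matrix (Fin m ⊕ Fin m) (Fin m ⊕ Fin m) F) := by
        rw [← Submonoid.coe_mul, ← Submonoid.coe_mul]
        congr 1
        group
      rw [h1, ← Matrix.mulVec_mulVec, ← Matrix.mulVec_mulVec, hd, Matrix.mulVec_smul, ht, Matrix.mulVec_smul,
        Matrix.mulVec_smul, hinv, smul_smul, smul_smul]
      congr 1
      have := hne i
      field_simp

end weyl

end Cfsg.Agent.H5
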